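/-
Groups of symplectic type in dimension four (a light-weight copy of parts of `H27.C6b`, `H27.C6c`).
-/
import Cfsg.Agent.H27.Asch26
import Cfsg.Agent.H4.Hall3

set_option autoImplicit false

namespace H21.C6

open Matrix Module Cfsg Cfsg.Geo H27.Asch Subgroup
open scoped commutatorElement

variable {F : Type*} [Field F] {ι : Type} [Fintype ι] [DecidableEq ι] {R A B : Subgroup (GL ι F)}
  {h x y t s a b c d w : GL ι F} {r r₀ : ℕ}

local notation "𝐍" => subgroupNormalizer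
local notation "𝐙" => scalars ι F

theorem nm_conj (hh : h ∈ 𝐍 R) (hx : x ∈ R) : h * x * h⁻¹ ∈ R := (mem_normalizer_iff.1 hh x).1 hx

theorem neg_one_sc : (-1 : GL ι F) ∈ 𝐙 := ⟨-1, Units.ext (by simp)⟩

theorem cent_of {i : ℕ} (hr : h ^ r ∈ 𝐙) (h1 : i.Coprime r) (h2 : r.Coprime r₀) (ha : a ^ r₀ ∈ 𝐙) (hw : w ∈ 𝐙)
    (e : h ^ i * a * (h ^ i)⁻¹ = w * a) : h * a = a * h := by
  have k : ∀ n, (h ^ i) ^ n * a * ((h ^ i) ^ n)⁻¹ = w ^ n * a := fun n => by
    induction n with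
    | zero => simp
    | succ n ih => calc _ = h ^ i * ((h ^ i) ^ n * a * ((h ^ i) ^ n)⁻¹) * (h ^ i)⁻¹ := by group
        _ = w ^ n * (h ^ i * a * (h ^ i)⁻¹) := by rw [ih, ← mul_assoc, ← scalars_comm (pow_mem hw n)]; group
        _ = _ := by rw [e]; group
  have w1 : w ^ r = 1 := by
    have := k r
    rw [← pow_mul, mul_comm i, pow_mul, scalars_comm (pow_mem hr i), mul_inv_cancel_right] at this
    exact mul_eq_right.1 this.symm
  have w2 : w ^ r₀ = 1 := by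
    have := congrArg (· ^ r₀) e
    simp only [conj_pow] at this
    rw [← scalars_comm ha, mul_inv_cancel_right, Commute.mul_pow (scalars_comm hw a)] at this
    exact mul_eq_right.1 this.symm
  rw [(pow_eq_one_iff_of_coprime h2).1 ⟨w1, w2⟩, one_mul, mul_inv_eq_iff_eq_mul] at e
  obtain ⟨u, v, huv⟩ := Nat.isCoprime_iff_coprime.2 h1
  have : h = (h ^ i) ^ u * (h ^ r) ^ v := by
    rw [← zpow_natCast, ← zpow_natCast, ← _root_.zpow_mul, ← _root_.zpow_mul, ← _root_.zpow_add, mul_comm, mul_comm _ v, huv, zpow_one]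
  rw [this]
  exact ((Commute.zpow_left e u).mul_left (Commute.zpow_left (scalars_comm hr a) v)).eq

theorem not_quad (E : EData r₀ R) (hh : h ∈ 𝐍 R) (hr : h ^ r ∈ 𝐙) (h6 : r.Coprime 6) (h2 : r.Coprime r₀) {α β : F}
    (e : h.val * h.val = α • h.val + β • 1) : h ∈ 𝐙 := by
  haveI := nonempty_of_two E.two
  by_cases hβ : β = 0
  · exact mem_scalars.2 ⟨α, (Units.mul_left_inj h).1 (by simpa [hβ] using e)⟩
  refine mem_scalars_of_comm E.top fun a ha => ?_
  by_contra hn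
  have k : ∀ i : ℕ, i.Coprime r → (h ^ i * a * (h ^ i)⁻¹ * a⁻¹).val.trace = 0 := fun i hi =>
    E.trace_eq_zero (mul_mem (nm_conj (pow_mem hh i) ha) (inv_mem ha)) fun e =>
      hn (cent_of hr hi h2 (E.pow a ha) e (by group))
  have e3 : h.val * h.val * h.val = (α * α + β) • h.val + (α * β) • 1 := by
    rw [e, add_mul, smul_mul_assoc, e]; simp only [smul_mul_assoc, one_mul]; module
  have : β • (h ^ 3 * a * (h ^ 3)⁻¹ * a⁻¹).val + (α * α + β) • (h ^ 2 * a * (h ^ 2)⁻¹ * a⁻¹).val -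
      (α * α + β) • (h ^ 1 * a * (h ^ 1)⁻¹ * a⁻¹).val - β • 1 = 0 := by
    refine (Units.mul_left_eq_zero (a * (h * h * h))).1 ?_
    simp only [sub_mul, add_mul, smul_mul_assoc, ← Units.val_mul, one_mul]
    rw [show h ^ 3 * a * (h ^ 3)⁻¹ * a⁻¹ * (a * (h * h * h)) = h * h * h * a by simp [pow_succ, mul_assoc],
      show h ^ 2 * a * (h ^ 2)⁻¹ * a⁻¹ * (a * (h * h * h)) = h * h * a * h by simp [pow_succ, mul_assoc],
      show h ^ 1 * a * (h ^ 1)⁻¹ * a⁻¹ * (a * (h * h * h)) = h * a * (h * h) by simp [mul_assoc]]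
    simp only [Units.val_mul, e3]
    simp only [e, add_mul, mul_add, smul_mul_assoc, mul_smul_comm, one_mul, mul_one, mul_assoc]
    module
  have := congrArg trace this
  rw [trace_sub, trace_sub, trace_add, trace_smul, trace_smul, trace_smul, trace_smul, k 1 (by simp),
    k 2 (Nat.Coprime.coprime_dvd_left (by decide) h6.symm), k 3 (Nat.Coprime.coprime_dvd_left (by decide) h6.symm)] at this
  simp [hβ, E.card_ne_zero] at this

open Classical in
/-- the commutator form -/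
noncomputable def bt (x y : GL ι F) : ZMod 2 := if x * y = y * x then 0 else 1

theorem bt_zero : bt x y = 0 ↔ x * y = y * x := by unfold bt; split_ifs with h <;> simp [h]

theorem bt_one : bt x y = 1 ↔ x * y ≠ y * x := by unfold bt; split_ifs with h <;> simp [h]

theorem bt_congr (h : x * y = y * x ↔ a * b = b * a) : bt x y = bt a b := by
  by_cases e : x * y = y * x
  · rw [bt_zero.2 e, bt_zero.2 (h.1 e)]
  · rw [bt_one.2 e, bt_one.2 (mt h.2 e)]

theorem bt_symm (x y : GL ι F) : bt x y = bt y x := bt_congr eq_comm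

theorem ne_neg [Nonempty ι] (h2 : (2 : F) ≠ 0) (x : GL ι F) : x ≠ -x := fun e => by
  have : (2 : F) • x.val = 0 := by rw [two_smul, add_eq_zero_iff_eq_neg]; exact congrArg Units.val e
  exact x.ne_zero ((smul_eq_zero.1 this).resolve_left h2)

section
variable (E : EData 2 R)
include E

theorem bt_mul (hx : x ∈ R) (hy : y ∈ R) (ht : t ∈ R) : bt (x * y) t = bt x t + bt y t := by
  haveI := nonempty_of_two E.two
  have k : ∀ {x}, x * t = -(t * x) → bt x t = 1 := fun e => bt_one.2 fun e' => ne_neg E.two_ne _ (e'.symm.trans e)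
  rcases E.comm_or hx ht with a | a <;> rcases E.comm_or hy ht with b | b
  · rw [bt_zero.2 a, bt_zero.2 b, bt_zero.2 (by rw [mul_assoc, b, ← mul_assoc, a, mul_assoc]), add_zero]
  · rw [bt_zero.2 a, k b, k (by rw [mul_assoc, b, mul_neg, ← mul_assoc, a, mul_assoc]), zero_add]
  · rw [k a, bt_zero.2 b, k (by rw [mul_assoc, b, ← mul_assoc, a, neg_mul, mul_assoc]), add_zero]
  · rw [k a, k b, bt_zero.2 (by rw [mul_assoc, b, mul_neg, ← mul_assoc, a, neg_mul, neg_neg, mul_assoc])]; rfl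

theorem bt_mul' (hx : x ∈ R) (hy : y ∈ R) (ht : t ∈ R) : bt t (x * y) = bt t x + bt t y := by
  rw [bt_symm, bt_mul E hx hy ht, bt_symm, bt_symm y]

theorem exists_an (ht : t ∈ R) (h : t ∉ 𝐙) : ∃ s ∈ R, bt s t = 1 := by
  haveI := nonempty_of_two E.two
  by_contra! e
  exact h (mem_scalars_of_comm E.top fun y hy => (not_not.1 (bt_one.not.1 (e y hy))).symm)

theorem an_of (hx : x ∈ R) (hy : y ∈ R) (h : bt x y = 1) : x * y = -(y * x) :=
  (E.comm_or hx hy).resolve_left (bt_one.1 h)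

theorem neg_mem' (h : ∃ t ∈ R, t ∉ 𝐙) (hx : x ∈ R) : -x ∈ R := by
  obtain ⟨t, ht, h⟩ := h
  obtain ⟨s, hs, e⟩ := exists_an E ht h
  have : s * t * (t * s)⁻¹ * x = -x := by rw [an_of E hs ht e]; simp
  exact this ▸ mul_mem (mul_mem (mul_mem hs ht) (inv_mem (mul_mem ht hs))) hx

theorem idx2 (hA : A ≤ R) (ht : t ∈ R) (hs : s ∈ A) (h : bt s t = 1) :
    Nat.card A = 2 * Nat.card (A ⊓ centralizer {t} : Subgroup _) := by
  have : ((centralizer {t}).subgroupOf A).index = 2 := index_eq_two_iff.2 ⟨⟨s, hs⟩, fun b => by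
    simp only [mem_subgroupOf, mem_centralizer_singleton_iff, coe_mul, ← bt_zero, bt_mul E (hA b.2) (hA hs) ht, h]
    generalize bt b.1 t = z
    revert z; decide⟩
  rw [← this, ← index_mul_card ((centralizer {t}).subgroupOf A), H1.card_subgroupOf, inf_comm]

theorem le_of_an (hA : A ≤ R) (ht : t ∈ R) (hs : s ∈ A) (h : bt s t = 1) (h1 : s ∈ B)
    (h2 : A ⊓ centralizer {t} ≤ B) : A ≤ B := fun x hx => by
  by_cases e : x * t = t * x
  · exact h2 ⟨hx, mem_centralizer_singleton_iff.2 e⟩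
  · exact (mul_mem_cancel_right h1).1 (h2 ⟨mul_mem hx hs, mem_centralizer_singleton_iff.2 (bt_zero.1 (by
      rw [bt_mul E (hA hx) (hA hs) ht, h, bt_one.2 e]; rfl))⟩)

end

theorem card_Z [Nonempty ι] (hR : alg R = ⊤) : Nat.card (R ⊓ 𝐙 : Subgroup _) = Nat.card (center R) := by
  rw [center_eq hR, H1.card_subgroupOf, inf_comm]

theorem Z_le (h : GL ι F) : R ⊓ 𝐙 ≤ R ⊓ centralizer {h} :=
  inf_le_inf_left _ fun _ hx => mem_centralizer_singleton_iff.2 (scalars_comm hx _)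

theorem not_minus [Finite F] [Nonempty ι] (h2 : (2 : F) ≠ 0) (hR : Nat.card R = 2 ^ 5) (hm : IsOfMinusType 2 R)
    (h1 : -1 ∈ R) (ha : a ∈ R) (hb : b ∈ R) (a2 : a * a = 1) (b2 : b * b = 1) (ab : a * b = b * a) (a0 : a ∉ 𝐙)
    (b0 : b ∉ 𝐙) (c0 : a * b ∉ 𝐙) : False := by
  let S : Set R := {⟨-1, h1⟩, ⟨a, ha⟩, ⟨b, hb⟩}
  have c : ∀ x ∈ S, ∀ y ∈ S, x * y = y * x := by simp [S, ab]
  haveI : IsMulCommutative (closure S) := isMulCommutative_closure c
  have e1 := hm (closure S) inferInstance fun x hx => closure_induction (p := fun x _ => x * x = 1)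
    (by rintro _ (rfl | rfl | rfl) <;> simp [a2, b2, Subtype.ext_iff]) (by simp) (fun x y hx hy e1 e2 => by
      rw [mul_assoc, ← mul_assoc y, setLike_mul_comm hy hx, mul_assoc, e2, mul_one, e1])
    (fun x _ e => by rw [← _root_.mul_inv_rev, e, inv_one]) hx
  have e2 := hR ▸ card_subgroup_dvd_card (closure S)
  have e3 : ({1, ⟨-1, h1⟩, ⟨a, ha⟩, ⟨b, hb⟩, ⟨a * b, mul_mem ha hb⟩} : Set R).ncard ≤ Nat.card (closure S) := by
    refine Set.ncard_le_ncard (t := (Subgroup.closure S : Set R)) ?_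
    have i1 : (⟨a, ha⟩ : R) ∈ closure S := subset_closure (by simp [S])
    have i2 : (⟨b, hb⟩ : R) ∈ closure S := subset_closure (by simp [S])
    simp only [Set.insert_subset_iff, Set.singleton_subset_iff, SetLike.mem_coe]
    exact ⟨one_mem _, subset_closure (by simp [S]), i1, i2, mul_mem i1 i2⟩
  have n1 : ∀ {x}, x ∉ 𝐙 → 1 ≠ x ∧ -1 ≠ x := fun h => ⟨fun e => h (e ▸ one_mem _), fun e => h (e ▸ neg_one_sc)⟩
  have n2 : a ≠ b := fun e => c0 (by rw [← e, a2]; exact one_mem _)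
  rw [Set.ncard_insert_of_notMem (by simp [Subtype.ext_iff, ne_neg h2 1, n1 a0, n1 b0, n1 c0]),
    Set.ncard_insert_of_notMem (by simp [Subtype.ext_iff, n1 a0, n1 b0, n1 c0]),
    Set.ncard_insert_of_notMem (by simp [Subtype.ext_iff, n2, (n1 b0).1.symm]),
    Set.ncard_pair (by simp [Subtype.ext_iff, (n1 a0).1.symm])] at e3
  generalize Nat.card (closure S) = n at *
  interval_cases n <;> simp at e2

theorem alg_of_abs [Finite F] [Nonempty ι] (h : ActsAbsolutelyIrreducibly (matrixSet R)) : alg R = ⊤ := by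
  refine alg_eq_top_of (fun W hW => h.1 W ?_) fun a ha => ?_
  · rintro _ ⟨x, hx, rfl⟩ _ ⟨w, hw, rfl⟩
    exact hW x hx w hw
  · obtain ⟨c, rfl⟩ := h.2 a (by rintro _ ⟨x, hx, rfl⟩; exact (ha x hx).symm)
    exact ⟨1, c, one_ne_zero, by rw [smul_mulVec, one_mulVec]⟩

theorem exp_four (h : IsSymplecticTypeGroup 2 R) (hx : x ∈ R) : x ^ 4 = 1 :=
  congrArg Subtype.val (show (⟨x, hx⟩ : R) ^ 4 = 1 from Monoid.exponent_dvd_iff_forall_pow_eq_one.1 h.exponent_eq.dvd _)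

theorem eData_of [Finite F] (hι : 2 ≤ Fintype.card ι) (h : IsSymplecticTypeGroup 2 R)
    (hi : ActsAbsolutelyIrreducibly (matrixSet R)) : EData 2 R := by
  haveI := nonempty_of_two hι
  have ha := alg_of_abs hi
  have h4 : ∀ x : R, orderOf x ≤ 4 := fun x =>
    orderOf_le_of_pow_eq_one (by decide) (Subtype.ext (exp_four h x.2))
  obtain ⟨E, C, h1, h2, h3, h5⟩ := H4.hall_symplectic h.pGroup h.cyclic_of_characteristic
  have hC : IsCyclic C := h5.resolve_right fun ⟨_, c, d⟩ => by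
    have k : ∀ {G : Type} [Group G] (e : C ≃* G) (g : G), orderOf g ≤ 4 ∧ 0 < orderOf g := fun e g => by
      rw [← e.symm.orderOf_eq, ← orderOf_coe]; exact ⟨h4 _, orderOf_pos _⟩
    rcases d with ⟨m, ⟨e⟩⟩ | ⟨m, ⟨e⟩⟩ | ⟨n, a, -, x, -, b, -⟩
    · have := k e (.r 1)
      rw [DihedralGroup.orderOf_r_one] at this
      rw [Nat.card_congr e.toEquiv, DihedralGroup.nat_card] at c
      omega
    · have := k e (.a 1)
      rw [QuaternionGroup.orderOf_a_one] at this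
      haveI : NeZero m := ⟨by omega⟩
      rw [Nat.card_congr e.toEquiv, Nat.card_eq_fintype_card, QuaternionGroup.card] at c
      omega
    · have := h4 x
      rw [orderOf_coe, b] at this
      exact absurd ((Nat.pow_le_pow_right two_pos a).trans this) (by decide)
  have cC : C ≤ center R := fun c hc => mem_center_iff.2 fun g => (mem_centralizer_singleton_iff.1 (show g ∈ _ from
    (h2.ge.trans (sup_le (fun e he => mem_centralizer_singleton_iff.2 (h1 e he c hc)) fun d hd =>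
      mem_centralizer_singleton_iff.2 (congrArg Subtype.val (IsCyclic.commGroup.mul_comm (⟨d, hd⟩ : C) ⟨c, hc⟩))))
      (mem_top g)))
  have cE : ∀ e : E, e ∈ center E → e.1 ∈ center R := fun e he => mem_center_iff.2 fun g =>
    (mem_centralizer_singleton_iff.1 (show g ∈ _ from (h2.ge.trans (sup_le (fun d hd => mem_centralizer_singleton_iff.2
      (congrArg Subtype.val (mem_center_iff.1 he ⟨d, hd⟩))) fun d hd =>
        mem_centralizer_singleton_iff.2 (h1 _ e.2 d hd).symm)) (mem_top g)))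
  have k : ∀ e ∈ E, (∀ d ∈ E, ⁅e, d⁆ ∈ center R) ∧ e ^ 2 ∈ center R := fun e he => by
    rcases h3 with rfl | h3
    · obtain rfl := mem_bot.1 he
      simp
    · exact ⟨fun d hd => cE ⁅(⟨e, he⟩ : E), ⟨d, hd⟩⁆ (h3.1.2.2.le (commutator_mem_commutator (mem_top _) (mem_top _))),
        cE (⟨e, he⟩ ^ 2) (h3.1.2.1 ▸ H4.pow_mem_frattini h3.1.1 _)⟩
  haveI : C.Normal := ⟨fun c hc g => by rwa [mem_center_iff.1 (cC hc), mul_inv_cancel_right]⟩
  have dec : ∀ x : R, ∃ e ∈ E, ∃ c ∈ C, e * c = x := fun x => mem_sup_of_normal_right.1 (h2.ge (mem_top x))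
  rw [center_eq ha] at k cC
  refine ⟨hι, Nat.prime_two, ha, fun x hx y hy => ?_, fun x hx => ?_⟩
  · obtain ⟨e, he, c, hc, rfl⟩ := dec ⟨x, hx⟩ |>.imp fun e h => h.imp_right fun h => h.imp fun c h =>
      h.imp_right (congrArg Subtype.val)
    obtain ⟨d, hd, c', hc', rfl⟩ := dec ⟨y, hy⟩ |>.imp fun e h => h.imp_right fun h => h.imp fun c h =>
      h.imp_right (congrArg Subtype.val)
    convert (show ⁅e.1, d.1⁆ ∈ 𝐙 from (k e he).1 d hd) using 1
    simp only [coe_mul, commutatorElement_def, _root_.mul_inv_rev]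
    rw [mul_assoc e.1, scalars_comm (g := c.1) (cC hc)]
    simp only [mul_assoc, mul_inv_cancel_left]
    rw [← mul_assoc c'.1, scalars_comm (g := c'.1) (cC hc')]
    group
  · obtain ⟨e, he, c, hc, rfl⟩ := dec ⟨x, hx⟩ |>.imp fun e h => h.imp_right fun h => h.imp fun c h =>
      h.imp_right (congrArg Subtype.val)
    rw [coe_mul, Commute.mul_pow (scalars_comm (g := c.1) (cC hc) _).symm]
    exact mul_mem (k e he).2 (pow_mem (cC hc) 2)

theorem sq_an (e : x * y = -(y * x)) : x * y * (x * y) = -(x * x * (y * y)) := by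
  rw [mul_assoc, ← mul_assoc y, ← neg_neg (y * x), ← e]; simp [mul_assoc]

theorem sq_cm (e : x * y = y * x) : x * y * (x * y) = x * x * (y * y) := by
  rw [mul_assoc, ← mul_assoc y, ← e]; simp [mul_assoc]

theorem an_symm (e : x * y = -(y * x)) : y * x = -(x * y) := by rw [e, neg_neg]

section
variable (E : EData 2 R)
include E

theorem bt_an (e : x * y = -(y * x)) : bt x y = 1 :=
  haveI := nonempty_of_two E.two
  bt_one.2 fun e' => ne_neg E.two_ne _ (e'.symm.trans e)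

theorem ns_an (e : x * y = -(y * x)) : x ∉ 𝐙 := fun h => bt_one.1 (bt_an E e) (scalars_comm h y)

theorem neg_mem_R (hx : x ∈ R) : -x ∈ R := by
  obtain ⟨t, ht, s, -, e⟩ := exists_noncomm E.two E.top
  exact neg_mem' E ⟨t, ht, fun h => e (scalars_comm h s)⟩ hx

theorem gen2 (ha : a ∈ R) (hb : b ∈ R) (e : a * b = -(b * a)) (h1 : a ∈ B) (h2 : b ∈ B)
    (h3 : ∀ x ∈ R, x * a = a * x → x * b = b * x → x ∈ B) : R ≤ B :=
  le_of_an E le_rfl ha hb (bt_an E (an_symm e)) h2 (le_of_an E inf_le_left hb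
    ⟨ha, mem_centralizer_singleton_iff.2 rfl⟩ (bt_an E e) h1 fun x hx => h3 x hx.1.1
      (mem_centralizer_singleton_iff.1 hx.1.2) (mem_centralizer_singleton_iff.1 hx.2))

end

/-- generators of a group of symplectic type in dimension four -/
structure G4 (R : Subgroup (GL ι F)) (a b c d : GL ι F) : Prop where
  E : EData 2 R
  ma : a ∈ R
  mb : b ∈ R
  mc : c ∈ R
  md : d ∈ R
  ab : a * b = -(b * a)
  cd : c * d = -(d * c)
  ac : a * c = c * a
  ad : a * d = d * a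
  bc : b * c = c * b
  bd : b * d = d * b
  gen : ∀ B, a ∈ B → b ∈ B → c ∈ B → d ∈ B → R ⊓ 𝐙 ≤ B → R ≤ B

theorem exists_G4 [Finite F] (E : EData 2 R) (hι : Fintype.card ι = 4) : ∃ a b c d, G4 R a b c d := by
  haveI := nonempty_of_two E.two
  obtain ⟨a, ha, b, hb, e⟩ := exists_noncomm E.two E.top
  have e := bt_one.2 e
  have m : ∀ {x y : GL ι F}, x ∈ centralizer {y} ↔ x * y = y * x := mem_centralizer_singleton_iff
  have c0 := E.card_eq
  rw [hι, ← card_Z E.top] at c0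
  have c1 := idx2 E le_rfl ha hb ((bt_symm _ _).trans e)
  have c2 := idx2 E (A := R ⊓ centralizer {a}) inf_le_left hb ⟨ha, m.2 rfl⟩ e
  have z0 : 0 < Nat.card (R ⊓ 𝐙 : Subgroup _) := Nat.card_pos
  obtain ⟨c, hc, c3⟩ : ∃ c ∈ R ⊓ centralizer {a} ⊓ centralizer {b}, c ∉ R ⊓ 𝐙 := by
    by_contra! h
    have := card_le_of_le (show R ⊓ centralizer {a} ⊓ centralizer {b} ≤ R ⊓ 𝐙 from h)
    omega
  obtain ⟨d, hd, e'⟩ : ∃ d ∈ R ⊓ centralizer {a} ⊓ centralizer {b}, bt d c = 1 := by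
    by_contra! h
    exact c3 ⟨hc.1.1, mem_scalars_of_comm E.top fun y hy => (m.1 (gen2 E ha hb (an_of E ha hb e)
      (m.2 (m.1 hc.1.2).symm) (m.2 (m.1 hc.2).symm) (fun x hx x1 x2 =>
        m.2 (not_not.1 (bt_one.not.1 (h x ⟨⟨hx, m.2 x1⟩, m.2 x2⟩)))) hy)).symm⟩
  have l2 : R ⊓ centralizer {a} ⊓ centralizer {b} ≤ R := inf_le_left.trans inf_le_left
  have c4 := idx2 E l2 hc.1.1 hd e'
  have c5 := idx2 E (A := R ⊓ centralizer {a} ⊓ centralizer {b} ⊓ centralizer {c}) (inf_le_left.trans l2) hd.1.1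
    ⟨hc, m.2 rfl⟩ ((bt_symm _ _).trans e')
  have c6 : R ⊓ 𝐙 = R ⊓ centralizer {a} ⊓ centralizer {b} ⊓ centralizer {c} ⊓ centralizer {d} :=
    eq_of_le_of_card_ge (le_inf (le_inf (le_inf (Z_le a) ((Z_le b).trans inf_le_right)) ((Z_le c).trans inf_le_right))
      ((Z_le d).trans inf_le_right)) (by omega)
  exact ⟨a, b, c, d, E, ha, hb, hc.1.1, hd.1.1, an_of E ha hb e, an_symm (an_of E hd.1.1 hc.1.1 e'), (m.1 hc.1.2).symm,
    (m.1 hd.1.2).symm, (m.1 hc.2).symm, (m.1 hd.2).symm, fun B h1 h2 h3 h4 h5 => gen2 E ha hb (an_of E ha hb e) h1 h2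
      fun x hx x1 x2 => le_of_an E l2 hc.1.1 hd e' h4 (le_of_an E (inf_le_left.trans l2) hd.1.1 ⟨hc, m.2 rfl⟩
        ((bt_symm _ _).trans e') h3 (c6 ▸ h5)) ⟨⟨hx, m.2 x1⟩, m.2 x2⟩⟩

namespace G4

variable (G : G4 R a b c d)
include G

theorem swap : G4 R c d a b :=
  ⟨G.E, G.mc, G.md, G.ma, G.mb, G.cd, G.ab, G.ac.symm, G.bc.symm, G.ad.symm, G.bd.symm,
    fun B h1 h2 h3 h4 => G.gen B h3 h4 h1 h2⟩

theorem flip : G4 R b a c d :=
  ⟨G.E, G.mb, G.ma, G.mc, G.md, an_symm G.ab, G.cd, G.bc, G.bd, G.ac, G.ad, fun B h1 h2 => G.gen B h2 h1⟩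

theorem mul : G4 R a (a * b) c d :=
  ⟨G.E, G.ma, mul_mem G.ma G.mb, G.mc, G.md, by rw [mul_assoc, ← mul_neg, ← G.ab], G.cd, G.ac, G.ad,
    Commute.mul_left G.ac G.bc, Commute.mul_left G.ad G.bd, fun B h1 h2 => G.gen B h1 ((mul_mem_cancel_left h1).1 h2)⟩

theorem pair (he : ∀ x ∈ R, x ^ 4 = 1) : (a * a = -1 ∧ b * b = -1) ∨ ∃ a b, G4 R a b c d ∧ a * a = 1 ∧ b * b = 1 := by
  rcases G.E.sq_or he G.ma with e | e <;> rcases G.E.sq_or he G.mb with f | f
  · exact .inr ⟨a, b, G, e, f⟩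
  · exact .inr ⟨_, _, G.mul, e, by simp [sq_an G.ab, e, f]⟩
  · exact .inr ⟨_, _, G.flip.mul, f, by simp [sq_an G.flip.ab, e, f]⟩
  · exact .inl ⟨e, f⟩

theorem an_ac : a * c * b = -(b * (a * c)) := by rw [mul_assoc, ← G.bc, ← mul_assoc, G.ab, neg_mul, mul_assoc]

theorem minus [Finite F] (he : ∀ x ∈ R, x ^ 4 = 1) (hR : Nat.card R = 2 ^ 5) (hm : IsOfMinusType 2 R) :
    ∃ a b c d, G4 R a b c d ∧ a * a = 1 ∧ b * b = 1 ∧ c * c = -1 ∧ d * d = -1 := by
  haveI := nonempty_of_two G.E.two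
  have E := G.E
  have k : ∀ {x y}, x ∈ R → y ∈ R → x * x = 1 → y * y = 1 → x * y = y * x → x ∉ 𝐙 → y ∉ 𝐙 → x * y ∉ 𝐙 → False :=
    not_minus E.two_ne hR hm (neg_mem_R E (one_mem _))
  rcases G.pair he with ⟨a2, b2⟩ | ⟨a, b, G, a2, b2⟩ <;> rcases G.swap.pair he with ⟨c2, d2⟩ | ⟨c, d, G, c2, d2⟩
  · have s : ∀ x : GL ι F, bt x x = 0 := fun x => bt_zero.2 rfl
    have ma := G.ma
    have mb := G.mb
    have mc := G.mc
    have md := G.md
    refine (k (mul_mem ma mc) (mul_mem mb md) (by simp [sq_cm G.ac, a2, c2]) (by simp [sq_cm G.bd, b2, d2])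
      (bt_zero.1 ?_) (ns_an E G.an_ac) (ns_an E G.flip.swap.flip.swap.an_ac) fun e =>
        bt_one.1 ?_ (scalars_comm e a)).elim <;>
    simp [bt_mul E, bt_mul' E, mul_mem, ma, mb, mc, md, s, bt_an E G.ab, bt_an E G.cd, bt_an E G.flip.ab,
      bt_zero.2 G.ad, bt_zero.2 G.ac.symm, bt_zero.2 G.ad.symm, bt_zero.2 G.bc.symm]
    decide
  · exact ⟨_, _, _, _, G, c2, d2, a2, b2⟩
  · exact ⟨_, _, _, _, G, a2, b2, c2, d2⟩
  · exact (k G.ma G.mc c2 a2 G.ac (ns_an E G.ab) (ns_an E G.cd) (ns_an E G.an_ac)).elim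

end G4

end H21.C6
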