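import Cfsg.Agent.H3.Frobenius
import Cfsg.Agent.H28.Core
import Cfsg.Agent.H1.Fitting
import Cfsg.Agent.H2.Coprime
import Cfsg.Agent.H2.Hall
import Cfsg.Agent.H4.Cyclic
import Cfsg.Prelude.Def_LieExceptional

/-! Groups in which centralizers of nonidentity elements are nilpotent. -/

open Cfsg Subgroup H28

namespace H21.CN

universe u

variable {G : Type u} [Group G] [Finite G] {H K N P R : Subgroup G} {x y z e k : G} {p q : ℕ}

theorem comm_of (hK : Group.IsNilpotent K) (hx : x ∈ K) (hy : y ∈ K)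
    (h : (orderOf x).Coprime (orderOf y)) : Commute x y :=
  congrArg Subtype.val (H1.commute_of_isNilpotent_of_coprime hK (x := ⟨x, hx⟩) (y := ⟨y, hy⟩)
    (by simpa using h))

omit [Finite G] in
theorem cop [Fact p.Prime] (hP : IsPGroup p P) (hx : x ∈ P) (hy : (orderOf y).Coprime p) :
    (orderOf x).Coprime (orderOf y) := by
  obtain ⟨k, e⟩ := exists_orderOf_eq_pow hP hx
  exact e ▸ hy.symm.pow_left k

theorem ex_prime (h : x ≠ 1) : ∃ y ∈ zpowers x, y ≠ 1 ∧ (orderOf y).Prime := by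
  obtain ⟨p, hp, e⟩ := Nat.exists_prime_and_dvd (orderOf_eq_one_iff.not.2 h)
  have := Fact.mk hp
  obtain ⟨y, hy, e⟩ := exists_orderOf_eq_of_dvd_card (H := zpowers x) (Nat.card_zpowers x ▸ e)
  exact ⟨y, hy, by rintro rfl; exact hp.ne_one (e.symm.trans orderOf_one), e ▸ hp⟩

omit [Finite G] in
theorem comm_zp {x' y' : G} (c : Commute x y) (hx : x' ∈ zpowers x) (hy : y' ∈ zpowers y) :
    Commute x' y' := by
  obtain ⟨i, rfl⟩ := hx
  obtain ⟨j, rfl⟩ := hy
  exact c.zpow_zpow i j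

theorem le_of_pelts (h : ∀ p, p.Prime → ∀ x ∈ K, IsPGroup p (zpowers x) → x ∈ H) : K ≤ H :=
  H2.le_of_forall_prime_relIndex fun p hp => by
    have := Fact.mk hp
    obtain ⟨P, hP⟩ := exists_isSylowIn p K
    exact ⟨P, fun x hx => h p hp x (hP.le hx) (hP.isPGroup.to_le (zpowers_le.2 hx)),
      hP.not_dvd_relIndex⟩

theorem le_core (hN : Group.IsNilpotent N) [N.Normal] (hR : R ≤ N) (h : IsPGroup p R) :
    R ≤ pCore p G :=
  le_pCore_of_subnormal (H1.isSubnormal_of_le_of_isNilpotent hR hN (Normal.isSubnormal ‹_›)) h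

theorem ex_center [Fact p.Prime] (hH : Group.IsNilpotent H) (hp : p ∣ Nat.card H) :
    ∃ z ∈ H, orderOf z = p ∧ H ≤ centralizer {z} := by
  obtain ⟨x, hx, e⟩ := exists_orderOf_eq_of_dvd_card hp
  obtain ⟨z, hz, e⟩ := exists_orderOf_eq_of_isPGroup (isPGroup_pCoreOf p H).to_inf_left
    (H1.inf_centralizer_ne_bot_of_isNilpotent hH (pCoreOf_le p H) (le_normalizer_pCoreOf p H)
      fun e' => (Fact.out : p.Prime).ne_one (by
        rw [← e, mem_bot.1 (e' ▸ mem_map.2 ⟨⟨x, hx⟩, le_core (N := ⊤) inferInstance le_top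
          (isPGroup_zpowers_of_orderOf (k := 1) (by simpa using e)) (mem_zpowers _), rfl⟩ :
            x ∈ (⊥ : Subgroup G)), orderOf_one]))
  exact ⟨z, pCoreOf_le p H hz.1, e, fun g hg => mem_centralizer_singleton_iff.2 (hz.2 g hg)⟩

theorem hall : (fittingHall G).Normal ∧ Group.IsNilpotent (fittingHall G) ∧
    (Nat.card (fittingHall G)).Coprime (fittingHall G).index := by
  refine H1.sSup_induction_of_finite (P := fun K : Subgroup G => K.Normal ∧ Group.IsNilpotent K ∧
    (Nat.card K).Coprime K.index) ⟨inferInstance, inferInstance, by simp⟩ ?_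
  rintro A ⟨_, a2, a3⟩ B ⟨_, b2, b3⟩
  exact ⟨inferInstance, H1.isNilpotent_sup_of_normal A B a2 b2,
    ((a3.coprime_dvd_right (index_dvd_of_le le_sup_left)).mul_left
      (b3.coprime_dvd_right (index_dvd_of_le le_sup_right))).coprime_dvd_left
      (H1.card_sup_dvd le_normalizer_of_normal)⟩

variable (h : IsCNGroup G)
include h

theorem key [Fact p.Prime] (hP : IsPGroup p P) (hx : x ∈ P) (x1 : x ≠ 1)
    (hy : (orderOf y).Coprime p) (c : Commute x y) : P ≤ centralizer {y} := fun w hw => by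
  obtain ⟨⟨z, hz, hz'⟩, z1⟩ := ne_bot_iff_exists_ne_one.1
    (center_ne_bot hP fun e => x1 (mem_bot.1 (e ▸ hx)))
  have c1 := comm_of (h x x1) (mem_centralizer_singleton_iff.2 (hz' x hx).symm)
    (mem_centralizer_singleton_iff.2 c.symm) (cop hP hz hy)
  exact mem_centralizer_singleton_iff.2 (comm_of (h z fun e => z1 (Subtype.ext e))
    (mem_centralizer_singleton_iff.2 (hz' w hw)) (mem_centralizer_singleton_iff.2 c1.symm)
    (cop hP hw hy))

theorem nil_of_fpf (hH : H ≤ 𝐍 K) (hK : K ≠ ⊥)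
    (hf : ∀ a ∈ H, a ≠ 1 → K ⊓ centralizer {a} = ⊥) : Group.IsNilpotent H := by
  by_cases h0 : H = ⊥
  · rw [h0]; infer_instance
  obtain ⟨⟨z, hz⟩, z1⟩ := ne_bot_iff_exists_ne_one.1 (H3.center_complement_ne_bot hH hK h0 hf)
  exact H1.isNilpotent_of_le (fun g hg => mem_centralizer_singleton_iff.2
    (congrArg Subtype.val (mem_center_iff.1 hz ⟨g, hg⟩))) (h z fun e => z1 (Subtype.ext (Subtype.ext e)))

theorem sylow_le [Fact p.Prime] (hP : IsPGroup p P) (he : e ∈ P) (e1 : e ≠ 1)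
    (hk : k ∈ fittingSubgroup G) (k1 : k ≠ 1) (hc : (orderOf k).Coprime p) (c : Commute e k) :
    P ≤ pCore p G := by
  obtain ⟨y, hy, y1, hs⟩ := ex_prime k1
  have := Fact.mk hs
  have h1 := hc.coprime_dvd_left (orderOf_dvd_of_mem_zpowers hy)
  have h2 : y ∈ pCore (orderOf y) G := le_core H1.fitting_isNilpotent
    (zpowers_le.2 (zpowers_le.2 hk hy)) (isPGroup_zpowers_of_orderOf (k := 1) (pow_one _).symm)
    (mem_zpowers y)
  have h3 := key h hP he e1 h1 (comm_zp c (mem_zpowers e) hy)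
  refine le_core (N := 𝐂 (pCore (orderOf y) G)) (H1.isNilpotent_of_le
    (centralizer_le (Set.singleton_subset_iff.2 h2)) (h y y1)) (fun w hw => mem_centralizer'.2
      fun v hv => mem_centralizer_singleton_iff.1 (key h (isPGroup_pCore _ G) h2 y1
        (cop hP hw h1) (mem_centralizer_singleton_iff.1 (h3 hw)).symm hv)) hP

theorem step {G' : Type*} [Group G'] {f : G →* G'} (hf : Function.Surjective f) [Fact p.Prime]
    (hk : IsPGroup p f.ker) : IsCNGroup G' := fun x x1 => by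
  have := Finite.of_surjective f hf
  obtain ⟨y, hy, y1, hq⟩ := ex_prime x1
  suffices ∃ g ≠ 1, centralizer {y} ≤ (centralizer {g}).map f by
    obtain ⟨g, g1, e⟩ := this
    exact H1.isNilpotent_of_le (le_trans (fun w hw => mem_centralizer_singleton_iff.2 (comm_zp
      (mem_centralizer_singleton_iff.1 hw) (mem_zpowers w) hy)) e) (H1.isNilpotent_map (h g g1) f)
  have lift : ∀ a k : G, (orderOf a).Coprime p → Commute (f a) (f k) →
      ∃ n ∈ f.ker, Commute (n * k) a := fun a k ha c => by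
    obtain ⟨n, hn, e⟩ := H2.exists_mul_mem_centralizer (A := zpowers a) (k := k)
      le_normalizer_of_normal (H2.coprime_card_of_isPGroup hk (by rwa [Nat.card_zpowers]))
      (.inl (H2.isSolvable_zpowers a)) (by
        rintro _ ⟨i, rfl⟩
        simp [MonoidHom.mem_ker, (c.zpow_left i).eq])
    exact ⟨n, hn, (e a (mem_zpowers a)).symm⟩
  obtain ⟨y, rfl⟩ := hf y
  by_cases e : orderOf (f y) = p
  · obtain ⟨S, hS⟩ := exists_isSylowIn p ((centralizer {f y}).comap f)
    have hP : IsPGroup p ((zpowers (f y)).comap f) :=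
      H1.pCore_ext f _ (isPGroup_zpowers_of_orderOf (k := 1) (by simpa using e)) hk
    have hn : S ≤ 𝐍 ((zpowers (f y)).comap f) := (hS.le.trans (comap_mono
      ((centralizer_zpowers _).ge.trans (centralizer_le_normalizer _)))).trans
      (le_normalizer_comap f)
    obtain ⟨⟨z, hz, hz'⟩, z1⟩ := ne_bot_iff_exists_ne_one.1 (inf_centralizer_ne_bot hS.isPGroup hP hn
      fun e => y1 (by rw [show y = 1 from e.le (mem_zpowers (f y)), map_one]))
    refine ⟨z, fun e => z1 (Subtype.ext e), (map_comap_eq_self_of_surjective hf _).ge.trans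
      (map_mono (hS.pResidualOf_sup.ge.trans (sup_le (pResidualOf_le_iff.2 fun w hw w1 => ?_)
        fun w hw => mem_centralizer_singleton_iff.2 (hz' w hw))))⟩
    obtain ⟨n, hn, c⟩ := lift w y w1 (mem_centralizer_singleton_iff.1 hw)
    have e : f (n * y) = f y := by rw [map_mul, MonoidHom.mem_ker.1 hn, one_mul]
    exact mem_centralizer_singleton_iff.2 (mem_centralizer_singleton_iff.1 (key h hP
      (show f (n * y) ∈ zpowers (f y) from e ▸ mem_zpowers _) (fun e' => y1 (by rw [← e, e', map_one])) w1 c hz)).symm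
  obtain ⟨a, ha, b, -, ⟨i, hi⟩, hb, rfl⟩ := exists_pPart_mul (p := p) (isOfFinOrder_of_finite y)
  have h1 : f a = 1 := eq_one_of_coprime_of_pow (k := i) (((Nat.coprime_primes hq Fact.out).2
    e).coprime_dvd_left (orderOf_dvd_of_mem_zpowers (f.map_zpowers _ ▸ mem_map_of_mem f ha)))
    (by rw [← map_pow, hi, map_one])
  rw [map_mul, h1, one_mul] at y1 ⊢
  refine ⟨b, fun e => y1 (by rw [e, map_one]), fun w hw => ?_⟩
  obtain ⟨w, rfl⟩ := hf w
  obtain ⟨n, hn, c⟩ := lift b w hb (mem_centralizer_singleton_iff.1 hw).symm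
  exact ⟨n * w, mem_centralizer_singleton_iff.2 c, by rw [map_mul, MonoidHom.mem_ker.1 hn, one_mul]⟩

omit h in
theorem map_aux {G' : Type*} [Group G'] (G : Type u) [Group G] [Finite G] : IsCNGroup G →
    ∀ f : G →* G', Function.Surjective f → Group.IsSolvable f.ker → IsCNGroup G' := by
  refine H1.induction_card (P := fun G _ _ => IsCNGroup G → ∀ f : G →* G', Function.Surjective f →
    Group.IsSolvable f.ker → IsCNGroup G') (fun G _ _ ih h f hf hs => ?_) G
  by_cases h0 : f.ker = ⊥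
  · exact @step _ _ _ 2 h _ _ _ hf ⟨Nat.prime_two⟩ (h0 ▸ IsPGroup.of_bot)
  obtain ⟨V, p, hp, h1, _, h2, h3, -⟩ := H1.exists_minimal_normal_elementary_le f.ker h0 hs
  have := Fact.mk hp
  refine ih (G ⧸ V) (H1.card_quotient_lt h2) (step h (QuotientGroup.mk'_surjective V)
    (by rw [QuotientGroup.ker_mk']; exact H1.isPGroup_of_isElementaryAbelian h3))
    (QuotientGroup.lift V f h1) (QuotientGroup.lift_surjective_of_surjective V f hf h1) ?_
  rw [QuotientGroup.ker_lift]
  exact H1.isSolvable_map hs _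

theorem quot (H : Subgroup G) [H.Normal] (hH : Group.IsSolvable H) : IsCNGroup (G ⧸ H) :=
  map_aux G h _ (QuotientGroup.mk'_surjective H) (by rwa [QuotientGroup.ker_mk'])

theorem frob (hnn : ¬ Group.IsNilpotent G) (h0 : fittingHall G ≠ ⊥) :
    ∃ E, (fittingHall G).IsComplement' E ∧ E ≠ ⊥ ∧ Group.IsNilpotent E ∧
      ∀ e ∈ E, e ≠ 1 → fittingHall G ⊓ centralizer {e} = ⊥ := by
  obtain ⟨_, h2, h3⟩ := hall (G := G)
  obtain ⟨E, hE⟩ := exists_right_complement'_of_coprime h3
  have hf : ∀ e ∈ E, e ≠ 1 → fittingHall G ⊓ centralizer {e} = ⊥ := fun e he e1 => by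
    refine eq_bot_iff.2 fun k ⟨hk, c⟩ => by_contra fun k1 => ?_
    obtain ⟨y, hy, y1, hr⟩ := ex_prime e1
    have := Fact.mk hr
    have h4 : (Nat.card (fittingHall G)).Coprime (orderOf y) := h3.coprime_dvd_right
      (hE.symm.index_eq_card ▸ E.orderOf_dvd_natCard (zpowers_le.2 he hy))
    obtain ⟨R, hR⟩ := (isPGroup_zpowers_of_orderOf (x := y) (k := 1) (pow_one _).symm).exists_le_sylow
    have h5 := sylow_le h R.isPGroup' (hR (mem_zpowers y)) y1 (H1.le_fitting ‹_› h2 hk) k1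
      (h4.coprime_dvd_left (orderOf_dvd_natCard _ hk))
      (comm_zp (mem_centralizer_singleton_iff.1 c).symm hy (mem_zpowers k))
    have h6 : (R : Subgroup G) ≤ fittingHall G := le_sSup ⟨h5.antisymm (pCore_le_sylow R) ▸
      inferInstance, R.isPGroup'.isNilpotent, R.card_coprime_index⟩
    exact hr.ne_one (h4.symm.eq_one_of_dvd (orderOf_dvd_natCard _ (h6 (hR (mem_zpowers y)))))
  refine ⟨E, hE, ?_, nil_of_fpf h le_normalizer_of_normal h0 hf, hf⟩
  rintro rfl
  rw [isComplement'_bot_right.1 hE] at h2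
  exact hnn (Group.nilpotent_of_mulEquiv topEquiv)

theorem three [Group.IsSolvable G] (hnn : ¬ Group.IsNilpotent G) (h0 : fittingHall G = ⊥) :
    ∃ p, p.Prime ∧ IsThreeStepGroup p G := by
  have : Nontrivial G := not_subsingleton_iff_nontrivial.1 fun _ => hnn inferInstance
  obtain ⟨p, hp, F0⟩ := H1.exists_pCore_ne_bot_of_isSolvable (G := G) inferInstance
  have := Fact.mk hp
  have ns : ∀ r [Fact r.Prime] (R : Sylow r G), (R : Subgroup G) ≤ pCore r G → (R : Subgroup G) = ⊥ :=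
    fun r _ R e => eq_bot_iff.2 (h0 ▸ le_sSup ⟨e.antisymm (pCore_le_sylow R) ▸
      inferInstance, R.isPGroup'.isNilpotent, R.card_coprime_index⟩)
  let π := QuotientGroup.mk' (pCore p G)
  have hπ : ∀ g, π g = 1 ↔ g ∈ pCore p G := QuotientGroup.eq_one_iff
  have lift : ∀ D : Subgroup (G ⧸ pCore p G), (Nat.card D).Coprime p → ∃ B : Subgroup G,
      Nat.card B = Nat.card D ∧ pCore p G ⊔ B = D.comap π ∧ B.map π = D ∧ Group.IsNilpotent B ∧
      ∀ a ∈ B, a ≠ 1 → pCore p G ⊓ centralizer {a} = ⊥ := fun D hD => by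
    obtain ⟨B, h1, -, h2⟩ := H2.exists_complement_comap _ D
      (H2.coprime_card_of_isPGroup (isPGroup_pCore p G) hD).symm
    have hf : ∀ a ∈ B, a ≠ 1 → pCore p G ⊓ centralizer {a} = ⊥ := fun a ha a1 => by
      refine eq_bot_iff.2 fun k ⟨hk, c⟩ => by_contra fun k1 => ?_
      obtain ⟨y, hy, y1, hr⟩ := ex_prime a1
      have := Fact.mk hr
      obtain ⟨R, hR⟩ :=
        (isPGroup_zpowers_of_orderOf (x := y) (k := 1) (pow_one _).symm).exists_le_sylow
      exact y1 (mem_bot.1 (ns _ R (sylow_le h R.isPGroup' (hR (mem_zpowers y)) y1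
        (H1.pCore_le_fitting hk) k1 (cop (isPGroup_pCore p G) hk (hD.coprime_dvd_left
          (h1 ▸ B.orderOf_dvd_natCard (zpowers_le.2 ha hy))))
        (comm_zp (mem_centralizer_singleton_iff.1 c).symm hy (mem_zpowers k))) ▸ hR (mem_zpowers y)))
    refine ⟨B, h1, h2, ?_, nil_of_fpf h le_normalizer_of_normal F0 hf, hf⟩
    rw [← map_comap_eq_self_of_surjective (QuotientGroup.mk'_surjective _) D, ← h2, Subgroup.map_sup,
      H1.map_mk'_eq_bot_iff.2 le_rfl, bot_sup_eq]
  have h' := quot h (pCore p G) inferInstance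
  have c0 := pCore_quotient_pCore p G
  obtain ⟨x, hx⟩ : ∃ x : G ⧸ pCore p G, orderOf x = p := by
    refine exists_prime_orderOf_dvd_card' p (by_contra fun e => ?_)
    obtain ⟨R, hR⟩ := (isSylowIn_of_not_dvd_relIndex le_top (isPGroup_pCore p G)
      (by rwa [relIndex_top_right])).exists_sylow_top
    exact F0 (hR ▸ ns p R hR.le)
  have x1 : x ≠ 1 := by rintro rfl; exact hp.ne_one (hx.symm.trans orderOf_one)
  have : Nontrivial (G ⧸ pCore p G) := ⟨x, 1, x1⟩
  set F := fittingSubgroup (G ⧸ pCore p G)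
  have cF : (Nat.card F).Coprime p := (hp.coprime_iff_not_dvd.2 fun e => by
    obtain ⟨y, hy, e⟩ := exists_orderOf_eq_of_dvd_card e
    rw [show y = 1 from mem_bot.1 (c0 ▸ le_core H1.fitting_isNilpotent (zpowers_le.2 hy)
      (isPGroup_zpowers_of_orderOf (k := 1) (by simpa using e)) (mem_zpowers y))] at e
    exact hp.ne_one (e.symm.trans orderOf_one)).symm
  have fp : ∀ u, IsPGroup p (zpowers u) → ∀ a ∈ F, a ≠ 1 → Commute u a → u = 1 :=
    fun u hu a ha a1 c => by_contra fun u1 => u1 (mem_bot.1 (c0 ▸ sylow_le h' hu (mem_zpowers u) u1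
      ha a1 (cF.coprime_dvd_left (orderOf_dvd_natCard _ ha)) c (mem_zpowers u)))
  obtain ⟨A, h1, h2, h3, h4, h5⟩ := lift F cF
  have inj : ∀ a ∈ A, π a = 1 → a = 1 := fun a ha e => eq_one_of_coprime_of_mem (isPGroup_pCore p G)
    (cF.coprime_dvd_left (h1 ▸ A.orderOf_dvd_natCard ha)) ((hπ a).1 e)
  have px := isPGroup_zpowers_of_orderOf (p := p) (x := x) (k := 1) (by simpa using hx)
  have od : ¬ 2 ∣ Nat.card A := fun e => by
    have : Fact (Nat.Prime 2) := ⟨Nat.prime_two⟩
    obtain ⟨t, ht, t2⟩ := exists_orderOf_eq_of_dvd_card e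
    have t1 : π t ≠ 1 := fun e => by rw [inj t ht e, orderOf_one] at t2; omega
    have tF : π t ∈ F := h3 ▸ mem_map_of_mem π ht
    obtain ⟨s, hs, e⟩ := h3.ge ((inferInstance : F.Normal).conj_mem _ tF x)
    have s2 : orderOf s = 2 := orderOf_eq_prime (inj _ (pow_mem hs 2) (by
      rw [map_pow, e, conj_pow, ← map_pow, ← t2, pow_orderOf_eq_one]; simp))
      fun e' => t1 (by simpa [e'] using e.symm)
    rw [H3.involution_unique_of_fpf le_normalizer_of_normal F0 h5 ht hs t2 s2] at e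
    exact x1 (fp x px _ tF t1 (mul_inv_eq_iff_eq_mul.1 e.symm))
  have := H3.isZGroup_of_fpf le_normalizer_of_normal F0 h5 od
  have cy : IsCyclic F := h3 ▸ isCyclic_of_surjective _ (π.subgroupMap_surjective A)
  have pe : ∀ y : G ⧸ pCore p G, (orderOf y).Coprime p → y ∈ F := fun y hy => by
    obtain ⟨B, -, -, e1, e2, -⟩ := lift (zpowers y ⊔ F) (((Nat.card_zpowers y ▸ hy).mul_left
      cF).coprime_dvd_left (H1.card_sup_dvd le_normalizer_of_normal))
    refine H1.le_fitting (N := zpowers y ⊔ F) ?_ (e1 ▸ H1.isNilpotent_map e2 π)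
      (mem_sup_left (mem_zpowers y))
    exact Normal.of_commutator_le _ ((H4.commutator_le_centralizer_of_cyclic cy).trans
      ((H1.centralizer_fitting_le inferInstance).trans le_sup_right))
  refine ⟨p, hp, F0, A, fun e => H1.fitting_ne_bot_of_isSolvable (G := G ⧸ pCore p G) inferInstance
    (by rw [← card_eq_one, ← h1, e, card_bot]), inferInstance, by rwa [← Nat.not_even_iff_odd,
    even_iff_two_dvd], h1 ▸ cF, h2 ▸ inferInstance, fun e => ?_, ?_, h5, fun g hg a ha a1 e => ?_⟩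
  · obtain ⟨g, rfl⟩ := QuotientGroup.mk'_surjective _ x
    exact hp.ne_one (cF.symm.eq_one_of_dvd (hx.symm.dvd.trans (F.orderOf_dvd_natCard
      (show g ∈ comap π F from h2 ▸ e ▸ mem_top g))))
  · rw [h2, index_comap_of_surjective _ (QuotientGroup.mk'_surjective _)]
    refine IsPGroup.exists_card_eq (G := _ ⧸ F) fun y => ?_
    obtain ⟨y, rfl⟩ := QuotientGroup.mk_surjective y
    obtain ⟨k, hk⟩ := exists_pow_coprime (p := p) (isOfFinOrder_of_finite y)
    exact ⟨k, (QuotientGroup.eq_one_iff _).2 (pe _ hk)⟩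
  obtain ⟨u, hu, w, -, ⟨i, hi⟩, hw, e'⟩ := exists_pPart_mul (p := p) (isOfFinOrder_of_finite (π g))
  rw [fp u (isPGroup_zpowers hi) (π a) (h3 ▸ mem_map_of_mem π ha) (fun e => a1 (inj a ha e))
    (comm_zp (commutatorElement_eq_one_iff_commute.1 ((map_commutatorElement π g a).symm.trans
      ((hπ _).2 e))) hu (mem_zpowers _)), one_mul] at e'
  exact hg (h2 ▸ (show π g ∈ F from e' ▸ pe w hw))

end H21.CN
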