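/-
Five-dimensional matrix groups in characteristic two, part 1: projective representations, linear algebra.
-/
import Cfsg.Agent.H12.D5I
import Cfsg.Agent.H11.LS1

set_option autoImplicit false
set_option linter.unusedSectionVars false

namespace H21.D5
open Matrix Cfsg.Geo H27.Asch Module H12.D5
open scoped commutatorElement

variable {k : Type*} [Field k] {G : Type*} [Group G]

abbrev M5 (k : Type*) := Matrix (Fin 5) (Fin 5) k
abbrev V5 (k : Type*) := Fin 5 → k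

local notation "𝐬" => sc (Fin 5)

theorem sc_comm (c : kˣ) (x : G5 k) : 𝐬 c * x = x * 𝐬 c := scalars_comm (sc_mem c) x

theorem sc_mul_pow (c : kˣ) (x : G5 k) (n : ℕ) : (𝐬 c * x) ^ n = 𝐬 (c ^ n) * x ^ n := by
  rw [Commute.mul_pow (sc_comm c x), map_pow]

theorem conj_sc (c : kˣ) (h : G5 k) : h * 𝐬 c * h⁻¹ = 𝐬 c := by
  rw [← sc_comm, mul_inv_cancel_right]

theorem det_sc (c : kˣ) : (𝐬 c).val.det = (c : k) ^ 5 := by simp [sc_val]

theorem sc_eq_one {c : kˣ} (h : 𝐬 c = 1) : c = 1 := sc_injective (h.trans (map_one _).symm)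

theorem root25 {c : kˣ} (h : c ^ 5 = 1) (h2 : c * c = 1) : c = 1 := by
  have : c ^ 5 = (c * c) ^ 2 * c := by rw [← sq, ← pow_mul, ← pow_succ]
  rwa [h2, one_pow, one_mul, h, eq_comm] at this

/-- all minors of size two vanish -/
def R1 (N : M5 k) : Prop := ∀ i j l m, N i j * N l m = N i m * N l j

theorem R1.vv {N : M5 k} (h : R1 N) : ∃ v φ : V5 k, N = vecMulVec v φ := by
  by_cases h0 : N = 0
  · exact ⟨0, 0, by simp [h0]⟩
  obtain ⟨i, j, e⟩ : ∃ i j, N i j ≠ 0 := by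
    by_contra c; push Not at c; exact h0 (Matrix.ext c)
  refine ⟨fun l => N l j / N i j, N i, Matrix.ext fun l m => ?_⟩
  rw [vecMulVec_apply]; field_simp; linear_combination h i j l m

theorem r1_of_rank {N : M5 k} (h : finrank k (LinearMap.range (toLin' N)) ≤ 1) : R1 N := by
  obtain ⟨⟨v, _⟩, hv⟩ := finrank_le_one_iff.1 h
  have : ∀ j, ∃ c : k, ∀ i, N i j = c * v i := fun j => by
    obtain ⟨c, hc⟩ := hv ⟨_, Pi.single j 1, rfl⟩
    exact ⟨c, fun i => by simpa using (congrFun (congrArg Subtype.val hc) i).symm⟩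
  choose c hc using this
  intro i j l m
  simp only [hc]; ring

/-- A faithful projective representation of degree five without transvections, as a relation `x lifts g`. -/
structure PR (G : Type*) [Group G] (k : Type*) [Field k] where
  R : G5 k → G → Prop
  mul : ∀ {x y g h}, R x g → R y h → R (x * y) (g * h)
  inv : ∀ {x g}, R x g → R x⁻¹ g⁻¹
  ex : ∀ g, ∃ x, R x g
  one_iff : ∀ {x g}, R x g → (g = 1 ↔ x ∈ scalars (Fin 5) k)
  det : ∀ {x g}, R x g → x.val.det = 1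
  nt : ∀ {x g}, R x g → R1 (x.val - 1) → x = 1

namespace PR
variable (D : PR G k) {x y a : G5 k} {g h s : G}

theorem one : D.R 1 1 := by
  obtain ⟨x, hx⟩ := D.ex 1
  simpa using D.mul hx (D.inv hx)

variable {D}

theorem pow (hx : D.R x g) (n : ℕ) : D.R (x ^ n) (g ^ n) := by
  induction n with
  | zero => simpa using D.one
  | succ n ih => rw [pow_succ, pow_succ]; exact D.mul ih hx

theorem conj (ha : D.R a s) (hx : D.R x g) : D.R (a * x * a⁻¹) (s * g * s⁻¹) :=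
  D.mul (D.mul ha hx) (D.inv ha)

theorem of_one (hx : D.R x 1) : ∃ c : kˣ, c ^ 5 = 1 ∧ x = 𝐬 c := by
  obtain ⟨c, rfl⟩ := exists_sc ((D.one_iff hx).1 rfl)
  exact ⟨c, Units.ext (by simpa [det_sc] using D.det hx), rfl⟩

theorem eq_sc (hx : D.R x g) (hy : D.R y g) : ∃ c : kˣ, c ^ 5 = 1 ∧ y = 𝐬 c * x := by
  obtain ⟨c, h1, h2⟩ := of_one (mul_inv_cancel g ▸ D.mul hy (D.inv hx))
  exact ⟨c, h1, by rw [← h2]; group⟩

theorem uniq (hx : D.R x g) (hy : D.R x h) : g = h := by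
  have := D.mul hx (D.inv hy)
  rw [mul_inv_cancel] at this
  exact mul_inv_eq_one.1 ((D.one_iff this).2 (one_mem _))

theorem ne_one (hx : D.R x g) (h : g ≠ 1) : x ≠ 1 := by rintro rfl; exact h (uniq hx D.one)

theorem pow_sc (hx : D.R x g) {n : ℕ} (e : g ^ n = 1) : ∃ c : kˣ, c ^ 5 = 1 ∧ x ^ n = 𝐬 c :=
  of_one (e ▸ pow hx n)

variable (D) in
theorem ex_pow {n : ℕ} (hn : n.Coprime 5) (e : g ^ n = 1) : ∃ x, D.R x g ∧ x ^ n = 1 := by
  obtain ⟨x, hx⟩ := D.ex g
  obtain ⟨c, h1, h2⟩ := pow_sc hx e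
  refine ⟨x ^ (1 + n * (4 * n ^ 3)), ?_, ?_⟩
  · have := pow hx (1 + n * (4 * n ^ 3))
    rwa [pow_add g, pow_mul g, e, one_pow, mul_one, pow_one] at this
  · have : 5 ∣ 1 + n * (4 * n ^ 3) := by
      have h3 : ¬ 5 ∣ n := (Nat.Prime.coprime_iff_not_dvd Nat.prime_five).1 hn.symm
      have : n % 5 = 1 ∨ n % 5 = 2 ∨ n % 5 = 3 ∨ n % 5 = 4 := by omega
      rcases this with h | h | h | h <;> simp [Nat.dvd_iff_mod_eq_zero, Nat.add_mod, Nat.mul_mod, Nat.pow_mod, h]
    obtain ⟨m, hm⟩ := this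
    rw [← pow_mul, mul_comm, pow_mul, h2, ← map_pow, hm, pow_mul, h1, one_pow, map_one]

theorem eq_of_pow {n : ℕ} (hn : n.Coprime 5) (hx : D.R x g) (hy : D.R y g) (e1 : x ^ n = 1)
    (e2 : y ^ n = 1) : x = y := by
  obtain ⟨c, h1, rfl⟩ := eq_sc hx hy
  rw [sc_mul_pow, e1, mul_one] at e2
  rw [(pow_eq_one_iff_of_coprime hn).1 ⟨sc_eq_one e2, h1⟩, map_one, one_mul]

theorem conj_of_pow {n : ℕ} (hn : n.Coprime 5) (ha : D.R a s) (hx : D.R x g) (hy : D.R y (s * g * s⁻¹))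
    (e1 : x ^ n = 1) (e2 : y ^ n = 1) : a * x * a⁻¹ = y :=
  eq_of_pow hn (conj ha hx) hy (by rw [conj_pow, e1]; group) e2

theorem comm_of_pow {n : ℕ} (hn : n.Coprime 5) (hx : D.R x g) (hy : D.R y h) (e : g * h = h * g)
    (e1 : x ^ n = 1) : x * y = y * x := by
  have := conj_of_pow hn hy hx (y := x) (by rwa [← e, mul_inv_cancel_right]) e1 e1
  calc x * y = y * x * y⁻¹ * y := by rw [this]
    _ = _ := by group

/-- a power of an inverted lift is trivial -/
theorem inv_pow' (hx : D.R x g) (e : a * x * a⁻¹ = x⁻¹) {n : ℕ} (hn : g ^ n = 1) : x ^ n = 1 := by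
  obtain ⟨c, h1, h2⟩ := pow_sc hx hn
  have : 𝐬 c = (𝐬 c)⁻¹ := by
    conv_lhs => rw [← conj_sc c a, ← h2, ← conj_pow, e, inv_pow, h2]
  rw [h2, root25 h1 (sc_eq_one (by rw [map_mul]; exact mul_eq_one_iff_eq_inv.2 this)), map_one]

variable (D)

/-- the group of all lifts -/
def P : Subgroup (G5 k) where
  carrier := {x | ∃ g, D.R x g}
  mul_mem' := fun ⟨_, h⟩ ⟨_, h'⟩ => ⟨_, D.mul h h'⟩
  one_mem' := ⟨_, D.one⟩
  inv_mem' := fun ⟨_, h⟩ => ⟨_, D.inv h⟩

/-- restriction to a subgroup -/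
def comap {G' : Type*} [Group G'] (f : G' →* G) (hf : Function.Injective f) : PR G' k where
  R x g := D.R x (f g)
  mul h h' := by rw [map_mul]; exact D.mul h h'
  inv h := by rw [map_inv]; exact D.inv h
  ex g := D.ex _
  one_iff h := by rw [← D.one_iff h, map_eq_one_iff f hf]
  det := D.det
  nt := D.nt

theorem comap_P {G' : Type*} [Group G'] (e : G' ≃* G) :
    (D.comap e.toMonoidHom e.injective).P = D.P :=
  le_antisymm (fun _ ⟨_, h⟩ => ⟨_, h⟩) fun _ ⟨g, h⟩ => ⟨e.symm g, by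
    change D.R _ (e (e.symm g)); rwa [e.apply_symm_apply]⟩

/-- a subgroup of `G` all of whose lifts preserve a proper subspace is proper -/
theorem irr (hI : Irr D.P) {W : Submodule k (V5 k)} (h0 : W ≠ ⊥) (h1 : W ≠ ⊤) {S : Set G}
    (hS : Subgroup.closure S = ⊤) (h : ∀ g ∈ S, ∃ x, D.R x g ∧ ∀ w ∈ W, x.val *ᵥ w ∈ W) : False := by
  have key : ∀ g, ∃ x, D.R x g ∧ W.map (toLin' x.val) = W := fun g => by
    have hg : g ∈ Subgroup.closure S := hS ▸ trivial
    induction hg using Subgroup.closure_induction with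
    | mem g hg =>
      obtain ⟨x, h1, h2⟩ := h g hg
      refine ⟨x, h1, Submodule.eq_of_le_of_finrank_eq (by rintro _ ⟨w, hw, rfl⟩; exact h2 w hw) ?_⟩
      exact (LinearEquiv.finrank_eq (Submodule.equivMapOfInjective _ (fun u v e => by
        simpa using congrArg ((x⁻¹).val *ᵥ ·) e) W)).symm
    | one => exact ⟨1, D.one, by simp⟩
    | mul g h _ _ a b =>
      obtain ⟨x, h1, h2⟩ := a
      obtain ⟨y, h3, h4⟩ := b
      exact ⟨_, D.mul h1 h3, by rw [Units.val_mul, toLin'_mul, Submodule.map_comp, h4, h2]⟩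
    | inv g _ a =>
      obtain ⟨x, h1, h2⟩ := a
      refine ⟨_, D.inv h1, ?_⟩
      conv_lhs => rw [← h2, ← Submodule.map_comp, ← toLin'_mul, ← Units.val_mul, inv_mul_cancel]
      simp
  refine (hI W fun y ⟨g, hy⟩ w hw => ?_).elim h0 h1
  obtain ⟨x, h1, h2⟩ := key g
  obtain ⟨c, -, rfl⟩ := eq_sc h1 hy
  rw [Units.val_mul, ← mulVec_mulVec, sc_val, smul_mulVec, one_mulVec]
  exact W.smul_mem _ (h2 ▸ ⟨w, hw, rfl⟩)

end PR

theorem map_scalar {K : Type*} [Field K] (σ : k →+* K) {x : G5 k} :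
    GeneralLinearGroup.map σ x ∈ scalars (Fin 5) K ↔ x ∈ scalars (Fin 5) k := by
  rw [mem_scalars, mem_scalars]
  constructor
  · rintro ⟨c, hc⟩
    refine ⟨x.val 0 0, ?_⟩
    have h : ∀ i j, σ (x.val i j) = (c • (1 : M5 K)) i j := fun i j => congrFun (congrFun hc i) j
    ext i j
    apply σ.injective
    have := h 0 0
    simp only [Matrix.smul_apply, one_apply_eq, smul_eq_mul, mul_one] at this
    rw [h, Matrix.smul_apply, Matrix.smul_apply, smul_eq_mul, smul_eq_mul, map_mul, this, one_apply,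
      one_apply]
    split_ifs <;> simp
  · rintro ⟨c, hc⟩
    refine ⟨σ c, ?_⟩
    change x.val.map σ = _
    rw [hc]; ext i j; simp [one_apply]; split_ifs <;> simp

/-- extension of the field -/
def PR.map (D : PR G k) {K : Type*} [Field K] (σ : k →+* K) : PR G K where
  R x g := ∃ y, D.R y g ∧ x = GeneralLinearGroup.map σ y
  mul := by rintro _ _ _ _ ⟨x, h, rfl⟩ ⟨y, h', rfl⟩; exact ⟨_, D.mul h h', (map_mul _ _ _).symm⟩
  inv := by rintro _ _ ⟨x, h, rfl⟩; exact ⟨_, D.inv h, (map_inv _ _).symm⟩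
  ex g := by obtain ⟨x, hx⟩ := D.ex g; exact ⟨_, x, hx, rfl⟩
  one_iff := by rintro _ _ ⟨x, h, rfl⟩; rw [D.one_iff h, map_scalar]
  det := by
    rintro _ _ ⟨x, h, rfl⟩
    change (σ.mapMatrix x.val).det = 1
    rw [← RingHom.map_det, D.det h, map_one]
  nt := by
    rintro _ _ ⟨x, h, rfl⟩ e
    have e' : ∀ i j, ((GeneralLinearGroup.map σ x).val - 1) i j = σ ((x.val - 1) i j) := fun i j => by
      change σ (x.val i j) - _ = _
      rw [Matrix.sub_apply, map_sub, one_apply, one_apply]; split_ifs <;> simp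
    rw [D.nt h fun i j l m => σ.injective (by simpa only [map_mul, e'] using e i j l m), map_one]

theorem PR.irr_map (D : PR G k) {K : Type*} [Field K] (σ : k →+* K) (h : alg D.P = ⊤) : Irr (D.map σ).P := by
  refine irr_of_alg (eq_top_iff.2 fun a _ => ?_)
  have key : ∀ b : M5 k, b.map σ ∈ alg (D.map σ).P := fun b => by
    have hb : b ∈ Submodule.span k (matrixSet D.P) := mem_alg_iff.1 (h ▸ trivial)
    induction hb using Submodule.span_induction with
    | mem b hb => obtain ⟨x, ⟨g, hx⟩, rfl⟩ := hb; exact mem_alg (x := GeneralLinearGroup.map σ x) ⟨g, x, hx, rfl⟩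
    | zero => simp
    | add a b _ _ h1 h2 => rw [Matrix.map_add _ (map_add σ)]; exact add_mem h1 h2
    | smul c b _ h1 =>
      rw [show (c • b).map σ = σ c • b.map σ from Matrix.ext fun i j => by simp]
      exact Subalgebra.smul_mem _ h1 _
  rw [matrix_eq_sum_single a]
  refine sum_mem fun i _ => sum_mem fun j _ => ?_
  have := Subalgebra.smul_mem _ (key (single i j 1)) (a i j)
  rwa [Matrix.map_single, map_one, smul_single, smul_eq_mul, mul_one] at this

/-- a subgroup of `SL₅` represents its quotient by the scalars -/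
def PR.ofSub (P : Subgroup (G5 k)) (h : P ≤ specialLinear (Fin 5) k) (hn : NoTv P) : PR (Qt P) k where
  R x g := ∃ s : P, s.1 = x ∧ (s : Qt P) = g
  mul := by rintro _ _ _ _ ⟨x, rfl, rfl⟩ ⟨y, rfl, rfl⟩; exact ⟨x * y, rfl, rfl⟩
  inv := by rintro _ _ ⟨x, rfl, rfl⟩; exact ⟨x⁻¹, rfl, rfl⟩
  ex g := by obtain ⟨s, rfl⟩ := QuotientGroup.mk_surjective g; exact ⟨_, s, rfl, rfl⟩
  one_iff := by rintro _ _ ⟨x, rfl, rfl⟩; exact QuotientGroup.eq_one_iff _
  det := by rintro _ _ ⟨x, rfl, rfl⟩; exact mem_SL.1 (h x.2)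
  nt := by
    rintro _ _ ⟨x, rfl, rfl⟩ e
    obtain ⟨v, φ, e⟩ := e.vv
    exact hn _ x.2 (-v) φ (by rw [neg_vecMulVec, ← e]; abel)

theorem PR.ofSub_P (P : Subgroup (G5 k)) (h : P ≤ specialLinear (Fin 5) k) (hn : NoTv P) :
    (PR.ofSub P h hn).P = P := by
  ext x
  exact ⟨by rintro ⟨_, s, rfl, -⟩; exact s.2, fun hx => ⟨_, ⟨x, hx⟩, rfl, rfl⟩⟩

end H21.D5
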