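/-
Five-dimensional matrix groups in characteristic two, part 2: eigenspaces and weights.
-/
import Cfsg.Agent.H21.D5a

set_option autoImplicit false
set_option linter.unusedSectionVars false

namespace H21.D5
open Matrix Cfsg.Geo H27.Asch Module H12.D5

variable {k : Type*} [Field k] {G : Type*} [Group G] {a b s t x y : G5 k} {μ ω : k} {u v w : V5 k}

local notation "fr" => finrank k

theorem mv_mul (x y : G5 k) (v : V5 k) : (x * y).val *ᵥ v = x.val *ᵥ (y.val *ᵥ v) := by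
  rw [Units.val_mul, mulVec_mulVec]

theorem mv_ne (x : G5 k) (h : v ≠ 0) : x.val *ᵥ v ≠ 0 := fun e => h (by
  simpa using congrArg ((x⁻¹).val *ᵥ ·) e)

theorem mv_inj (x : G5 k) (h : x.val *ᵥ u = x.val *ᵥ v) : u = v := by
  simpa using congrArg ((x⁻¹).val *ᵥ ·) h

theorem fr_si (W W' : Submodule k (V5 k)) : fr ↥(W ⊔ W') + fr ↥(W ⊓ W') = fr W + fr W' :=
  Submodule.finrank_sup_add_finrank_inf_eq W W'

theorem fr_le (W : Submodule k (V5 k)) : fr W ≤ 5 := by simpa using W.finrank_le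

theorem fr_inf (W W' : Submodule k (V5 k)) : fr W + fr W' ≤ fr ↥(W ⊓ W') + 5 := by
  have := Submodule.finrank_sup_add_finrank_inf_eq W W'
  have := fr_le (W ⊔ W')
  omega

theorem fr_sup (W W' : Submodule k (V5 k)) : fr ↥(W ⊔ W') ≤ fr W + fr W' := by
  have := Submodule.finrank_sup_add_finrank_inf_eq W W'
  omega

theorem fr_rn (f : V5 k →ₗ[k] V5 k) : fr (LinearMap.range f) + fr (LinearMap.ker f) = 5 := by
  simpa using f.finrank_range_add_finrank_ker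

theorem ne_bot_of {W : Submodule k (V5 k)} (h : 0 < fr W) : W ≠ ⊥ := by rintro rfl; simp at h

theorem ne_top_of {W : Submodule k (V5 k)} (h : fr W < 5) : W ≠ ⊤ := by rintro rfl; simp at h

def Ln (x : G5 k) (μ : k) : V5 k →ₗ[k] V5 k := toLin' x.val - μ • LinearMap.id

theorem Ln_apply (x : G5 k) (μ : k) (v : V5 k) : Ln x μ v = x.val *ᵥ v - μ • v := by simp [Ln]

/-- an eigenspace -/
def Eg (x : G5 k) (μ : k) : Submodule k (V5 k) := LinearMap.ker (Ln x μ)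

/-- the complement of an eigenspace -/
def Im (x : G5 k) (μ : k) : Submodule k (V5 k) := LinearMap.range (Ln x μ)

theorem mem_Eg : v ∈ Eg x μ ↔ x.val *ᵥ v = μ • v := by simp [Eg, Ln_apply, sub_eq_zero]

theorem mem_Im : v ∈ Im x μ ↔ ∃ u, x.val *ᵥ u - μ • u = v := by simp [Im, Ln_apply]

theorem fr_Im (x : G5 k) (μ : k) : fr (Im x μ) + fr (Eg x μ) = 5 := fr_rn _

theorem r1_of_Im (h : fr (Im x 1) ≤ 1) : R1 (x.val - 1) :=
  r1_of_rank ((show toLin' (x.val - 1) = Ln x 1 by simp [Ln]) ▸ h)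

theorem mem_Eg1 : v ∈ Eg x 1 ↔ x.val *ᵥ v = v := by rw [mem_Eg, one_smul]

theorem Eg_conj_mem (h : v ∈ Eg x μ) (s : G5 k) : s.val *ᵥ v ∈ Eg (s * x * s⁻¹) μ := by
  rw [mem_Eg] at h ⊢
  rw [← mv_mul, inv_mul_cancel_right, mv_mul, h, mulVec_smul]

theorem Eg_comm (h : v ∈ Eg x μ) (e : s * x = x * s) : s.val *ᵥ v ∈ Eg x μ := by
  have := Eg_conj_mem h s
  rwa [e, mul_inv_cancel_right] at this

theorem fr_Eg_conj (s x : G5 k) (μ : k) : fr (Eg (s * x * s⁻¹) μ) = fr (Eg x μ) := by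
  have key : ∀ s x : G5 k, fr (Eg x μ) ≤ fr (Eg (s * x * s⁻¹) μ) := fun s x =>
    LinearMap.finrank_le_finrank_of_injective (f := (toLin' s.val).restrict fun v h => Eg_conj_mem h s)
      fun u v e => Subtype.ext (mv_inj s (congrArg Subtype.val e))
  refine le_antisymm ?_ (key s x)
  have := key s⁻¹ (s * x * s⁻¹)
  rwa [show s⁻¹ * (s * x * s⁻¹) * s⁻¹⁻¹ = x by group] at this

theorem Eg_inv {ν : k} (h : μ * ν = 1) : Eg x⁻¹ μ = Eg x ν := by
  have key : ∀ {x : G5 k} {μ ν : k}, μ * ν = 1 → Eg x μ ≤ Eg x⁻¹ ν := fun {x μ ν} h v hv => by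
    rw [mem_Eg] at hv ⊢
    have : (x⁻¹).val *ᵥ (x.val *ᵥ v) = v := by simp
    rw [hv, mulVec_smul] at this
    conv_rhs => rw [← this, smul_smul, mul_comm, h, one_smul]
  exact le_antisymm (by simpa using key (x := x⁻¹) h) (key (by rwa [mul_comm]))

theorem Eg_pow (h : v ∈ Eg x μ) (n : ℕ) : v ∈ Eg (x ^ n) (μ ^ n) := by
  rw [mem_Eg] at h ⊢
  induction n with
  | zero => simp
  | succ n ih => rw [pow_succ, mv_mul, h, mulVec_smul, ih, smul_smul, pow_succ']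

theorem Eg_mul {ν : k} (h : v ∈ Eg x μ) (h' : v ∈ Eg y ν) : v ∈ Eg (x * y) (μ * ν) := by
  rw [mem_Eg] at h h' ⊢
  rw [mv_mul, h', mulVec_smul, h, smul_smul, mul_comm]

theorem Eg_uniq {ν : k} (h0 : v ≠ 0) (h : v ∈ Eg x μ) (h' : v ∈ Eg x ν) : μ = ν :=
  smul_left_injective k h0 ((mem_Eg.1 h).symm.trans (mem_Eg.1 h'))

theorem Eg_one (h0 : v ≠ 0) (h : v ∈ Eg 1 μ) : μ = 1 := Eg_uniq h0 h (by simp [mem_Eg])

theorem Eg_root {n : ℕ} (hx : x ^ n = 1) (h0 : v ≠ 0) (h : v ∈ Eg x μ) : μ ^ n = 1 :=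
  Eg_one h0 (hx ▸ Eg_pow h n)

/-- semisimplicity -/
theorem ss {n : ℕ} (hn : (n : k) ≠ 0) (hx : x ^ n = 1) (h : x.val *ᵥ u - μ • u ∈ Eg x μ) : u ∈ Eg x μ := by
  rw [mem_Eg, ← sub_eq_zero]
  by_contra h0
  have h1 := Eg_root hx h0 h
  have e : x.val *ᵥ u = μ • u + (x.val *ᵥ u - μ • u) := by abel
  generalize x.val *ᵥ u - μ • u = w at *
  have key : ∀ j : ℕ, μ • (x ^ j).val *ᵥ u = μ ^ (j + 1) • u + (j * μ ^ j) • w := fun j => by
    induction j with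
    | zero => simp
    | succ j ih =>
      rw [pow_succ', mv_mul, ← mulVec_smul, ih, mulVec_add, mulVec_smul, mulVec_smul, e, mem_Eg.1 h]
      push_cast; module
  have := key n
  rw [hx, pow_succ, h1] at this
  simp [hn, h0] at this

theorem fr_top (h : fr (Eg x 1) = 5) : x = 1 := by
  have : Eg x 1 = ⊤ := Submodule.eq_top_of_finrank_eq (by simpa using h)
  exact Units.ext (ext_mulVec fun v => by simpa using mem_Eg1.1 (this ▸ trivial : v ∈ Eg x 1))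

section two
variable (h2 : (2 : k) = 0)
include h2

theorem sq_one (h : μ * μ = 1) : μ = 1 := by
  have : (μ - 1) ^ 2 = 0 := by linear_combination h - (μ - 1) * h2
  exact sub_eq_zero.1 (pow_eq_zero_iff two_ne_zero |>.1 this)

theorem two_v (v : V5 k) : v + v = 0 := by rw [← two_smul k, h2, zero_smul]

theorem inv_fix (ht : t * t = 1) (v : V5 k) : t.val *ᵥ v - v ∈ Eg t 1 := by
  rw [mem_Eg1, mulVec_sub, ← mv_mul, ht, Units.val_one, one_mulVec, ← sub_eq_zero]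
  have := two_v h2 (v - t.val *ᵥ v)
  rw [← this]; abel

theorem Im_le (ht : t * t = 1) : Im t 1 ≤ Eg t 1 := fun v hv => by
  obtain ⟨u, rfl⟩ := mem_Im.1 hv
  simpa using inv_fix h2 ht u

/-- an involution centralizing a semisimple element, trivial off a small eigenspace -/
theorem g1 {n : ℕ} (hn : (n : k) ≠ 0) (hb : b ^ n = 1) (ht : t * t = 1) (e : t * b = b * t)
    (hU : ∀ u, b.val *ᵥ u - μ • u ∈ Eg t 1) (h3 : fr (Eg b μ) ≤ 3) : R1 (t.val - 1) := by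
  refine r1_of_Im ?_
  have a1 := fr_Im t 1
  have a2 := fr_Im b μ
  have a3 := fr_si (Im t 1) (Im b μ)
  have a4 : Im t 1 ⊓ Im b μ = ⊥ := by
    rw [eq_bot_iff]
    rintro _ ⟨h1, h2⟩
    obtain ⟨v, rfl⟩ := mem_Im.1 h1
    obtain ⟨u, hu⟩ := mem_Im.1 h2
    have b1 : t.val *ᵥ v - (1 : k) • v ∈ Eg b μ := by
      have := mem_Eg1.1 (hU v)
      rw [mulVec_sub, ← mv_mul, e, mv_mul, mulVec_smul] at this
      rw [one_smul, mem_Eg, mulVec_sub, smul_sub, sub_eq_sub_iff_sub_eq_sub, this]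
    rw [← hu] at b1 ⊢
    exact sub_eq_zero.2 (mem_Eg.1 (ss hn hb b1))
  have a5 := Submodule.finrank_mono (sup_le (c := Eg t 1) (Im_le h2 ht)
    (show Im b μ ≤ _ from fun v hv => let ⟨u, hu⟩ := mem_Im.1 hv; hu ▸ hU u))
  rw [a4, finrank_bot] at a3
  omega

theorem one_dim (ht : t * t = 1) (e : t * x = x * t) (h : fr (Eg x μ) ≤ 1) : Eg x μ ≤ Eg t 1 := by
  obtain ⟨⟨v, hv⟩, h⟩ := finrank_le_one_iff.1 h
  obtain ⟨c, hc⟩ := h ⟨_, Eg_comm hv e⟩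
  have h1 : v ∈ Eg t c := mem_Eg.2 (congrArg Subtype.val hc).symm
  have h3 : v ∈ Eg t 1 := by
    by_cases h0 : v = 0
    · simp [h0]
    · rwa [sq_one h2 (μ := c) (Eg_one h0 (ht ▸ Eg_mul h1 h1))] at h1
  intro w hw
  obtain ⟨d, hd⟩ := h ⟨w, hw⟩
  rw [← show d • v = w from congrArg Subtype.val hd]
  exact Submodule.smul_mem _ _ h3

omit h2 in
theorem e3_mem (ha : a ^ 3 = 1) (hμ : μ ^ 3 = 1) (v : V5 k) :
    v + μ ^ 2 • a.val *ᵥ v + μ • a.val *ᵥ (a.val *ᵥ v) ∈ Eg a μ := by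
  have : a.val *ᵥ (a.val *ᵥ (a.val *ᵥ v)) = v := by
    rw [← mv_mul, ← mv_mul, ← pow_three', ha]; simp
  rw [mem_Eg, mulVec_add, mulVec_add, mulVec_smul, mulVec_smul, this, smul_add, smul_add, smul_smul, smul_smul,
    ← pow_succ', hμ, one_smul, ← sq]
  abel

theorem dec3 (hω : ω ^ 2 + ω + 1 = 0) (v u w : V5 k) :
    v = v + u + w + (v + ω ^ 2 • u + ω • w + (v + (ω ^ 2) ^ 2 • u + ω ^ 2 • w)) := by
  ext i
  simp only [Pi.add_apply, Pi.smul_apply, smul_eq_mul]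
  linear_combination (-v i) * h2 - (u i * (ω ^ 2 - ω + 1) + w i) * hω - u i * ω * h2 + u i * ω * h2

theorem fr3 (hω : ω ^ 2 + ω + 1 = 0) (ha : a ^ 3 = 1) (hs : s * a * s⁻¹ = a⁻¹) :
    fr (Eg a 1) + 2 * fr (Eg a ω) = 5 ∧ fr (Eg a (ω ^ 2)) = fr (Eg a ω) := by
  have h3 : ω ^ 3 = 1 := by linear_combination (ω - 1) * hω
  have e1 : fr (Eg a (ω ^ 2)) = fr (Eg a ω) := by
    rw [← fr_Eg_conj s a (ω ^ 2), hs, Eg_inv (by rw [← pow_succ, h3])]
  have a1 := Submodule.finrank_sup_add_finrank_inf_eq (Eg a ω) (Eg a (ω ^ 2))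
  have a2 := Submodule.finrank_sup_add_finrank_inf_eq (Eg a 1) (Eg a ω ⊔ Eg a (ω ^ 2))
  have a3 : Eg a ω ⊓ Eg a (ω ^ 2) = ⊥ := eq_bot_iff.2 fun v ⟨b1, b2⟩ => by_contra fun h0 =>
    one_ne_zero (α := k) (by linear_combination hω + Eg_uniq h0 b1 b2 - ω * h2)
  have a4 : Eg a 1 ⊓ (Eg a ω ⊔ Eg a (ω ^ 2)) = ⊥ := eq_bot_iff.2 fun v ⟨b1, b2⟩ => by
    obtain ⟨u, hu, w, hw, rfl⟩ := Submodule.mem_sup.1 b2
    have c1 := mem_Eg1.1 b1
    have c2 := mem_Eg1.1 (show _ ∈ Eg (a * a) 1 by simpa using Eg_mul b1 b1)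
    rw [mulVec_add, mem_Eg.1 hu, mem_Eg.1 hw] at c1
    rw [mulVec_add, mem_Eg.1 (Eg_mul hu hu), mem_Eg.1 (Eg_mul hw hw)] at c2
    refine funext fun i => ?_
    have d1 := congrFun c1 i
    have d2 := congrFun c2 i
    simp only [Pi.add_apply, Pi.smul_apply, smul_eq_mul, Pi.zero_apply] at d1 d2 ⊢
    linear_combination -d1 - d2 + (u i + w i * (ω ^ 2 - ω + 1)) * hω - (u i + w i) * h2
  have a5 : Eg a 1 ⊔ (Eg a ω ⊔ Eg a (ω ^ 2)) = ⊤ := eq_top_iff.2 fun v _ => by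
    rw [dec3 h2 hω v (a.val *ᵥ v) (a.val *ᵥ (a.val *ᵥ v))]
    exact Submodule.add_mem_sup (by simpa using e3_mem ha (one_pow 3) v) (Submodule.add_mem_sup (e3_mem ha h3 v)
      (e3_mem ha (by rw [← pow_mul, mul_comm, pow_mul, h3, one_pow]) v))
  rw [a3, finrank_bot] at a1
  rw [a4, a5, finrank_bot, finrank_top, finrank_fin_fun] at a2
  omega

variable [IsAlgClosed k]

omit h2 in
theorem exists_ω : ∃ ω : k, ω ^ 2 + ω + 1 = 0 := by
  obtain ⟨ω, h⟩ := IsAlgClosed.exists_root (Polynomial.X ^ 2 + Polynomial.X + 1 : Polynomial k) (by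
    rw [show (Polynomial.X ^ 2 + Polynomial.X + 1 : Polynomial k).degree = 2 by compute_degree!]; decide)
  exact ⟨ω, by simpa using h⟩

theorem f3a (ha : a ^ 3 = 1) (h1 : a ≠ 1) (hs : s * a * s⁻¹ = a⁻¹) : fr (Eg a 1) = 1 ∨ fr (Eg a 1) = 3 := by
  obtain ⟨ω, hω⟩ := exists_ω (k := k)
  have := (fr3 h2 hω ha hs).1
  have := mt (fr_top (x := a)) h1
  omega

theorem f3b (ha : a ^ 3 = 1) (hs : s * a * s⁻¹ = a⁻¹) (ht : t * t = 1) (e : t * a = a * t)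
    (h : fr (Eg a 1) = 3) : R1 (t.val - 1) := by
  obtain ⟨ω, hω⟩ := exists_ω (k := k)
  have h3 : ω ^ 3 = 1 := by linear_combination (ω - 1) * hω
  obtain ⟨e1, e2⟩ := fr3 h2 hω ha hs
  refine g1 h2 (n := 3) (fun e => one_ne_zero (α := k) (by push_cast at e; linear_combination e - h2)) ha ht e
    (μ := 1) (fun u => ?_) h.le
  have : a.val *ᵥ (a.val *ᵥ (a.val *ᵥ u)) = u := by
    rw [← mv_mul, ← mv_mul, ← pow_three', ha]; simp
  generalize hv : a.val *ᵥ u - (1 : k) • u = v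
  have e3 : v + a.val *ᵥ v + a.val *ᵥ (a.val *ᵥ v) = 0 := by
    simp only [← hv, mulVec_sub, one_smul, this]; abel
  rw [dec3 h2 hω v (a.val *ᵥ v) (a.val *ᵥ (a.val *ᵥ v)), e3, zero_add]
  exact add_mem (one_dim h2 ht e (by omega) (e3_mem ha h3 v)) (one_dim h2 ht e (by omega)
    (e3_mem ha (by rw [← pow_mul, mul_comm, pow_mul, h3, one_pow]) v))

omit [IsAlgClosed k] in
theorem f4 (hx : x ^ 3 = 1) (hy : y ^ 3 = 1) (e : x * y = y * x) :
    5 ≤ fr (Eg x 1) + fr (Eg y 1) + fr (Eg (x * y) 1) + fr (Eg (x⁻¹ * y) 1) := by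
  have c : Commute x y := e
  have e1 : x⁻¹ = x * x := by rw [eq_comm, ← mul_eq_one_iff_eq_inv, ← pow_three', hx]
  have : Eg x 1 ⊔ Eg y 1 ⊔ Eg (x * y) 1 ⊔ Eg (x⁻¹ * y) 1 = ⊤ := eq_top_iff.2 fun v _ => by
    have b1 := e3_mem hx (one_pow 3) (y.val *ᵥ v + y.val *ᵥ (y.val *ᵥ v))
    have b2 := e3_mem hy (one_pow 3) v
    have b3 := e3_mem (a := x * y) (by rw [c.mul_pow, hx, hy, one_mul]) (one_pow 3) v
    have b4 := e3_mem (a := x⁻¹ * y) (by rw [c.inv_left.mul_pow, inv_pow, hx, hy, inv_one, one_mul]) (one_pow 3) v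
    convert Submodule.add_mem_sup (Submodule.add_mem_sup (Submodule.add_mem_sup b1 b2) b3) b4 using 1
    have d1 : x * y * (x * y) = x * x * (y * y) := by rw [mul_assoc, ← mul_assoc y, ← e]; group
    have d2 : x⁻¹ * y * (x⁻¹ * y) = x * (y * y) := by
      rw [mul_assoc, ← mul_assoc y, ← c.inv_left.eq, ← mul_assoc, ← mul_assoc, ← mul_assoc, ← _root_.mul_inv_rev,
        ← e1, inv_inv]
    simp only [one_pow, one_smul, mulVec_add, ← mv_mul, d1, d2]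
    simp only [e1, mv_mul]
    ext i
    simp only [Pi.add_apply]
    linear_combination (-(v i) - (y.val *ᵥ v) i - (y.val *ᵥ y.val *ᵥ v) i - (x.val *ᵥ y.val *ᵥ v) i -
      (x.val *ᵥ y.val *ᵥ y.val *ᵥ v) i - (x.val *ᵥ x.val *ᵥ y.val *ᵥ v) i -
      (x.val *ᵥ x.val *ᵥ y.val *ᵥ y.val *ᵥ v) i) * h2
  have a1 := fr_sup (Eg x 1) (Eg y 1)
  have a2 := fr_sup (Eg x 1 ⊔ Eg y 1) (Eg (x * y) 1)
  have a3 := fr_sup (Eg x 1 ⊔ Eg y 1 ⊔ Eg (x * y) 1) (Eg (x⁻¹ * y) 1)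
  rw [this, finrank_top, finrank_fin_fun] at a3
  omega

end two

/-! ### weights -/

/-- a joint eigenvalue -/
def Wt (x y : G5 k) (p q : k) : Prop := ∃ v, v ≠ 0 ∧ v ∈ Eg x p ∧ v ∈ Eg y q

theorem lin_comm (e : x * y = y * x) : Commute (toLin' x.val) (toLin' y.val) := by
  change toLin' x.val ∘ₗ toLin' y.val = toLin' y.val ∘ₗ toLin' x.val
  rw [← toLin'_mul, ← toLin'_mul, ← Units.val_mul, e, Units.val_mul]

theorem comm2 (e : x * y = y * x) (i j : Fin 2) :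
    Commute (![toLin' x.val, toLin' y.val] i) (![toLin' x.val, toLin' y.val] j) := by
  fin_cases i <;> fin_cases j
  exacts [rfl, lin_comm e, lin_comm e.symm, rfl]

theorem Wt.card (e : x * y = y * x) {κ : Type*} [Fintype κ] (χ : κ → k × k) (h : ∀ j, Wt x y (χ j).1 (χ j).2)
    (hi : Function.Injective χ) : Fintype.card κ ≤ 5 := by
  choose v h0 h1 h2 using h
  simpa using H11.LS.card_le_of_wt (comm2 e) (χ := fun j => ![(χ j).1, (χ j).2])
    (fun i j h => hi (Prod.ext (congrFun h 0) (congrFun h 1))) (fun j => H11.LS.mem_wt.2 fun i => by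
      fin_cases i
      exacts [mem_Eg.1 (h1 j), mem_Eg.1 (h2 j)]) h0 (W := ⊤) fun _ => trivial

theorem Wt.ex [IsAlgClosed k] (e : x * y = y * x) {W : Submodule k (V5 k)} (h0 : W ≠ ⊥)
    (hx : ∀ v ∈ W, x.val *ᵥ v ∈ W) (hy : ∀ v ∈ W, y.val *ᵥ v ∈ W) :
    ∃ v ∈ W, v ≠ 0 ∧ ∃ p q, v ∈ Eg x p ∧ v ∈ Eg y q := by
  obtain ⟨v, h1, h2, χ, h3⟩ := H11.LS.exists_common_eig (comm2 e) h0 fun i => by
    fin_cases i
    exacts [hx, hy]
  exact ⟨v, h1, h2, χ 0, χ 1, mem_Eg.2 (H11.LS.mem_wt.1 h3 0), mem_Eg.2 (H11.LS.mem_wt.1 h3 1)⟩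

theorem Wt.ex_ne [IsAlgClosed k] (e : x * y = y * x) {n : ℕ} (hn : (n : k) ≠ 0) (hx : x ^ n = 1) (h1 : x ≠ 1) :
    ∃ p q, p ≠ 1 ∧ Wt x y p q := by
  obtain ⟨χ, h2, h3⟩ := H11.LS.exists_wt_ne_one (comm2 e) (i := 0) hn
    (by change toLin' x.val ^ n = 1; rw [← toLin'_pow, ← Units.val_pow_eq_pow_val, hx]; exact toLin'_one)
    fun h => h1 (Units.ext (toLin'.injective (h.trans toLin'_one.symm)))
  obtain ⟨v, hv, h0⟩ := (Submodule.ne_bot_iff _).1 h2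
  exact ⟨χ 0, χ 1, h3, v, h0, mem_Eg.2 (H11.LS.mem_wt.1 hv 0), mem_Eg.2 (H11.LS.mem_wt.1 hv 1)⟩

/-- a family of automorphisms with fixed point free quotients -/
theorem fr0 [IsAlgClosed k] {A κ : Type*} [Group A] [Finite A] [Fintype κ] (hA : ∀ x y : A, x * y = y * x)
    (f : A → G5 k) (hf : ∀ x y, f (x * y) = f x * f y) {n : ℕ} (hn : (n : k) ≠ 0) {x₀ : A} (h0 : f x₀ ^ n = 1)
    (h1 : f x₀ ≠ 1) (σ : κ → A →* A) (b : κ → G5 k) (h : ∀ i x, f x * b i = b i * f (σ i x))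
    (hσ : ∀ i j x, σ i x = σ j x → i = j ∨ x = 1) : Fintype.card κ ≤ 5 := by
  have hc : ∀ x y, Commute (toLin' (f x).val) (toLin' (f y).val) := fun x y =>
    lin_comm (by rw [← hf, hA, hf])
  obtain ⟨χ, h2, h3⟩ := H11.LS.exists_wt_ne_one hc (i := x₀) hn
    (by rw [← toLin'_pow, ← Units.val_pow_eq_pow_val, h0]; exact toLin'_one)
    fun h => h1 (Units.ext (toLin'.injective (h.trans toLin'_one.symm)))
  obtain ⟨v, hv, h0⟩ := (Submodule.ne_bot_iff _).1 h2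
  have hv' : ∀ x, v ∈ Eg (f x) (χ x) := fun x => mem_Eg.2 (H11.LS.mem_wt.1 hv x)
  have hm : ∀ x y, χ (x * y) = χ x * χ y := fun x y => Eg_uniq h0 (hv' _) (hf x y ▸ Eg_mul (hv' x) (hv' y))
  refine (H11.LS.card_le_of_wt hc (χ := fun i => χ ∘ σ i) (v := fun i => (b i).val *ᵥ v)
    (fun i j e => by_contra fun ne => h3 ?_) (fun i => H11.LS.mem_wt.2 fun x => by
      rw [toLin'_apply, ← mv_mul, h, mv_mul, mem_Eg.1 (hv' _), mulVec_smul]; rfl)
    (fun i => mv_ne _ h0) (W := ⊤) fun _ => trivial).trans (fr_le _)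
  have inj : Function.Injective fun x => σ i x * (σ j x)⁻¹ := fun x y e => by
    refine (mul_inv_eq_one.1 ((hσ i j (x * y⁻¹) ?_).resolve_left ne))
    have e' : σ i x = σ i y * (σ j y)⁻¹ * σ j x := mul_inv_eq_iff_eq_mul.1 e
    rw [map_mul, map_mul, map_inv, map_inv, e', hA _ (σ j x), hA (σ i y), ← mul_assoc, mul_inv_cancel_right]
  obtain ⟨x, hx⟩ := Finite.injective_iff_surjective.1 inj x₀
  rw [← hx]
  have e1 := hm (σ i x * (σ j x)⁻¹) (σ j x)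
  rw [inv_mul_cancel_right, show χ (σ i x) = χ (σ j x) from congrFun e x] at e1
  refine (mul_eq_right₀ fun e2 => mv_ne (f (σ j x)) h0 ?_).1 e1.symm
  rw [mem_Eg.1 (hv' _), e2, zero_smul]

end H21.D5
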