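/-
Five-dimensional matrix groups in characteristic two, part 3: configurations which cannot occur.
-/
import Cfsg.Agent.H21.D5b

set_option autoImplicit false
set_option linter.unusedSectionVars false

namespace H21.D5
open Matrix Cfsg.Geo H27.Asch Module H12.D5

variable {k : Type*} [Field k] {G : Type*} [Group G] {μ ω p q : k} {u v w : V5 k}

local notation "fr" => finrank k
local notation "𝐬" => sc (Fin 5)

theorem Wt.tr {x y : G5 k} (s : G5 k) (h : Wt (s * x * s⁻¹) (s * y * s⁻¹) p q) : Wt x y p q := by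
  obtain ⟨v, h0, h1, h2⟩ := h
  refine ⟨_, mv_ne s⁻¹ h0, ?_, ?_⟩
  · simpa [mul_assoc] using Eg_conj_mem h1 s⁻¹
  · simpa [mul_assoc] using Eg_conj_mem h2 s⁻¹

theorem Eg_ne {x : G5 k} (h0 : v ≠ 0) (h : v ∈ Eg x μ) : μ ≠ 0 := by
  rintro rfl; exact mv_ne x h0 (by simpa using mem_Eg.1 h)

theorem Eg_inv' {x : G5 k} (h0 : v ≠ 0) (h : v ∈ Eg x μ) : v ∈ Eg x⁻¹ μ⁻¹ :=
  (Eg_inv (inv_mul_cancel₀ (Eg_ne h0 h))).symm ▸ h

theorem Im_comm {x s : G5 k} (e : s * x = x * s) (h : v ∈ Im x μ) : s.val *ᵥ v ∈ Im x μ := by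
  obtain ⟨u, rfl⟩ := mem_Im.1 h
  exact mem_Im.2 ⟨s.val *ᵥ u, by rw [mulVec_sub, ← mv_mul, ← mv_mul, e, mulVec_smul]⟩

theorem fr_Im_two (h2 : (2 : k) = 0) {t : G5 k} (ht : t * t = 1) : fr (Im t 1) ≤ 2 := by
  have := fr_Im t 1
  have := Submodule.finrank_mono (Im_le h2 ht)
  omega

/-- the square of an element of order four acts quadratically with the involutions centralizing it -/
theorem quad (h2 : (2 : k) = 0) {x t : G5 k} (hx : x ^ 4 = 1) (ht : t * t = 1) (e : x * t = t * x) :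
    Im t 1 ≤ Eg (x * x) 1 := fun v hv => by
  have e1 : ∀ v, Ln x 1 (Ln x 1 v) = (x * x).val *ᵥ v - v := fun v => by
    simp only [Ln_apply, one_smul, mulVec_sub, mv_mul]
    rw [← sub_eq_zero, ← two_v h2 (v - x.val *ᵥ v)]; abel
  let f : End k (Im t 1) := (Ln x 1).restrict fun v hv => by
    rw [Ln_apply]; exact sub_mem (Im_comm e hv) (Submodule.smul_mem _ _ hv)
  have e2 := End.ker_pow_eq_ker_pow_finrank_of_le (f := f) (fr_Im_two h2 ht)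
  rw [← End.ker_pow_eq_ker_pow_finrank_of_le (m := 4) ((fr_Im_two h2 ht).trans (by norm_num))] at e2
  have : (⟨v, hv⟩ : Im t 1) ∈ LinearMap.ker (f ^ 2) := e2 ▸ Subtype.ext (by
    change Ln x 1 (Ln x 1 (Ln x 1 (Ln x 1 v))) = 0
    rw [e1, e1, sub_eq_zero, ← mem_Eg1]
    exact inv_fix h2 (by rw [← hx]; simp only [pow_succ, pow_zero, one_mul, mul_assoc]) v)
  rw [mem_Eg1, ← sub_eq_zero, ← e1]
  exact congrArg Subtype.val this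

theorem inj6 {p q r : k} (b1 : p ≠ p⁻¹) (b2 : q ≠ r⁻¹) (b3 : q ≠ q⁻¹) (b4 : r ≠ p⁻¹) (b5 : r ≠ r⁻¹) (b6 : p ≠ q⁻¹)
    (b7 : ¬ (p = q ∧ q = r)) :
    Function.Injective ![(p, q), (q, r), (r, p), (p⁻¹, r⁻¹), (r⁻¹, q⁻¹), (q⁻¹, p⁻¹)] := fun i j d => by
  fin_cases i <;> fin_cases j <;> simp at d ⊢ <;> grind

theorem inj6' {p q : k} (c : p ≠ q) (n : p ≠ 1) (n' : q ≠ 1) :
    Function.Injective ![((1 : k), p), (p, p⁻¹), (p⁻¹, 1), (1, q), (q, q⁻¹), (q⁻¹, 1)] := fun i j d => by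
  fin_cases i <;> fin_cases j <;> simp at d ⊢ <;> grind

def orb (i : ZMod 3) : Fin 6 → ZMod 3 × ZMod 3 :=
  ![(1, i), (-i, 1), (-1, -i), (- -i, -1), (-(1 + i), -1 + i), (-(-1 + i), -(1 + i))]

theorem orb_inj : ∀ i, Function.Injective (orb i) := by decide

section ma
variable [IsAlgClosed k] (h2 : (2 : k) = 0) {x y s t : G5 k} {l : ℕ} (hl : (l : k) ≠ 0) (h3 : l.Coprime 3)
  (e : x * y = y * x) (hx : x ^ l = 1) (hy : y ^ l = 1) (x1 : x ≠ 1) (s1 : s * x * s⁻¹ = x⁻¹)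
  (s2 : s * y * s⁻¹ = x * y) (t1 : t * x * t⁻¹ = x * y) (t2 : t * y * t⁻¹ = y⁻¹)
include h2 hl h3 e hx hy x1 s1 s2 t1 t2

theorem ma0 : ∃ μ, (∀ u, (x * y⁻¹).val *ᵥ u - μ • u ∈ Eg (x * y) 1) ∧ fr (Eg (x * y⁻¹) μ) ≤ 3 := by
  let W : k → k → k → Prop := fun p q r => Wt x y p q ∧ p * q * r = 1
  have cube : ∀ {p : k}, p ^ l = 1 → p ^ 3 = 1 → p = 1 := fun a b => (pow_eq_one_iff_of_coprime h3).1 ⟨a, b⟩
  have m1 : ∀ {p q r}, W p q r → W p⁻¹ r⁻¹ q⁻¹ := fun {p q r} ⟨⟨v, a0, a1, a2⟩, a3⟩ =>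
    ⟨Wt.tr s ⟨v, a0, s1 ▸ Eg_inv' a0 a1, s2 ▸ eq_inv_of_mul_eq_one_left a3 ▸ Eg_mul a1 a2⟩,
      by rw [← mul_inv, ← mul_inv, mul_right_comm, a3, inv_one]⟩
  have m2 : ∀ {p q r}, W p q r → W r⁻¹ q⁻¹ p⁻¹ := fun {p q r} ⟨⟨v, a0, a1, a2⟩, a3⟩ =>
    ⟨Wt.tr t ⟨v, a0, t1 ▸ eq_inv_of_mul_eq_one_left a3 ▸ Eg_mul a1 a2, t2 ▸ Eg_inv' a0 a2⟩,
      by rw [← mul_inv, ← mul_inv, mul_comm r, mul_comm, ← mul_assoc, a3, inv_one]⟩
  have rot : ∀ {p q r}, W p q r → W q r p := fun h => by simpa using m2 (m1 h)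
  have ni : ∀ {p q r}, W p q r → p ≠ 1 → p ≠ p⁻¹ ∧ q ≠ r⁻¹ := fun {p q r} ⟨⟨v, a0, a1, a2⟩, a3⟩ n =>
    ⟨fun c => n (sq_one h2 (by nth_rw 2 [c]; exact mul_inv_cancel₀ (Eg_ne a0 a1))), fun c => n (by
      have r0 : r ≠ 0 := right_ne_zero_of_mul_eq_one a3
      rwa [c, mul_assoc, inv_mul_cancel₀ r0, mul_one] at a3)⟩
  have A : ∀ {p q r}, W p q r → p = 1 ∨ q = 1 ∨ r = 1 := fun {p q r} h => by
    by_contra c
    push Not at c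
    obtain ⟨b1, b2⟩ := ni h c.1
    obtain ⟨b3, b4⟩ := ni (rot h) c.2.1
    obtain ⟨b5, b6⟩ := ni (rot (rot h)) c.2.2
    have b7 : ¬ (p = q ∧ q = r) := fun ⟨d1, d2⟩ => c.1 (by
      obtain ⟨⟨v, a0, a1, -⟩, a3⟩ := h
      exact cube (Eg_root hx a0 a1) (by rw [← a3, ← d2, ← d1]; ring))
    have := Wt.card e ![(p, q), (q, r), (r, p), (p⁻¹, r⁻¹), (r⁻¹, q⁻¹), (q⁻¹, p⁻¹)] (fun j => by
      fin_cases j
      exacts [h.1, (rot h).1, (rot (rot h)).1, (m1 h).1, (rot (m1 h)).1, (rot (rot (m1 h))).1])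
      (inj6 b1 b2 b3 b4 b5 b6 b7)
    simp at this
  have U : ∀ {p q r r'}, W 1 p r → W 1 q r' → p ≠ 1 → q ≠ 1 → p = q := fun {p q r r'} h h' n n' => by
    by_contra c
    obtain rfl : r = p⁻¹ := eq_inv_of_mul_eq_one_right (by simpa using h.2)
    obtain rfl : r' = q⁻¹ := eq_inv_of_mul_eq_one_right (by simpa using h'.2)
    have := Wt.card e ![(1, p), (p, p⁻¹), (p⁻¹, 1), (1, q), (q, q⁻¹), (q⁻¹, 1)] (fun j => by
      fin_cases j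
      exacts [h.1, (rot h).1, (rot (rot h)).1, h'.1, (rot h').1, (rot (rot h')).1]) (inj6' c n n')
    simp at this
  have mk : ∀ {p q}, Wt x y p q → W p q (p * q)⁻¹ := fun ⟨v, a0, a1, a2⟩ =>
    ⟨⟨v, a0, a1, a2⟩, mul_inv_cancel₀ (mul_ne_zero (Eg_ne a0 a1) (Eg_ne a0 a2))⟩
  obtain ⟨c, c1, r, hc⟩ : ∃ c, c ≠ 1 ∧ ∃ r, W 1 c r := by
    obtain ⟨p, q, n, h⟩ := Wt.ex_ne e hl hx x1
    rcases (A (mk h)).resolve_left n with rfl | d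
    · exact ⟨_, by simpa using n, _, rot (mk h)⟩
    · exact ⟨p, n, q, d ▸ rot (rot (mk h))⟩
  have C : ∀ {p q}, Wt x y p q → p * q = 1 ∨ p * q⁻¹ = c⁻¹ := fun {p q} h => by
    refine or_iff_not_imp_left.2 fun n => ?_
    rcases A (mk h) with rfl | rfl | d
    · rw [U (mk h) hc (by simpa using n) c1, one_mul]
    · rw [← U (rot (mk h)) hc (by simpa using n) c1]; simp
    · exact absurd (inv_eq_one.1 d) n
  have c' : Commute x y := e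
  have hb : (x * y⁻¹) ^ l = 1 := by rw [c'.inv_right.mul_pow, inv_pow, hx, hy, inv_one, one_mul]
  have hh : (x * y) ^ l = 1 := by rw [c'.mul_pow, hx, hy, one_mul]
  refine ⟨c⁻¹, fun u => by_contra fun n => ?_, by_contra fun n => ?_⟩
  · have inv : ∀ z : G5 k, Commute z x → Commute z y → ∀ v ∈ (Im (x * y⁻¹) c⁻¹).map (Ln (x * y) 1),
        z.val *ᵥ v ∈ (Im (x * y⁻¹) c⁻¹).map (Ln (x * y) 1) := by
      rintro z a1 a2 _ ⟨w, hw, rfl⟩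
      refine ⟨_, Im_comm (a1.mul_right a2.inv_right) hw, ?_⟩
      rw [Ln_apply, Ln_apply, mulVec_sub, ← mv_mul, ← mv_mul, (a1.mul_right a2).eq, mulVec_smul]
    obtain ⟨_, ⟨w, hw, rfl⟩, a0, p, q, a1, a2⟩ := Wt.ex e (W := (Im (x * y⁻¹) c⁻¹).map (Ln (x * y) 1))
      (fun d => n ((Submodule.eq_bot_iff _).1 d _ ⟨_, mem_Im.2 ⟨u, rfl⟩, rfl⟩)) (inv x rfl c') (inv y c'.symm rfl)
    rcases C ⟨_, a0, a1, a2⟩ with d | d
    · have a4 := Eg_mul a1 a2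
      rw [d, Ln_apply] at a4
      exact a0 (ss hl hh a4)
    · obtain ⟨u, rfl⟩ := mem_Im.1 hw
      have a3 : Ln (x * y) 1 ((x * y⁻¹).val *ᵥ u - c⁻¹ • u) =
          (x * y⁻¹).val *ᵥ Ln (x * y) 1 u - c⁻¹ • Ln (x * y) 1 u := by
        simp only [Ln_apply, mulVec_sub, mulVec_smul, ← mv_mul, one_smul, smul_sub]
        rw [show x * y * (x * y⁻¹) = x * y⁻¹ * (x * y) from
          (((Commute.refl x).mul_right c'.inv_right).mul_left (c'.symm.mul_right (Commute.refl y).inv_right)).eq]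
        abel
      have a4 := Eg_mul a1 (Eg_inv' a0 a2)
      rw [d, a3] at a4
      exact a0 (a3.trans (sub_eq_zero.2 (mem_Eg.1 (ss hl hb a4))))
  · have a1 := fr_Eg_conj s (x * y⁻¹) c⁻¹
    have a2 := fr_Eg_conj t (x * y⁻¹) c⁻¹
    have a3 := fr_inf (Eg (x * y⁻¹) c⁻¹) (Eg (s * (x * y⁻¹) * s⁻¹) c⁻¹)
    have a4 := fr_inf (Eg (x * y⁻¹) c⁻¹ ⊓ Eg (s * (x * y⁻¹) * s⁻¹) c⁻¹) (Eg (t * (x * y⁻¹) * t⁻¹) c⁻¹)
    obtain ⟨v, ⟨⟨b1, b2⟩, b3⟩, b0⟩ := (Submodule.ne_bot_iff _).1 (ne_bot_of (W := Eg (x * y⁻¹) c⁻¹ ⊓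
      Eg (s * (x * y⁻¹) * s⁻¹) c⁻¹ ⊓ Eg (t * (x * y⁻¹) * t⁻¹) c⁻¹) (by omega))
    have b4 := Eg_mul b1 (Eg_mul b2 b3)
    rw [← conj_mul, ← conj_mul, ← conj_inv, ← conj_inv, s1, s2, t1, t2, show x * y⁻¹ * (x⁻¹ * (x * y)⁻¹ * (x * y * y⁻¹⁻¹)) = 1 by
      rw [c'.inv_right.eq]; group] at b4
    obtain ⟨⟨w, a0, -, a2⟩, -⟩ := hc
    exact c1 (cube (Eg_root hy a0 a2) (inv_eq_one.1 (by rw [← Eg_one b0 b4]; ring)))

end ma

namespace PR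
variable (D : PR G k) {x y : G5 k} {a b g h s t z : G}

theorem ex2 (h : g * g = 1) : ∃ x, D.R x g ∧ x * x = 1 := by
  simpa only [sq] using D.ex_pow (n := 2) (by norm_num) ((sq g).trans h)

theorem sz (h2 : (2 : k) = 0) (hI : Irr D.P) {Z : Set G} (hg : Subgroup.closure (insert t Z) = ⊤) (ht : t * t = 1)
    (t1 : t ≠ 1) (hZ : ∀ z ∈ Z, z * z = 1 ∧ ∃ u, u * u = z ∧ ∀ s ∈ Z, u * s = s * u) : False := by
  obtain ⟨y, y1, y2⟩ := D.ex2 ht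
  choose! f f1 f2 using fun z hz => D.ex2 (hZ z hz).1
  have key : ⨆ z ∈ Z, Im (f z) 1 ≤ ⨅ z ∈ Z, Eg (f z) 1 := iSup₂_le fun s hs => le_iInf₂ fun z hz => by
    obtain ⟨e, u, rfl, hu⟩ := hZ z hz
    obtain ⟨x, x1, x2⟩ := D.ex_pow (n := 4) (g := u) (by norm_num) (by
      rw [← e]; simp only [pow_succ, pow_zero, one_mul, mul_assoc])
    rw [← eq_of_pow (n := 2) (by norm_num) (D.mul x1 x1) (f1 _ hz) (by rw [← x2, ← sq, ← pow_mul]) ((sq _).trans (f2 _ hz))]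
    exact quad h2 x2 (f2 s hs) (comm_of_pow (by norm_num) x1 (f1 s hs) (hu s hs) x2)
  have a1 := fr_Im_two h2 y2
  have a2 := fr_Im y 1
  have a3 := mt (fr_top (x := y)) (ne_one y1 t1)
  have a4 := fr_le (Eg y 1)
  by_cases c : fr ↥(⨆ z ∈ Z, Im (f z) 1) ≤ 2
  · have := fr_sup (⨆ z ∈ Z, Im (f z) 1) (Im y 1)
    have := Submodule.finrank_mono (le_sup_right : _ ≤ (⨆ z ∈ Z, Im (f z) 1) ⊔ Im y 1)
    have kk : ∀ {x : G5 k} {W : Submodule k (V5 k)}, Im x 1 ≤ W → ∀ w ∈ W, x.val *ᵥ w ∈ W := fun h w hw => by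
      simpa using add_mem (h (mem_Im.2 ⟨w, rfl⟩)) hw
    refine D.irr hI (W := (⨆ z ∈ Z, Im (f z) 1) ⊔ Im y 1) (ne_bot_of (by omega)) (ne_top_of (by omega)) hg ?_
    rintro g (rfl | hg)
    exacts [⟨y, y1, kk le_sup_right⟩, ⟨_, f1 g hg, kk (le_sup_of_le_left (le_iSup₂_of_le g hg le_rfl))⟩]
  · have := fr_inf (⨅ z ∈ Z, Eg (f z) 1) (Eg y 1)
    have := Submodule.finrank_mono key
    have := Submodule.finrank_mono (inf_le_right : (⨅ z ∈ Z, Eg (f z) 1) ⊓ Eg y 1 ≤ _)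
    have kk : ∀ {x : G5 k} {W : Submodule k (V5 k)}, W ≤ Eg x 1 → ∀ w ∈ W, x.val *ᵥ w ∈ W := fun h w hw => by
      rwa [mem_Eg1.1 (h hw)]
    refine D.irr hI (W := (⨅ z ∈ Z, Eg (f z) 1) ⊓ Eg y 1) (ne_bot_of (by omega)) (ne_top_of (by omega)) hg ?_
    rintro g (rfl | hg)
    exacts [⟨y, y1, kk inf_le_right⟩, ⟨_, f1 g hg, kk (inf_le_of_left_le (iInf₂_le g hg))⟩]

variable [IsAlgClosed k]

include D in
theorem frob [Finite G] {U B : Subgroup G} {n : ℕ} (hn : (n : k) ≠ 0) (h5 : n.Coprime 5) (UB : U ≤ B)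
    (nm : ∀ b ∈ B, ∀ x ∈ U, b * x * b⁻¹ ∈ U) (ex : ∀ x ∈ U, x ^ n = 1) (cm : ∀ x ∈ U, ∀ y ∈ U, x * y = y * x)
    (ce : ∀ x ∈ U, x ≠ 1 → ∀ h ∈ B, h * x = x * h → h ∈ U) (h1 : U ≠ ⊥) : Nat.card B ≤ 5 * Nat.card U := by
  classical
  choose f f1 f2 using fun x : U => D.ex_pow h5 (ex x x.2)
  choose b hb using D.ex
  obtain ⟨x, x1⟩ := Subgroup.ne_bot_iff_exists_ne_one.1 h1
  have := Fintype.ofFinite (B ⧸ U.subgroupOf B)
  have := fr0 (κ := B ⧸ U.subgroupOf B) (fun x y => Subtype.ext (cm _ x.2 _ y.2)) f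
    (fun x y => eq_of_pow h5 (f1 _) (D.mul (f1 x) (f1 y)) (f2 _) (by
      rw [Commute.mul_pow (comm_of_pow h5 (f1 x) (f1 y) (cm _ x.2 _ y.2) (f2 x)), f2, f2, one_mul])) hn (f2 x)
    (ne_one (f1 x) fun e => x1 (Subtype.ext e))
    (fun i => MonoidHom.mk' (fun x => ⟨_, nm _ (inv_mem i.out.2) _ x.2⟩) fun x y => Subtype.ext (by simp [mul_assoc]))
    (fun i => b i.out) (fun i x => by
      rw [← conj_of_pow h5 (hb i.out) (f1 ⟨_, nm _ (inv_mem i.out.2) _ x.2⟩) (y := f x)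
        (by simpa [mul_assoc] using f1 x) (f2 _) (f2 _), inv_mul_cancel_right]; rfl) fun i j x e => by
      refine or_iff_not_imp_right.2 fun x1 => ?_
      have e' : i.out.1⁻¹ * x * i.out.1⁻¹⁻¹ = j.out.1⁻¹ * x * j.out.1⁻¹⁻¹ := congrArg Subtype.val e
      have := nm _ (inv_mem i.out.2) _ (ce _ x.2 (fun e => x1 (Subtype.ext e)) _ (mul_mem j.out.2 (inv_mem i.out.2)) (by
        calc _ = j.out.1 * (i.out.1⁻¹ * x * i.out.1⁻¹⁻¹) * i.out.1⁻¹ := by group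
          _ = _ := by rw [e']; group))
      rw [← i.out_eq', ← j.out_eq', QuotientGroup.eq, Subgroup.mem_subgroupOf]
      simpa [mul_assoc] using this
  rw [Subgroup.card_eq_card_quotient_mul_card_subgroup (U.subgroupOf B),
    Nat.card_congr (Subgroup.subgroupOfEquivOfLe UB).toEquiv, Nat.card_eq_fintype_card]
  exact Nat.mul_le_mul_right _ this

variable (h2 : (2 : k) = 0)
include h2

variable {D} in
theorem f3 (hx : D.R x g) (x3 : x ^ 3 = 1) (g1 : g ≠ 1) (hs : s * g * s⁻¹ = g⁻¹) :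
    (fr (Eg x 1) = 1 ∨ fr (Eg x 1) = 3) ∧ ∀ t, t * t = 1 → t ≠ 1 → t * g = g * t → fr (Eg x 1) = 1 := by
  obtain ⟨y, hy⟩ := D.ex s
  have e := conj_of_pow (n := 3) (by norm_num) hy hx (hs ▸ D.inv hx) x3 (by rw [inv_pow, x3, inv_one])
  have := f3a h2 x3 (ne_one hx g1) e
  refine ⟨this, fun t ht t1 c => this.resolve_right fun h => ?_⟩
  obtain ⟨z, z1, z2⟩ := D.ex2 ht
  exact ne_one z1 t1 (D.nt z1 (f3b h2 x3 e z2 (comm_of_pow (n := 3) (by norm_num) hx z1 c.symm x3).symm h))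

omit h2 [IsAlgClosed k] in
variable {D} in
theorem fr3_conj (hx : D.R x g) (hy : D.R y (s * g * s⁻¹)) (x3 : x ^ 3 = 1) (y3 : y ^ 3 = 1) :
    fr (Eg y 1) = fr (Eg x 1) := by
  obtain ⟨z, hz⟩ := D.ex s
  rw [← conj_of_pow (by norm_num) hz hx hy x3 y3, fr_Eg_conj]

omit h2 [IsAlgClosed k] in
theorem ex33 (g3 : g ^ 3 = 1) (h3 : h ^ 3 = 1) (c : g * h = h * g) : ∃ x y, D.R x g ∧ D.R y h ∧ x ^ 3 = 1 ∧ y ^ 3 = 1 ∧
    x * y = y * x ∧ (x * y) ^ 3 = 1 ∧ (x⁻¹ * y) ^ 3 = 1 := by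
  obtain ⟨x, x1, x3⟩ := D.ex_pow (by norm_num) g3
  obtain ⟨y, y1, y3⟩ := D.ex_pow (by norm_num) h3
  have e : Commute x y := comm_of_pow (by norm_num) x1 y1 c x3
  exact ⟨x, y, x1, y1, x3, y3, e, by rw [e.mul_pow, x3, y3, one_mul],
    by rw [e.inv_left.mul_pow, inv_pow, x3, y3, inv_one, one_mul]⟩

include D

/-- the wreath product of `S₃` with `2` -/
theorem sp4 (g3 : g ^ 3 = 1) (c : g * h = h * g) (t2 : t * t = 1) (tg : t * g * t⁻¹ = g⁻¹) (th : t * h = h * t)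
    (s2 : s * s = 1) (sg : s * g * s⁻¹ = h) (gh : g * h ≠ 1) (g1 : g ≠ 1) (s1 : s ≠ 1) : False := by
  have sh : s * h * s⁻¹ = g := by rw [← sg, ← mul_assoc, ← mul_assoc, s2, mul_assoc, ← _root_.mul_inv_rev, s2]; simp
  have t1 : t ≠ 1 := by
    rintro rfl
    exact g1 (by rw [← g3, pow_three]; nth_rw 3 [show g = g⁻¹ by simpa using tg]; simp)
  obtain ⟨x, y, x1, y1, x3, y3, e, a3, b3⟩ := D.ex33 g3 (h := h) (by rw [← sg, conj_pow, g3]; simp) c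
  have r : s * t * s⁻¹ * h * (s * t * s⁻¹)⁻¹ = h⁻¹ := by rw [← sg, conj_inv (a := g), ← tg]; group
  have a1 := (f3 h2 y1 y3 (by rintro rfl; exact g1 (by simpa using sh.symm)) r).2 t t2 t1 th
  have a2 := fr3_conj x1 (sg ▸ y1) x3 y3
  have a4 := (f3 h2 (D.mul x1 y1) a3 gh (s := t * (s * t * s⁻¹)) (by
    calc _ = t * ((s * t * s⁻¹) * g * (s * t * s⁻¹)⁻¹ * ((s * t * s⁻¹) * h * (s * t * s⁻¹)⁻¹)) * t⁻¹ := by group
      _ = t * (g * h⁻¹) * t⁻¹ := by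
        rw [r, ← sh, show s * t * s⁻¹ * (s * h * s⁻¹) = s * (t * h) * s⁻¹ by group, th]; group
      _ = _ := by rw [← conj_mul, ← conj_inv, tg, th, c]; group)).2 s s2 s1 (by
    rw [← mul_inv_eq_iff_eq_mul, ← conj_mul, sg, sh, c])
  have a5 := fr3_conj (s := t) (D.mul x1 y1) (y := x⁻¹ * y)
    (by rw [← conj_mul, tg, th, mul_inv_cancel_right]; exact D.mul (D.inv x1) y1) a3 b3
  have := f4 h2 x3 y3 e
  omega

/-- the group `3² : Q₈` -/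
theorem q8 (a3 : a ^ 3 = 1) (c : a * b = b * a) (a1 : a ≠ 1) (s1 : s * a * s⁻¹ = b⁻¹) (s2 : s * b * s⁻¹ = a)
    (t1 : t * a * t⁻¹ = (a * b)⁻¹) (t2 : t * b * t⁻¹ = a⁻¹ * b) : False := by
  obtain ⟨x, y, x1, y1, x3, y3, e, c3, d3⟩ := D.ex33 a3 (h := b) (by
    rw [← inv_eq_one, ← inv_pow, ← s1, conj_pow, a3]; simp) c
  obtain ⟨σ, hσ⟩ := D.ex s
  obtain ⟨τ, hτ⟩ := D.ex t
  have o : Nat.Coprime 3 5 := by norm_num
  have e1 := conj_of_pow (y := y⁻¹) o hσ x1 (by rw [s1]; exact D.inv y1) x3 (by rw [inv_pow, y3, inv_one])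
  have e2 := conj_of_pow (y := x) o hσ y1 (by rwa [s2]) y3 x3
  have e3 := conj_of_pow (y := (x * y)⁻¹) o hτ x1 (by rw [t1]; exact D.inv (D.mul x1 y1)) x3
    (by rw [inv_pow, c3, inv_one])
  have e4 := conj_of_pow (y := x⁻¹ * y) o hτ y1 (by rw [t2]; exact D.mul (D.inv x1) y1) y3 d3
  obtain ⟨ω, q, ω1, v, v0, v1, v2⟩ := Wt.ex_ne e (n := 3)
    (fun e => one_ne_zero (α := k) (by push_cast at e; linear_combination e - h2)) x3 (ne_one x1 a1)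
  have ω3 := Eg_root x3 v0 v1
  have pr : IsPrimitiveRoot ω 3 := by
    have := Fact.mk Nat.prime_three
    exact orderOf_eq_prime ω3 ω1 ▸ IsPrimitiveRoot.orderOf ω
  obtain ⟨ε, hε⟩ : ∃ ε : ZMod 3 → k, ∀ i, ε i = ω ^ i.val := ⟨_, fun _ => rfl⟩
  have εa : ∀ i j, ε (i + j) = ε i * ε j := fun i j => by
    rw [hε, hε, hε, ← pow_add, ZMod.val_add, ← pow_eq_pow_mod _ ω3]
  have εn : ∀ i, ε (-i) = (ε i)⁻¹ := fun i => eq_inv_of_mul_eq_one_left (by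
    rw [← εa, neg_add_cancel, hε, ZMod.val_zero, pow_zero])
  let W : ZMod 3 × ZMod 3 → Prop := fun p => Wt x y (ε p.1) (ε p.2)
  have m1 : ∀ p, W p → W (-p.2, p.1) := fun p ⟨v, a0, a1, a2⟩ =>
    Wt.tr σ ⟨v, a0, by rw [e1, εn]; exact Eg_inv' a0 a2, by rwa [e2]⟩
  have m2 : ∀ p, W p → W (-(p.1 + p.2), -p.1 + p.2) := fun p ⟨v, a0, a1, a2⟩ =>
    Wt.tr τ ⟨v, a0, by rw [e3, εn, εa]; exact Eg_inv' a0 (Eg_mul a1 a2),
      by rw [e4, εa, εn]; exact Eg_mul (Eg_inv' a0 a1) a2⟩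
  obtain ⟨j, hj, rfl⟩ := pr.eq_pow_of_pow_eq_one (Eg_root y3 v0 v2)
  have w0 : W (1, j) := ⟨v, v0, by rwa [hε, ZMod.val_one, pow_one], by rwa [hε, ZMod.val_natCast_of_lt hj]⟩
  generalize (j : ZMod 3) = i at w0
  have kk : Function.Injective ε := fun i j e =>
    ZMod.val_injective _ (pr.pow_inj i.val_lt j.val_lt (by rwa [hε, hε] at e))
  have w1 : ∀ l, W (orb i l) := fun l => by
    clear_value W
    fin_cases l
    exacts [w0, m1 _ w0, m1 _ (m1 _ w0), m1 _ (m1 _ (m1 _ w0)), m2 _ w0, m1 _ (m2 _ w0)]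
  have := Wt.card e (fun l => (ε (orb i l).1, ε (orb i l).2)) w1 fun l m e =>
    orb_inj i (Prod.ext (kk (congrArg Prod.fst e)) (kk (congrArg Prod.snd e)))
  simp at this

/-- a torus of rank two with Weyl group `S₃` -/
theorem ma {l : ℕ} (hl : (l : k) ≠ 0) (h3 : l.Coprime 3) (c : a * b = b * a) (al : a ^ l = 1) (a1 : a ≠ 1)
    (s0 : s * s = 1) (s1 : s * a * s⁻¹ = a⁻¹) (s2 : s * b * s⁻¹ = a * b) (t0 : t * t = 1) (t1 : t * a * t⁻¹ = a * b)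
    (t2 : t * b * t⁻¹ = b⁻¹) (g0 : g * g = 1) (z0 : z * z = 1) (gz : g * z = z * g) (n1 : g * z ≠ 1)
    (gb : g * (a * b⁻¹) = a * b⁻¹ * g) (zb : z * (a * b⁻¹) = a * b⁻¹ * z)
    (r : (g * (a * b * z * (a * b)⁻¹)) ^ 3 = 1) : False := by
  have kk : ∀ {s a : G} {σ}, D.R σ s → σ * σ = 1 → s * s = 1 → s * a * s⁻¹ = a⁻¹ → ∃ x, D.R x a ∧ σ * x * σ⁻¹ = x⁻¹ :=
    fun {s a σ} h1 h2 h3 h4 => by
    obtain ⟨y, y1, y2⟩ := D.ex2 (g := s * a) (by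
      rw [show s * a * (s * a) = s * a * s⁻¹ * (s * s) * a by group, h3, h4]; simp)
    refine ⟨σ * y, by simpa [← mul_assoc, h3] using D.mul h1 y1, ?_⟩
    rw [← mul_assoc, h2, one_mul, _root_.mul_inv_rev, inv_eq_of_mul_eq_one_right y2]
  obtain ⟨σ, σ1, σ2⟩ := D.ex2 s0
  obtain ⟨τ, τ1, τ2⟩ := D.ex2 t0
  obtain ⟨x, x1, x2⟩ := kk σ1 σ2 s0 s1
  obtain ⟨y, y1, y2⟩ := kk τ1 τ2 t0 t2
  have cc : ∀ {σ : G5 k}, σ * σ = 1 → ∀ x, σ * (σ * x * σ⁻¹) * σ⁻¹ = x := fun h x => by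
    rw [← mul_assoc, ← mul_assoc, h, mul_assoc, ← _root_.mul_inv_rev, h]; simp
  have e1 : σ * y * σ⁻¹ = x * y := by
    obtain ⟨c, c1, c2⟩ := eq_sc (D.mul x1 y1) (s2 ▸ conj σ1 y1)
    have := cc σ2 y
    rw [c2, ← conj_mul, conj_sc, ← conj_mul, x2, c2, ← mul_assoc x⁻¹, ← sc_comm, mul_assoc (𝐬 c), inv_mul_cancel_left,
      ← mul_assoc, mul_eq_right, ← map_mul] at this
    rw [c2, root25 c1 (sc_eq_one this), map_one, one_mul]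
  obtain ⟨d, d1, d2⟩ := eq_sc (D.mul x1 y1) (c ▸ D.mul y1 x1)
  have e : x * y = y * x := by
    have := congrArg (fun z => σ * z * σ⁻¹) d2
    simp only [← conj_mul, conj_sc, x2, e1, inv_mul_cancel_left] at this
    rw [mul_inv_eq_iff_eq_mul, mul_assoc, d2, ← mul_assoc, ← map_mul, eq_comm, mul_eq_right] at this
    rw [d2, root25 d1 (sc_eq_one this), map_one, one_mul]
  have e2 : τ * x * τ⁻¹ = x * y := by
    obtain ⟨c, c1, c2⟩ := eq_sc (D.mul x1 y1) (t1 ▸ conj τ1 x1)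
    have := cc τ2 x
    rw [c2, ← conj_mul, conj_sc, ← conj_mul, y2, c2, mul_assoc (𝐬 c), mul_inv_cancel_right,
      ← mul_assoc, mul_eq_right, ← map_mul] at this
    rw [c2, root25 c1 (sc_eq_one this), map_one, one_mul]
  have xl := inv_pow' x1 x2 al
  have yl : y ^ l = 1 := by rw [← cc σ2 y, e1, ← e2, conj_pow, conj_pow, xl]; simp
  obtain ⟨μ, b1, b2⟩ := ma0 h2 hl h3 e xl yl (ne_one x1 a1) x2 e1 e2 y2
  obtain ⟨γ, γ1, γ2⟩ := D.ex2 g0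
  obtain ⟨ζ, ζ1, ζ2⟩ := D.ex2 z0
  have o : Nat.Coprime 2 5 := by norm_num
  have c1 := comm_of_pow o γ1 (D.mul x1 (D.inv y1)) gb ((sq _).trans γ2)
  have c2 := comm_of_pow o ζ1 (D.mul x1 (D.inv y1)) zb ((sq _).trans ζ2)
  have c3 := comm_of_pow o γ1 ζ1 gz ((sq _).trans γ2)
  have c4 := inv_pow' (a := γ) (D.mul γ1 (conj (D.mul x1 y1) ζ1)) (by
    rw [← mul_assoc, γ2, one_mul, _root_.mul_inv_rev γ, conj_inv, inv_eq_of_mul_eq_one_right ζ2]) r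
  have c5 : γ * ζ * (γ * ζ) = 1 := by rw [mul_assoc, ← mul_assoc ζ, ← c3, mul_assoc, ζ2, mul_one, γ2]
  have hU : ∀ v ∈ Im (x * y⁻¹) μ, v ∈ Eg (x * y) 1 := fun v hv => let ⟨u, hu⟩ := mem_Im.1 hv; hu ▸ b1 u
  have c6 : ∀ v ∈ Im (x * y⁻¹) μ, (γ * (x * y * ζ * (x * y)⁻¹)).val *ᵥ v = (γ * ζ).val *ᵥ v := fun v hv => by
    have := hU v hv
    rw [← Eg_inv (one_mul (1 : k))] at this
    rw [mv_mul, mv_mul, mv_mul, mv_mul γ, mem_Eg1.1 this, mem_Eg1.1 (hU _ (Im_comm c2 hv))]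
  have c7 : γ * ζ * (x * y⁻¹) = x * y⁻¹ * (γ * ζ) := by rw [mul_assoc, c2, ← mul_assoc, c1, mul_assoc]
  refine ne_one (D.mul γ1 ζ1) n1 (D.nt (D.mul γ1 ζ1) (g1 h2 hl (b := x * y⁻¹) ?_ c5 c7 (fun u => ?_) b2))
  · rw [(Commute.inv_right e).mul_pow, inv_pow, xl, yl, inv_one, one_mul]
  · have hv : _ ∈ Im (x * y⁻¹) μ := mem_Im.2 ⟨u, rfl⟩
    generalize (x * y⁻¹).val *ᵥ u - μ • u = v at hv
    have := congrArg (·.val *ᵥ v) c4
    simp only [pow_three] at this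
    generalize γ * (x * y * ζ * (x * y)⁻¹) = η at this c6
    rw [mv_mul, mv_mul, c6 _ hv, c6 _ (Im_comm c7 hv), ← mv_mul (γ * ζ), c5, Units.val_one, one_mulVec, c6 _ hv] at this
    exact mem_Eg1.2 this

end PR

end H21.D5
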