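/-
Five-dimensional matrix groups in characteristic two, part 4: Sylow subgroups have class at most two.
-/
import Cfsg.Agent.H21.D5c

set_option autoImplicit false
set_option linter.unusedSectionVars false

namespace H21.D5
open Matrix Cfsg.Geo H27.Asch Module H12.D5 Submodule
open scoped commutatorElement

variable {k : Type*} [Field k] {S : Subgroup (G5 k)}

theorem exists_fix [Finite k] {p : ℕ} [hp : Fact p.Prime] [CharP k p] (hS : IsPGroup p S) {W : Submodule k (V5 k)}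
    (hW : ∀ x ∈ S, ∀ v ∈ W, x.val *ᵥ v ∈ W) (h : W ≠ ⊤) : ∃ v, v ∉ W ∧ ∀ x ∈ S, x.val *ᵥ v - v ∈ W := by
  let _ : MulAction S (V5 k ⧸ W) :=
    { smul := fun x => W.mapQ W (toLin' x.1.val) fun v hv => hW _ x.2 v hv
      one_smul := fun v => Submodule.Quotient.induction_on _ v fun v => congrArg Submodule.Quotient.mk (one_mulVec v)
      mul_smul := fun x y v => Submodule.Quotient.induction_on _ v fun v =>
        congrArg Submodule.Quotient.mk (mv_mul _ _ v) }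
  have := Submodule.Quotient.nontrivial_iff.2 h
  have : Finite (V5 k ⧸ W) := .of_surjective _ (Submodule.Quotient.mk_surjective W)
  obtain ⟨v, hv⟩ := exists_ne (0 : V5 k ⧸ W)
  obtain ⟨b, h1, h2⟩ := hS.exists_fixed_point_of_prime_dvd_card_of_fixed_point (V5 k ⧸ W)
    (addOrderOf_eq_prime (x := v) (by rw [← Nat.cast_smul_eq_nsmul k, CharP.cast_eq_zero, zero_smul]) hv ▸
      addOrderOf_dvd_natCard v) (a := 0) fun x => map_zero _
  obtain ⟨b, rfl⟩ := Submodule.Quotient.mk_surjective _ b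
  exact ⟨b, fun e => h2 ((Submodule.Quotient.mk_eq_zero _).2 e).symm,
    fun x hx => (Submodule.Quotient.eq _).1 (h1 ⟨x, hx⟩)⟩

/-- unitriangular matrices -/
def ut (a b d e f g h i j l : k) : M5 k := !![1, a, f, i, l; 0, 1, b, g, j; 0, 0, 1, d, h; 0, 0, 0, 1, e; 0, 0, 0, 0, 1]

def UT (x : M5 k) : Prop := ∃ a b d e f g h i j l, x = ut a b d e f g h i j l

theorem exists_tri [Finite k] {p : ℕ} [hp : Fact p.Prime] [CharP k p] (hS : IsPGroup p S) :
    ∃ B : G5 k, ∀ x ∈ S, UT (B⁻¹ * x * B).val := by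
  let W : (ℕ → V5 k) → ℕ → Submodule k (V5 k) := fun v m => span k (Set.range fun i : Fin m => v i)
  have key : ∀ m ≤ 5, ∃ v : ℕ → V5 k, LinearIndependent k (fun i : Fin m => v i) ∧
      ∀ j < m, ∀ x ∈ S, x.val *ᵥ v j - v j ∈ W v j := fun m hm => by
    induction m with
    | zero => exact ⟨0, linearIndependent_empty_type, by simp⟩
    | succ m ih =>
      obtain ⟨v, h1, h2⟩ := ih (by omega)
      obtain ⟨u, h3, h4⟩ := exists_fix hS (W := W v m) (fun x hx w hw => by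
        refine (map_span_le (toLin' x.val) _ _).2 ?_ ⟨w, hw, rfl⟩
        rintro _ ⟨i, rfl⟩
        simpa using add_mem (span_mono (by rintro _ ⟨l, rfl⟩; exact ⟨⟨l, by omega⟩, rfl⟩) (h2 i i.2 x hx))
          (subset_span ⟨i, rfl⟩ : v i ∈ W v m))
        (ne_top_of ((finrank_range_le_card _).trans_lt (by simp; omega)))
      have e : ∀ j ≤ m, (fun i : Fin j => Function.update v m u i) = fun i : Fin j => v i := fun j hj =>
        funext fun i => Function.update_of_ne (by omega) _ _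
      refine ⟨Function.update v m u, linearIndependent_finSucc'.2 ?_, fun j hj x hx => ?_⟩
      · rw [show Fin.init (fun i : Fin (m + 1) => Function.update v m u i) = _ from e m le_rfl]
        exact ⟨h1, by simpa using h3⟩
      · simp only [W, e j (by omega)]
        rcases (Nat.lt_succ_iff.1 hj).eq_or_lt with rfl | h
        · simpa using h4 x hx
        · simpa [Function.update_of_ne h.ne] using h2 j h x hx
  obtain ⟨v, h1, h2⟩ := key 5 le_rfl
  obtain ⟨B, hB⟩ := (linearIndependent_cols_iff_isUnit (A := of fun i j : Fin 5 => v j i)).1 h1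
  have e1 : ∀ j : Fin 5, B.val *ᵥ Pi.single j 1 = v j := fun j => by rw [hB]; ext i; simp
  have e2 : ∀ j : Fin 5, (B⁻¹).val *ᵥ v j = Pi.single j 1 := fun j => by
    rw [← e1, ← mv_mul, inv_mul_cancel, Units.val_one, one_mulVec]
  refine ⟨B, fun x hx => ?_⟩
  have e3 : ∀ i j : Fin 5, j ≤ i → (B⁻¹ * x * B).val i j = if i = j then 1 else 0 := fun i j h => by
    have a1 : ∀ w ∈ W v j, ((B⁻¹).val *ᵥ w) i = 0 := fun w hw => by
      induction hw using span_induction with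
      | mem w hw =>
        obtain ⟨l, rfl⟩ := hw
        rw [show (B⁻¹).val *ᵥ v l = _ from e2 ⟨l, by omega⟩, Pi.single_eq_of_ne fun e => by
          have := congrArg Fin.val e; simp at this; omega]
      | zero => simp
      | add a b _ _ h1 h2 => rw [mulVec_add, Pi.add_apply, h1, h2, add_zero]
      | smul c a _ h1 => rw [mulVec_smul, Pi.smul_apply, h1, smul_zero]
    have := a1 _ (h2 j j.2 x hx)
    rw [mulVec_sub, e2, ← e1, ← mv_mul, ← mv_mul, Pi.sub_apply, sub_eq_zero, Pi.single_apply] at this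
    simpa using this
  generalize (B⁻¹ * x * B).val = a at e3
  refine ⟨a 0 1, a 1 2, a 2 3, a 3 4, a 0 2, a 1 3, a 2 4, a 0 3, a 1 4, a 0 4, Matrix.ext fun i j => ?_⟩
  fin_cases i <;> fin_cases j <;> first | rfl | exact e3 _ _ (by decide)

theorem ut_mul (a b d e f g h i j l a' b' d' e' f' g' h' i' j' l' : k) :
    ut a b d e f g h i j l * ut a' b' d' e' f' g' h' i' j' l' = ut (a + a') (b + b') (d + d') (e + e')
      (f + a * b' + f') (g + b * d' + g') (h + d * e' + h') (i + f * d' + a * g' + i') (j + g * e' + b * h' + j')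
      (l + i * e' + f * h' + a * j' + l') := by
  ext i j; fin_cases i <;> fin_cases j <;> simp [ut, mul_apply, Fin.sum_univ_five] <;> ring

theorem ut_inj {a b d e f g h i j l a' b' d' e' f' g' h' i' j' l' : k}
    (H : ut a b d e f g h i j l = ut a' b' d' e' f' g' h' i' j' l') : a = a' ∧ b = b' ∧ d = d' ∧ e = e' ∧ f = f' ∧
      g = g' ∧ h = h' ∧ i = i' ∧ j = j' ∧ l = l' :=
  let e := fun i j => congrFun (congrFun H i) j
  ⟨e 0 1, e 1 2, e 2 3, e 3 4, e 0 2, e 1 3, e 2 4, e 0 3, e 1 4, e 0 4⟩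

theorem r1_vv (v φ : V5 k) : R1 (vecMulVec v φ) := fun i j l m => by simp only [vecMulVec_apply]; ring

theorem R1.conj {x : G5 k} (h : R1 (x.val - 1)) (B : G5 k) : R1 ((B * x * B⁻¹).val - 1) := by
  obtain ⟨v, φ, e⟩ := h.vv
  rw [show (B * x * B⁻¹).val - 1 = B.val * (x.val - 1) * (B⁻¹).val by simp [mul_sub, sub_mul], e, mul_vecMulVec,
    vecMulVec_mul]
  exact r1_vv _ _

theorem UT.r1 {x : M5 k} (hx : UT x) (h : x 0 1 = 0 ∧ x 1 2 = 0 ∧ x 2 3 = 0 ∧ x 3 4 = 0)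
    (h' : x 0 2 = 0 ∧ x 1 3 = 0 ∧ x 2 4 = 0) (e : x 0 3 * x 1 4 = 0) : R1 (x - 1) := by
  obtain ⟨_, _, _, _, _, _, _, i, j, l, rfl⟩ := hx
  obtain ⟨rfl, rfl, rfl, rfl⟩ := h
  obtain ⟨rfl, rfl, rfl⟩ := h'
  rcases mul_eq_zero.1 e with rfl | rfl
  · convert r1_vv ![l, j, 0, 0, 0] ![0, 0, 0, 0, 1]
    ext i j; fin_cases i <;> fin_cases j <;> simp [ut, vecMulVec_apply]
  · convert r1_vv ![1, 0, 0, 0, 0] ![0, 0, 0, i, l]
    ext i j; fin_cases i <;> fin_cases j <;> simp [ut, vecMulVec_apply]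

theorem UT.add {x y : M5 k} (hx : UT x) (hy : UT y) : (x * y) 0 1 = x 0 1 + y 0 1 ∧ (x * y) 1 2 = x 1 2 + y 1 2 ∧
    (x * y) 2 3 = x 2 3 + y 2 3 := by
  obtain ⟨_, _, _, _, _, _, _, _, _, _, rfl⟩ := hx
  obtain ⟨_, _, _, _, _, _, _, _, _, _, rfl⟩ := hy
  rw [ut_mul]; exact ⟨rfl, rfl, rfl⟩

theorem UT.comm {c x y : M5 k} (hc : UT c) (hx : UT x) (hy : UT y) (e : c * (y * x) = x * y) :
    (c 0 1 = 0 ∧ c 1 2 = 0 ∧ c 2 3 = 0 ∧ c 3 4 = 0) ∧ (c 0 2 = x 0 1 * y 1 2 - y 0 1 * x 1 2 ∧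
      c 1 3 = x 1 2 * y 2 3 - y 1 2 * x 2 3 ∧ c 2 4 = x 2 3 * y 3 4 - y 2 3 * x 3 4) ∧
      (x 0 1 = 0 ∧ x 1 2 = 0 ∧ x 2 3 = 0 ∧ x 3 4 = 0 → (c 0 3 = x 0 2 * y 2 3 - y 0 1 * x 1 3 ∧
        c 1 4 = x 1 3 * y 3 4 - y 1 2 * x 2 4) ∧
        (x 0 2 = 0 ∧ x 1 3 = 0 ∧ x 2 4 = 0 → c 0 4 = x 0 3 * y 3 4 - y 0 1 * x 1 4)) := by
  obtain ⟨a, b, d, f, g, h, i, j, _, _, rfl⟩ := hc
  obtain ⟨_, _, _, _, _, _, _, _, _, _, rfl⟩ := hx
  obtain ⟨_, _, _, _, _, _, _, _, _, _, rfl⟩ := hy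
  rw [ut_mul, ut_mul, ut_mul] at e
  obtain ⟨e1, e2, e3, e4, e5, e6, e7, e8, e9, e10⟩ := ut_inj e
  obtain rfl : a = 0 := by linear_combination e1
  obtain rfl : b = 0 := by linear_combination e2
  obtain rfl : d = 0 := by linear_combination e3
  obtain rfl : f = 0 := by linear_combination e4
  simp only [ut, of_apply, cons_val', cons_val_zero, cons_val_one, cons_val]
  refine ⟨by simp, ⟨by linear_combination e5, by linear_combination e6, by linear_combination e7⟩, ?_⟩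
  rintro ⟨rfl, rfl, rfl, rfl⟩
  obtain rfl : g = 0 := by linear_combination e5
  obtain rfl : h = 0 := by linear_combination e6
  obtain rfl : i = 0 := by linear_combination e7
  refine ⟨⟨by linear_combination e8, by linear_combination e9⟩, ?_⟩
  rintro ⟨rfl, rfl, rfl⟩
  obtain rfl : j = 0 := by linear_combination e8
  linear_combination e10

theorem UT.sq (h2 : (2 : k) = 0) {x : M5 k} (hx : UT x) :
    ((x * x) 0 1 = 0 ∧ (x * x) 1 2 = 0 ∧ (x * x) 2 3 = 0 ∧ (x * x) 3 4 = 0) ∧ ((x * x) 0 2 = x 0 1 * x 1 2 ∧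
      (x * x) 1 3 = x 1 2 * x 2 3 ∧ (x * x) 2 4 = x 2 3 * x 3 4) ∧
      (x 0 1 = 0 ∧ x 1 2 = 0 ∧ x 2 3 = 0 ∧ x 3 4 = 0 → (x * x) 0 3 = 0 ∧ (x * x) 0 4 = x 0 2 * x 2 4) := by
  obtain ⟨_, _, _, _, _, _, _, _, _, _, rfl⟩ := hx
  rw [ut_mul]
  simp only [ut, of_apply, cons_val', cons_val_zero, cons_val_one, cons_val]
  grind

theorem cl2 (h2 : (2 : k) = 0) (hU : ∀ x ∈ S, UT x.val) (nt : ∀ x ∈ S, R1 (x.val - 1) → x = 1) {x y z : G5 k}
    (hx : x ∈ S) (hy : y ∈ S) (hz : z ∈ S) : ⁅⁅x, y⁆, z⁆ = 1 := by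
  have cm : ∀ {x y}, x ∈ S → y ∈ S → ⁅x, y⁆ ∈ S := fun a b => mul_mem (mul_mem (mul_mem a b) (inv_mem a)) (inv_mem b)
  have C := fun {x y : G5 k} (a : x ∈ S) (b : y ∈ S) => (hU _ (cm a b)).comm (hU _ a) (hU _ b) (by
    rw [← Units.val_mul, ← Units.val_mul, ← Units.val_mul]; congr 1; group)
  have Q : ∀ x ∈ S, x.val 0 1 = 0 ∧ x.val 1 2 = 0 ∧ x.val 2 3 = 0 ∧ x.val 3 4 = 0 → x.val 0 2 * x.val 2 4 = 0 :=
    fun x hx h => by
    obtain ⟨a1, a2, a3⟩ := (hU x hx).sq h2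
    have := nt _ (mul_mem hx hx) ((hU _ (mul_mem hx hx)).r1 a1 (by simpa [h.1, h.2.1, h.2.2.1] using a2)
      (by rw [Units.val_mul, (a3 h).1, zero_mul]))
    rw [← (a3 h).2, ← Units.val_mul, this]; rfl
  obtain ⟨a1, a2, -⟩ := C hx hy
  obtain ⟨b1, b2, b3⟩ := C (cm hx hy) hz
  simp only [a1, zero_mul, mul_zero, sub_zero, and_self, forall_const] at b2 b3
  by_contra n
  have n' := mt ((hU _ (cm (cm hx hy) hz)).r1 b1 b2) (mt (nt _ (cm (cm hx hy) hz)) n)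
  have hw := cm (cm hx hy) hz
  generalize ⁅⁅x, y⁆, z⁆ = w at *
  have L : ∀ u ∈ S, w.val 0 3 * u.val 3 4 = u.val 0 1 * w.val 1 4 := fun u hu => by
    obtain ⟨c1, c2, c3⟩ := C hw hu
    simp only [b1, b2, zero_mul, mul_zero, sub_zero, and_self, forall_const] at c2 c3
    have := nt _ (cm hw hu) ((hU _ (cm hw hu)).r1 c1 c2 (by rw [c3.1.1, zero_mul]))
    rw [← sub_eq_zero, ← c3.2, this]; rfl
  have P : ∀ u ∈ S, u.val 0 1 * u.val 1 2 * u.val 2 3 = 0 := fun u hu => by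
    obtain ⟨c1, c2, -⟩ := (hU u hu).sq h2
    have := Q _ (mul_mem hu hu) c1
    have := L u hu
    rw [Units.val_mul, c2.1, c2.2.2] at *
    grind
  have ex : ∀ f g : G5 k → k, (∀ u ∈ S, ∀ v ∈ S, f (u * v) = f u + f v) → (∀ u ∈ S, ∀ v ∈ S, g (u * v) = g u + g v) →
      (∃ u ∈ S, f u ≠ 0) → (∃ u ∈ S, g u ≠ 0) → ∃ u ∈ S, f u ≠ 0 ∧ g u ≠ 0 := fun f g hf hg ⟨u, hu, a⟩ ⟨v, hv, b⟩ => by
    by_cases c : g u = 0
    · by_cases d : f v = 0
      · exact ⟨_, mul_mem hu hv, by simpa [hf u hu v hv, d], by simpa [hg u hu v hv, c]⟩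
      · exact ⟨v, hv, d, b⟩
    · exact ⟨u, hu, a, c⟩
  have fin : (∀ u ∈ S, u.val 0 1 = 0) ∨ (∀ u ∈ S, u.val 1 2 = 0) ∨ ∀ u ∈ S, u.val 2 3 = 0 := by
    by_contra c
    push Not at c
    obtain ⟨u, hu, c1, c2⟩ := ex _ _ (fun u a v b => ((hU u a).add (hU v b)).1)
      (fun u a v b => ((hU u a).add (hU v b)).2.1) c.1 c.2.1
    obtain ⟨v, hv, c3, c4⟩ := ex _ _ (fun u a v b => ((hU u a).add (hU v b)).1)
      (fun u a v b => ((hU u a).add (hU v b)).2.2) c.1 c.2.2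
    obtain ⟨d1, d2, -⟩ := C hu hv
    have := Q _ (cm hu hv) d1
    have := P u hu
    have := P v hv
    have := L u hu
    have := L v hv
    grind
  have := L x hx
  have := L y hy
  rcases fin with h | h | h <;> have := h x hx <;> have := h y hy <;> have := h z hz <;> grind

theorem cl2' [Finite k] [CharP k 2] (hS : IsPGroup 2 S) (nt : ∀ x ∈ S, R1 (x.val - 1) → x = 1) {x y z : G5 k}
    (hx : x ∈ S) (hy : y ∈ S) (hz : z ∈ S) : ⁅⁅x, y⁆, z⁆ = 1 := by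
  obtain ⟨B, hB⟩ := exists_tri hS
  let f := (MulAut.conj B⁻¹).toMonoidHom
  have := cl2 (S := S.map f) (CharP.cast_eq_zero k 2) (by rintro _ ⟨x, hx, rfl⟩; simpa [f] using hB x hx)
    (by
      rintro _ ⟨x, hx, rfl⟩ h
      rw [nt x hx (by simpa [f, mul_assoc] using h.conj B), map_one])
    ⟨x, hx, rfl⟩ ⟨y, hy, rfl⟩ ⟨z, hz, rfl⟩
  rwa [← map_commutatorElement, ← map_commutatorElement, map_eq_one_iff f (MulAut.conj B⁻¹).injective] at this

theorem PR.cl [Finite k] [CharP k 2] {G : Type*} [Group G] [Finite G] (D : PR G k) (S : Sylow 2 G) {x y z : G}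
    (hx : x ∈ S) (hy : y ∈ S) (hz : z ∈ S) : ⁅⁅x, y⁆, z⁆ = 1 := by
  let π : D.P →* G := MonoidHom.mk' (fun x => x.2.choose) fun x y =>
    uniq (x * y).2.choose_spec (D.mul x.2.choose_spec y.2.choose_spec)
  have h1 : ∀ x : D.P, D.R x.1 (π x) := fun x => x.2.choose_spec
  have h2 : Function.Surjective π := fun g => let ⟨x, hx⟩ := D.ex g; ⟨⟨x, g, hx⟩, uniq (h1 _) hx⟩
  obtain ⟨T, rfl⟩ := Sylow.mapSurjective_surjective h2 2 S
  obtain ⟨x, a, rfl⟩ := hx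
  obtain ⟨y, b, rfl⟩ := hy
  obtain ⟨z, c, rfl⟩ := hz
  have := cl2' (T.isPGroup'.map D.P.subtype) (by rintro _ ⟨x, -, rfl⟩; exact D.nt (h1 x)) ⟨x, a, rfl⟩ ⟨y, b, rfl⟩ ⟨z, c, rfl⟩
  rw [← map_commutatorElement, ← map_commutatorElement, map_eq_one_iff _ D.P.subtype_injective] at this
  rw [← map_commutatorElement, ← map_commutatorElement, this, map_one]

end H21.D5
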