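/-
Five-dimensional matrix groups in characteristic two, part 5: linear, unitary and symplectic groups.
-/
import Cfsg.Agent.H21.D5d
import Cfsg.Agent.H11.O6Minus

set_option autoImplicit false
set_option linter.unusedSectionVars false

namespace H21.D5
open Matrix Cfsg.Geo H27.Asch Module H12.D5
open scoped MatrixGroups

variable {k K : Type*} [Field k] [Field K] {G : Type*} [Group G]

/-- a central quotient of a group of units of a monoid -/
structure MR (G M : Type*) [Group G] [Monoid M] where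
  R : M → G → Prop
  one : R 1 1
  mul : ∀ {A B g h}, R A g → R B h → R (A * B) (g * h)
  inv : ∀ {A B g}, R A g → B * A = 1 → R B g⁻¹
  eq : ∀ {A B g h} (z), R A g → R B h → (∀ m, z * m = m * z) → A = z * B → g = h
  cen : ∀ {A B h}, R A 1 → R B h → A * B = B * A

def MR.of {S M : Type*} [Group S] [Monoid M] (ι : S →* M) (hι : Function.Injective ι)
    (e : G ≃* S ⧸ Subgroup.center S) : MR G M where
  R A g := ∃ s, ι s = A ∧ e g = s
  one := ⟨1, map_one _, map_one _⟩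
  mul := by rintro _ _ g h ⟨s, rfl, a⟩ ⟨t, rfl, b⟩; exact ⟨s * t, map_mul _ _ _, by rw [map_mul, a, b]; rfl⟩
  inv := by
    rintro _ B g ⟨s, rfl, a⟩ b
    exact ⟨s⁻¹, by rw [← one_mul (ι _), ← b, mul_assoc, ← map_mul, mul_inv_cancel, map_one, mul_one],
      by rw [map_inv, a]; rfl⟩
  eq := by
    rintro _ _ g h z ⟨s, rfl, a⟩ ⟨t, rfl, b⟩ c d
    have : ι (t⁻¹ * s) = z := by rw [map_mul, d, c, ← mul_assoc, ← map_mul, inv_mul_cancel, map_one, one_mul]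
    refine e.injective (a.trans (b.trans (QuotientGroup.eq.2 (Subgroup.mem_center_iff.2 fun u => hι ?_))).symm)
    rw [map_mul, map_mul ι _ u, this, c]
  cen := by
    rintro _ _ h ⟨s, rfl, a⟩ ⟨t, rfl, -⟩
    rw [map_one, eq_comm, QuotientGroup.eq_one_iff] at a
    rw [← map_mul, ← map_mul, Subgroup.mem_center_iff.1 a]

namespace MR
variable {M : Type*} [Monoid M] {E : MR G M} {A B : M} {g h : G}

theorem eq' (a : E.R A g) (b : E.R B h) (e : A = B) : g = h := E.eq 1 a b (by simp) (by simpa)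

theorem pow (a : E.R A g) (n : ℕ) : E.R (A ^ n) (g ^ n) := by
  induction n with
  | zero => simpa using E.one
  | succ n ih => rw [pow_succ, pow_succ]; exact E.mul ih a

theorem ne (a : E.R A g) (b : E.R B h) (e : A * B ≠ B * A) : g ≠ 1 := by rintro rfl; exact e (E.cen a b)

theorem eq_sm {n : Type} [Fintype n] [DecidableEq n] {E : MR G (Matrix n n K)} {A B : Matrix n n K} (a : E.R A g)
    (b : E.R B h) (c : K) (e : A = c • B) : g = h := E.eq (c • 1) a b (by simp) (by simpa)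

end MR

theorem conj_of {s a b : G} (h : s * a = b * s) : s * a * s⁻¹ = b := mul_inv_eq_iff_eq_mul.2 h

theorem conj_of' {s a b : G} (h : b * (s * a) = s) : s * a * s⁻¹ = b⁻¹ :=
  conj_of (eq_inv_mul_iff_mul_eq.2 h)

abbrev M3 (K : Type*) := Matrix (Fin 3) (Fin 3) K

def dg (a b c : K) : M3 K := !![a, 0, 0; 0, b, 0; 0, 0, c]
def p1 : M3 K := !![0, 1, 0; 1, 0, 0; 0, 0, 1]
def p2 : M3 K := !![1, 0, 0; 0, 0, 1; 0, 1, 0]
def p3 : M3 K := !![0, 0, 1; 0, 1, 0; 1, 0, 0]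
def zm (b : K) : M3 K := !![1 + b, 0, b; 0, 1, 0; b, 0, 1 + b]
def cy : M3 K := !![0, 0, 1; 1, 0, 0; 0, 1, 0]
def φm (ω : K) : M3 K := !![1, 1, 1; 1, ω, ω ^ 2; 1, ω ^ 2, ω]
def ψm (ω : K) : M3 K := !![1, 1, ω ^ 2; 1, ω, ω; ω, 1, ω]

theorem m3_eq {a b c d e f g h i a' b' c' d' e' f' g' h' i' : K} : !![a, b, c; d, e, f; g, h, i] =
    !![a', b', c'; d', e', f'; g', h', i'] ↔ a = a' ∧ b = b' ∧ c = c' ∧ d = d' ∧ e = e' ∧ f = f' ∧ g = g' ∧ h = h' ∧
      i = i' := by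
  refine ⟨fun H => ?_, by rintro ⟨rfl, rfl, rfl, rfl, rfl, rfl, rfl, rfl, rfl⟩; rfl⟩
  have e := fun i j => congrFun (congrFun H i) j
  exact ⟨e 0 0, e 0 1, e 0 2, e 1 0, e 1 1, e 1 2, e 2 0, e 2 1, e 2 2⟩

theorem m3_sm (z a b c d e f g h i : K) : z • !![a, b, c; d, e, f; g, h, i] =
    !![z * a, z * b, z * c; z * d, z * e, z * f; z * g, z * h, z * i] := by simp

theorem m3_tr (a b c d e f g h i : K) : !![a, b, c; d, e, f; g, h, i]ᵀ = !![a, d, g; b, e, h; c, f, i] := by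
  ext i j; fin_cases i <;> fin_cases j <;> rfl

theorem m3_map (β : K → K) (a b c d e f g h i : K) : !![a, b, c; d, e, f; g, h, i].map β =
    !![β a, β b, β c; β d, β e, β f; β g, β h, β i] := by
  ext i j; fin_cases i <;> fin_cases j <;> rfl

theorem dg_pow (a b c : K) (n : ℕ) : dg a b c ^ n = dg (a ^ n) (b ^ n) (c ^ n) := by
  induction n with
  | zero => simp [dg, one_fin_three]
  | succ n ih => rw [pow_succ, ih]; simp [dg, pow_succ]

namespace PR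
variable [IsAlgClosed k] (D : PR G k) (h2 : (2 : k) = 0) (E : MR G (M3 K)) (k2 : (2 : K) = 0)
include D h2 E k2

theorem ma3 {l : ℕ} (hl : (l : k) ≠ 0) (h3 : l.Coprime 3) {c d b : K} (cd : c * d = 1) (cl : c ^ l = 1) (c1 : c ≠ 1)
    (hb : b * (c + d) ^ 2 = 1) {a a' s t z : G} (a0 : E.R (dg c d 1) a) (a1 : E.R (dg 1 c d) a') (s0 : E.R p1 s)
    (t0 : E.R p2 t) (z0 : E.R (zm b) z) : False := by
  have dl : d ^ l = 1 := by simpa [mul_pow, cl] using congrArg (· ^ l) cd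
  have b1 : b ≠ 1 := fun e => c1 ((pow_eq_one_iff_of_coprime h3).1 ⟨cl, by
    have : (c ^ 3 - 1) ^ 2 = 0 := by grind
    exact sub_eq_zero.1 (pow_eq_zero_iff two_ne_zero |>.1 this)⟩)
  have g0 : E.R p3 (s * t * s) := by
    convert E.mul (E.mul s0 t0) s0 using 1; simp [p1, p2, p3]
  have m0 : E.R (dg c (d * d) c) (a * a'⁻¹) := by
    convert E.mul a0 (E.inv (B := dg 1 d c) a1 (by simp [dg, one_fin_three, cd, mul_comm d])) using 1; simp [dg]
  have h0 : E.R (dg c 1 d) (a * a') := by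
    convert E.mul a0 a1 using 1; simp [dg, cd, mul_comm d]
  have y0 := E.mul g0 (E.mul (E.mul h0 z0) (E.inv (B := dg d 1 c) h0 (by simp [dg, one_fin_three, cd, mul_comm d])))
  rw [show p3 * (dg c 1 d * zm b * dg d 1 c) = !![b * d ^ 2, 0, 1 + b; 0, 1, 0; 1 + b, 0, b * c ^ 2] by
    simp only [p3, dg, zm, mul_fin_three, m3_eq]; grind] at y0
  refine D.ma h2 hl h3 (MR.eq' (E.mul a0 a1) (E.mul a1 a0) ?_) (MR.eq' (MR.pow a0 l) E.one ?_) (MR.ne a0 t0 ?_)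
    (MR.eq' (E.mul s0 s0) E.one ?_) (conj_of' (MR.eq' (E.mul a0 (E.mul s0 a0)) s0 ?_))
    (conj_of (MR.eq' (E.mul s0 a1) (E.mul h0 s0) ?_)) (MR.eq' (E.mul t0 t0) E.one ?_)
    (conj_of (MR.eq' (E.mul t0 a0) (E.mul h0 t0) ?_)) (conj_of' (MR.eq' (E.mul a1 (E.mul t0 a1)) t0 ?_))
    (MR.eq' (E.mul g0 g0) E.one ?_) (MR.eq' (E.mul z0 z0) E.one ?_) (MR.eq' (E.mul g0 z0) (E.mul z0 g0) ?_)
    (MR.ne (E.mul g0 z0) s0 ?_) (MR.eq' (E.mul g0 m0) (E.mul m0 g0) ?_) (MR.eq' (E.mul z0 m0) (E.mul m0 z0) ?_)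
    (MR.eq' (MR.pow y0 3) E.one ?_)
  all_goals try rw [dg_pow, cl, dl, one_pow]
  all_goals simp only [p1, p2, p3, dg, zm, pow_three, mul_fin_three, one_fin_three, m3_eq, ne_eq]
  all_goals grind

theorem q83 {ω : K} (hω : ω ^ 2 + ω + 1 = 0) {a b s t : G} (a0 : E.R (dg 1 ω (ω ^ 2)) a) (b0 : E.R cy b)
    (s0 : E.R (φm ω) s) (t0 : E.R (ψm ω) t) : False := by
  refine D.q8 h2 (MR.eq' (MR.pow a0 3) E.one ?_) (MR.eq_sm (E.mul a0 b0) (E.mul b0 a0) ω ?_) (MR.ne a0 b0 ?_)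
    (conj_of' (MR.eq' (E.mul b0 (E.mul s0 a0)) s0 ?_)) (conj_of (MR.eq' (E.mul s0 b0) (E.mul a0 s0) ?_))
    (conj_of' (MR.eq_sm (E.mul (E.mul a0 b0) (E.mul t0 a0)) t0 ω ?_))
    (conj_of ((eq_inv_mul_iff_mul_eq.2 (MR.eq_sm (E.mul a0 (E.mul t0 b0)) (E.mul b0 t0) (ω ^ 2) ?_)).trans
      (mul_assoc _ _ _).symm))
  all_goals simp only [dg, cy, φm, ψm, pow_three, mul_fin_three, one_fin_three, m3_sm, m3_eq, ne_eq]
  all_goals grind

/-- linear and unitary groups of degree three -/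
theorem lu3 {l : ℕ} (hl : l.Prime) (l2 : l ≠ 2) {c : K} (cl : c ^ l = 1) (c1 : c ≠ 1) (U : M3 K → Prop)
    (hU : ∀ A, A.det = 1 → U A → ∃ g, E.R A g)
    (hU' : (∀ A, U A) ∨ ∃ β : K →+* K, β c = c⁻¹ ∧ ∀ A, Aᵀ * A.map β = 1 → U A) : False := by
  have c0 : c ≠ 0 := by rintro rfl; simp [hl.ne_zero] at cl
  have cd := mul_inv_cancel₀ c0
  by_cases l3 : l = 3
  · subst l3
    have hω : c ^ 2 + c + 1 = 0 := by grind
    have : U (dg 1 c (c ^ 2)) ∧ U cy ∧ U (φm c) ∧ U (ψm c) := by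
      rcases hU' with h | ⟨β, b, h⟩
      · simp [h]
      rw [show c⁻¹ = c ^ 2 by grind] at b
      refine ⟨h _ ?_, h _ ?_, h _ ?_, h _ ?_⟩
      all_goals simp only [dg, cy, φm, ψm, m3_tr, m3_map, mul_fin_three, one_fin_three, m3_eq, map_pow, map_one,
        map_zero, b]
      all_goals grind
    obtain ⟨a, a0⟩ := hU _ (by simp only [dg, det_fin_three]; simp; grind) this.1
    obtain ⟨b, b0⟩ := hU _ (by simp [cy, det_fin_three]) this.2.1
    obtain ⟨s, s0⟩ := hU _ (by simp only [φm, det_fin_three]; simp; grind) this.2.2.1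
    obtain ⟨t, t0⟩ := hU _ (by simp only [ψm, det_fin_three]; simp; grind) this.2.2.2
    exact D.q83 h2 E k2 hω a0 b0 s0 t0
  have n0 : c + c⁻¹ ≠ 0 := fun e => c1 (sq_one k2 (by grind))
  have hb : ((c + c⁻¹) ^ 2)⁻¹ * (c + c⁻¹) ^ 2 = 1 := inv_mul_cancel₀ (pow_ne_zero _ n0)
  have : U (dg c c⁻¹ 1) ∧ U (dg 1 c c⁻¹) ∧ U p1 ∧ U p2 ∧ U (zm ((c + c⁻¹) ^ 2)⁻¹) := by
    rcases hU' with h | ⟨β, b, h⟩
    · simp [h]
    have e : β ((c + c⁻¹) ^ 2)⁻¹ = ((c + c⁻¹) ^ 2)⁻¹ := by simp [b, add_comm]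
    generalize ((c + c⁻¹) ^ 2)⁻¹ = x at e
    refine ⟨h _ ?_, h _ ?_, h _ ?_, h _ ?_, h _ ?_⟩
    all_goals simp only [dg, p1, p2, zm, m3_tr, m3_map, mul_fin_three, one_fin_three, m3_eq, map_inv₀, map_one,
      map_zero, map_add, b, e]
    all_goals grind
  obtain ⟨a, a0⟩ := hU _ (by simp [dg, det_fin_three, cd]) this.1
  obtain ⟨b, b0⟩ := hU _ (by simp [dg, det_fin_three, cd]) this.2.1
  obtain ⟨s, s0⟩ := hU _ (by simp only [p1, det_fin_three]; simp; grind) this.2.2.1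
  obtain ⟨t, t0⟩ := hU _ (by simp only [p2, det_fin_three]; simp; grind) this.2.2.2.1
  obtain ⟨z, z0⟩ := hU _ (by simp only [zm, det_fin_three]; simp; grind) this.2.2.2.2
  refine D.ma3 h2 E k2 (fun e => l2 ?_) ((Nat.coprime_primes hl Nat.prime_three).2 l3) cd cl c1 hb a0 b0 s0 t0 z0
  have := (CharP.charP_iff_prime_eq_zero Nat.prime_two).2 h2
  exact ((Nat.prime_dvd_prime_iff_eq Nat.prime_two hl).1 ((CharP.cast_eq_zero_iff k 2 l).1 e)).symm

omit E k2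

theorem exists_root [Fintype K] {n : ℕ} (hn : n ∣ Fintype.card K - 1) (h1 : n ≠ 1) (ho : Odd n) :
    ∃ l : ℕ, l.Prime ∧ l ≠ 2 ∧ ∃ c : K, c ^ l = 1 ∧ c ≠ 1 ∧ c ^ n = 1 := by
  classical
  obtain ⟨l, hl, d⟩ := Nat.exists_prime_and_dvd h1
  have := Fact.mk hl
  obtain ⟨c, hc⟩ := exists_prime_orderOf_dvd_card (G := Kˣ) l (by rw [Fintype.card_units]; exact d.trans hn)
  refine ⟨l, hl, by rintro rfl; exact ho.not_two_dvd_nat d, c, ?_, fun e => hl.ne_one ?_, ?_⟩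
  · rw [← Units.val_pow_eq_pow_val, ← hc, pow_orderOf_eq_one, Units.val_one]
  · rw [← hc, Units.val_eq_one.1 e, orderOf_one]
  · rw [← Units.val_pow_eq_pow_val, orderOf_dvd_iff_pow_eq_one.1 (hc ▸ d), Units.val_one]

theorem l3 [Fintype K] [CharP K 2] (h : Fintype.card K ≠ 2) (e : G ≃* PSL(3, K)) : False := by
  have := Fintype.one_lt_card (α := K)
  have := FiniteField.even_card_of_char_two (ringChar.eq K 2)
  obtain ⟨l, hl, l2, c, c0, c1, -⟩ := D.exists_root h2 (K := K) dvd_rfl (by omega) (Nat.odd_iff.2 (by omega))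
  exact D.lu3 h2 (.of Matrix.SpecialLinearGroup.coeMonoidHom Subtype.val_injective e) (CharP.cast_eq_zero K 2) hl l2
    c0 c1 (fun _ => True) (fun A hA _ => ⟨e.symm (QuotientGroup.mk ⟨A, hA⟩), _, rfl,
      e.apply_symm_apply _⟩) (.inl fun _ => trivial)

theorem u3 [Fintype K] {q : ℕ} (h : Fintype.card K = q ^ 2) (he : Even q) (e : G ≃* Cfsg.PSU 3 K q) : False := by
  have := H11.two_le_of_card_sq h
  have k2 : ringChar K = 2 := FiniteField.even_card_iff_char_two.2 (by rw [h]; exact Nat.even_iff.1 (he.pow_of_ne_zero two_ne_zero))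
  obtain ⟨l, hl, l2, c, c0, c1, c2⟩ := D.exists_root h2 (K := K) (n := q + 1)
    (by rw [h, ← one_pow 2, Nat.sq_sub_sq]; exact dvd_mul_right _ _) (by omega) he.add_one
  refine D.lu3 h2 (.of (Matrix.SpecialLinearGroup.coeMonoidHom.comp (Cfsg.SU 3 K q).subtype)
    (Subtype.val_injective.comp Subtype.val_injective) e) (by exact_mod_cast k2 ▸ ringChar.Nat.cast_ringChar) hl l2
    c0 c1 (fun A => Aᵀ * A.map (H11.frob h) = 1) (fun A hA a => ⟨e.symm (⟨_, H11.mem_SU_of_matrix h hA a⟩ : Cfsg.SU 3 K q),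
      _, rfl, e.apply_symm_apply _⟩) (.inr ⟨_, eq_inv_of_mul_eq_one_left ((pow_succ _ _).symm.trans c2), fun _ => id⟩)

theorem s4 [CharP K 2] (e : G ≃* Cfsg.PSp 2 K) : False := by
  let E := MR.of (symplecticGroup (Fin 2) K).subtype Subtype.val_injective e
  let σ : ZMod 2 →+* K := ZMod.castHom dvd_rfl K
  let R : Matrix (Fin 2 ⊕ Fin 2) (Fin 2 ⊕ Fin 2) (ZMod 2) → G → Prop := fun A g => E.R (σ.mapMatrix A) g
  have ex : ∀ A, A * J (Fin 2) (ZMod 2) * Aᵀ = J (Fin 2) (ZMod 2) → ∃ g, R A g := fun A h =>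
    ⟨e.symm (⟨_, SymplecticGroup.map_mem (SymplecticGroup.mem_iff.2 h) σ⟩ : symplecticGroup (Fin 2) K), _, rfl,
      e.apply_symm_apply _⟩
  have mul : ∀ {A B g h}, R A g → R B h → R (A * B) (g * h) := fun a b => by
    simp only [R, map_mul]; exact E.mul a b
  have one : R 1 1 := by simp only [R, map_one]; exact E.one
  have eq : ∀ {A B g h}, R A g → R B h → A = B → g = h := fun a b e => MR.eq' a b (congrArg _ e)
  have ne : ∀ {A B g h}, R A g → R B h → A * B ≠ B * A → g ≠ 1 := fun a b e => MR.ne a b fun c =>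
    e (Matrix.map_injective σ.injective (by rwa [← map_mul, ← map_mul] at c))
  obtain ⟨g, g0⟩ := ex (fromBlocks !![0, 0; 0, 1] !![1, 0; 0, 0] !![1, 0; 0, 0] !![1, 0; 0, 1]) (by decide)
  obtain ⟨h, h0⟩ := ex (fromBlocks !![1, 0; 0, 0] !![0, 0; 0, 1] !![0, 0; 0, 1] !![1, 0; 0, 1]) (by decide)
  obtain ⟨t, t0⟩ := ex (fromBlocks !![0, 0; 0, 1] !![1, 0; 0, 0] !![1, 0; 0, 0] !![0, 0; 0, 1]) (by decide)
  obtain ⟨s, s0⟩ := ex (fromBlocks !![0, 1; 1, 0] 0 0 !![0, 1; 1, 0]) (by decide)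
  exact D.sp4 h2 ((pow_three g).trans (eq (mul g0 (mul g0 g0)) one (by decide))) (eq (mul g0 h0) (mul h0 g0) (by decide))
    (eq (mul t0 t0) one (by decide)) (conj_of' (eq (mul g0 (mul t0 g0)) t0 (by decide)))
    (eq (mul t0 h0) (mul h0 t0) (by decide)) (eq (mul s0 s0) one (by decide))
    (conj_of (eq (mul s0 g0) (mul h0 s0) (by decide))) (ne (mul g0 h0) t0 (by decide)) (ne g0 t0 (by decide))
    (ne s0 t0 (by decide))

end PR

end H21.D5
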