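import Cfsg.Agent.H21.F23L

/-!
Rational representations of degree 23: Schur's lemma and the second moment formula.
-/

set_option autoImplicit false
set_option linter.unusedSectionVars false

namespace H21.F23
open Module Submodule LinearMap Polynomial

variable {V : Type*} [AddCommGroup V] [Module ℚ V] [FiniteDimensional ℚ V]

theorem dv0 (X : End ℚ V) {p : ℚ[X]} (hp : Irreducible p) (h : aeval X p = 0) :
    p.natDegree ∣ finrank ℚ V := by
  have : Fact (Irreducible p) := ⟨hp⟩
  let φ : AdjoinRoot p →ₐ[ℚ] End ℚ V := Ideal.Quotient.liftₐ (Ideal.span {p}) (aeval X) (by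
    intro a ha
    obtain ⟨b, rfl⟩ := Ideal.mem_span_singleton'.1 ha
    rw [map_mul, h, mul_zero])
  let _ : Module (AdjoinRoot p) V := Module.compHom V φ.toRingHom
  have : IsScalarTower ℚ (AdjoinRoot p) V := ⟨fun c k v => by
    change φ (c • k) v = c • φ k v
    rw [map_smul]; rfl⟩
  have h1 : finrank ℚ (AdjoinRoot p) = p.natDegree := finrank_quotient_span_eq_natDegree
  rw [← Module.finrank_mul_finrank ℚ (AdjoinRoot p) V, h1]
  exact Dvd.intro _ rfl

theorem aeval_restrict (X : End ℚ V) {W : Submodule ℚ V} (hW : ∀ w ∈ W, X w ∈ W) (p : ℚ[X])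
    (w : W) : (aeval (X.restrict hW) p w : V) = aeval X p w := by
  induction p using Polynomial.induction_on' with
  | add p q hp hq => simp [hp, hq]
  | monomial k a =>
    simp only [aeval_monomial, End.mul_apply, Module.algebraMap_end_apply, Submodule.coe_smul]
    rw [Module.End.pow_restrict]
    rfl

theorem dv (X : End ℚ V) {p : ℚ[X]} (hp : Irreducible p) {W : Submodule ℚ V}
    (hW : ∀ w ∈ W, X w ∈ W) (h : ∀ w ∈ W, aeval X p w = 0) : p.natDegree ∣ finrank ℚ W :=
  dv0 (X.restrict hW) hp (by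
    ext w
    rw [aeval_restrict, h _ w.2]
    rfl)

theorem dv_cyc (Y : End ℚ V) {p k : ℕ} (hp : p.Prime) (hY : Y ^ p ^ (k + 1) = 1)
    {W : Submodule ℚ V} (hW : ∀ w ∈ W, Y w ∈ W) :
    p ^ k * (p - 1) ∣ finrank ℚ (W.map (Y ^ p ^ k - 1)) := by
  have : Fact p.Prime := ⟨hp⟩
  have := dv Y (cyclotomic.irreducible_rat (n := p ^ (k + 1)) (pow_pos hp.pos _))
    (W := W.map (Y ^ p ^ k - 1)) (by
      rintro _ ⟨w, hw, rfl⟩
      refine ⟨Y w, hW w hw, ?_⟩
      simp only [LinearMap.sub_apply, End.one_apply, map_sub]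
      rw [← End.mul_apply (Y ^ _), ← End.mul_apply _ (Y ^ _), ← pow_succ, ← pow_succ']) (by
      rintro _ ⟨w, -, rfl⟩
      have := congrArg (aeval Y) (cyclotomic_prime_pow_mul_X_pow_sub_one ℚ p k)
      simp only [map_mul, map_sub, map_pow, aeval_X, map_one, hY, sub_self] at this
      rw [← End.mul_apply, this]
      rfl)
  rwa [natDegree_cyclotomic, Nat.totient_prime_pow_succ hp] at this

theorem skew_sing (ω : LinearMap.BilinForm ℚ V) (h : ∀ u v, ω u v = -ω v u)
    (hn : Odd (finrank ℚ V)) : ∃ v, v ≠ 0 ∧ ∀ u, ω u v = 0 := by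
  let b := Module.finBasis ℚ V
  have h1 : (LinearMap.BilinForm.toMatrix b ω).det = 0 := by
    have : (LinearMap.BilinForm.toMatrix b ω).transpose = -LinearMap.BilinForm.toMatrix b ω := by
      ext i j
      simp [h (b j) (b i)]
    have h2 := congrArg Matrix.det this
    rw [Matrix.det_transpose, Matrix.det_neg, Fintype.card_fin, hn.neg_one_pow] at h2
    linarith
  by_contra hc
  push Not at hc
  refine (LinearMap.BilinForm.nondegenerate_iff_det_ne_zero b).1 ⟨fun v hv => ?_, fun v hv => ?_⟩ h1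
  · by_contra h0
    obtain ⟨u, hu⟩ := hc v h0
    rw [h, hv, neg_zero] at hu
    exact hu rfl
  · by_contra h0
    obtain ⟨u, hu⟩ := hc v h0
    exact hu (hv u)

variable {G : Type*} [Group G] {σ : G →* End ℚ V} {B : LinearMap.BilinForm ℚ V}

/-- irreducible -/
def Irr (σ : G →* End ℚ V) : Prop :=
  ∀ W : Submodule ℚ V, (∀ g, ∀ w ∈ W, σ g w ∈ W) → W = ⊥ ∨ W = ⊤

/-- invariant form -/
def Inv (σ : G →* End ℚ V) (B : LinearMap.BilinForm ℚ V) : Prop :=
  ∀ g u v, B (σ g u) (σ g v) = B u v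

theorem s_mul (σ : G →* End ℚ V) (g h : G) (v : V) : σ g (σ h v) = σ (g * h) v := by
  rw [map_mul]; rfl

theorem s_inv (σ : G →* End ℚ V) (g : G) (v : V) : σ g⁻¹ (σ g v) = v := by
  rw [s_mul, inv_mul_cancel, map_one]; rfl

theorem s_inv' (σ : G →* End ℚ V) (g : G) (v : V) : σ g (σ g⁻¹ v) = v := by
  rw [s_mul, mul_inv_cancel, map_one]; rfl

theorem Inv.adj (h : Inv σ B) (g : G) (u v : V) : B (σ g u) v = B u (σ g⁻¹ v) := by
  rw [← h g u, s_inv']

theorem Inv.adj' (h : Inv σ B) (g : G) (u v : V) : B u (σ g v) = B (σ g⁻¹ u) v := by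
  rw [← h g _ v, s_inv']

theorem Inv.smul (h : Inv σ B) (c : ℚ) : Inv σ (c • B) := fun g u v => by simp [h g u v]

theorem Irr.comm_zero (h : Irr σ) {S : End ℚ V} (hS : ∀ g, σ g * S = S * σ g) {v : V} (hv : v ≠ 0)
    (h0 : S v = 0) : S = 0 := by
  rcases h (ker S) (fun g w hw => by
    rw [mem_ker] at hw ⊢
    rw [← End.mul_apply, ← hS, End.mul_apply, hw, map_zero]) with h1 | h1
  · exact (hv ((eq_bot_iff.1 h1) h0)).elim
  · exact ker_eq_top.1 h1

theorem Irr.mul_zero (h : Irr σ) {S T : End ℚ V} (hS : ∀ g, σ g * S = S * σ g)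
    (h0 : S * T = 0) : S = 0 ∨ T = 0 := by
  by_cases hT : T = 0
  · exact .inr hT
  · obtain ⟨v, hv⟩ := DFunLike.ne_iff.1 hT
    exact .inl (h.comm_zero hS hv (by rw [← End.mul_apply, h0]; rfl))

theorem Irr.no_line (h : Irr σ) (hn : 1 < finrank ℚ V) {v : V} (hv : v ≠ 0)
    (hl : ∀ g, σ g v ∈ span ℚ {v}) : False := by
  rcases h (span ℚ {v}) (fun g w hw => by
    obtain ⟨c, rfl⟩ := mem_span_singleton.1 hw
    rw [map_smul]; exact smul_mem _ _ (hl g)) with h1 | h1
  · exact hv (span_singleton_eq_bot.1 h1)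
  · have := finrank_span_singleton (K := ℚ) hv
    rw [h1, finrank_top] at this
    omega

theorem comm_aeval {T : End ℚ V} (hT : ∀ g, σ g * T = T * σ g) (f : ℚ[X]) (g : G) :
    σ g * aeval T f = aeval T f * σ g := by
  induction f using Polynomial.induction_on' with
  | add p q hp hq => simp [mul_add, add_mul, hp, hq]
  | monomial k a =>
    rw [aeval_monomial, ← mul_assoc, ← Algebra.commutes, mul_assoc, mul_assoc,
      (Commute.pow_right (hT g) k).eq]

theorem schur (hB : PDF B) (hI : Inv σ B) (hirr : Irr σ) (hn : finrank ℚ V = 23) {T : End ℚ V}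
    (hT : ∀ g, σ g * T = T * σ g) : ∃ c : ℚ, T = c • 1 := by
  have : Nontrivial V := Module.nontrivial_of_finrank_pos (R := ℚ) (by omega)
  obtain ⟨v, hv⟩ := exists_ne (0 : V)
  have k : ∀ f : ℚ[X], f ≠ 0 → aeval T f = 0 → ∃ p : ℚ[X], Irreducible p ∧ aeval T p = 0 := by
    intro f
    induction f using WfDvdMonoid.induction_on_irreducible with
    | zero => exact fun h => (h rfl).elim
    | unit u hu => exact fun _ h => ((hu.map (aeval T)).ne_zero h).elim
    | mul a p ha hp ih =>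
      intro _ h
      rw [map_mul] at h
      rcases hirr.mul_zero (comm_aeval hT p) h with h | h
      · exact ⟨p, hp, h⟩
      · exact ih ha h
  obtain ⟨p, hp, h0⟩ := k _ (minpoly.ne_zero_of_finite ℚ T) (minpoly.aeval ℚ T)
  have hd := dv0 T hp h0
  rw [hn] at hd
  rcases (Nat.dvd_prime (by norm_num)).1 hd with h1 | h1
  · obtain ⟨a, b, rfl⟩ := exists_eq_X_add_C_of_natDegree_le_one h1.le
    have ha : a ≠ 0 := by rintro rfl; simp at h1
    refine ⟨-b / a, ?_⟩
    simp only [map_add, map_mul, aeval_C, aeval_X, Algebra.algebraMap_eq_smul_one, smul_mul_assoc,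
      one_mul] at h0
    rw [div_eq_inv_mul, mul_smul, neg_smul, ← eq_neg_of_add_eq_zero_left h0, smul_smul,
      inv_mul_cancel₀ ha, one_smul]
  exfalso
  let ev : ℚ[X] →ₗ[ℚ] V := (LinearMap.applyₗ v) ∘ₗ (aeval T).toLinearMap
  have hev : ∀ f, ev f = aeval T f v := fun f => rfl
  have hZ : range ev = ⊤ := by
    have := dv T hp (W := range ev) (by
      rintro _ ⟨f, rfl⟩
      exact ⟨X * f, by simp [hev]⟩) (fun w _ => by simp [h0])
    rw [h1] at this
    have h2 : finrank ℚ (range ev) ≠ 0 := fun h => hv (by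
      have := Submodule.finrank_eq_zero.1 h
      exact (eq_bot_iff.1 this) ⟨1, by simp [hev]⟩)
    have h3 := (range ev).finrank_le
    exact eq_top_of_finrank_eq (by have := Nat.le_of_dvd (by omega) this; omega)
  have pol : ∀ g, ∃ f, σ g = aeval T f := fun g => by
    obtain ⟨f, hf⟩ : σ g v ∈ range ev := hZ ▸ mem_top
    refine ⟨f, LinearMap.ext fun w => ?_⟩
    obtain ⟨f', rfl⟩ : w ∈ range ev := hZ ▸ mem_top
    rw [hev] at hf
    rw [hev, ← End.mul_apply, comm_aeval hT, End.mul_apply, ← hf, ← End.mul_apply, ← map_mul,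
      mul_comm, map_mul, End.mul_apply]
  have com : ∀ g h, σ h * σ g = σ g * σ h := fun g h => by
    obtain ⟨f, hf⟩ := pol g
    rw [hf, comm_aeval hT]
  refine hirr.no_line (by omega) hv fun g => ?_
  obtain ⟨w, hw, h2⟩ := skew_sing (B.compRight (σ g - σ g⁻¹)) (fun u v => by
    simp only [BilinForm.compRight_apply, LinearMap.sub_apply, map_sub]
    rw [hI.adj' g u, hI.adj' g⁻¹ u, inv_inv, hB.symm v, hB.symm v]
    ring) (by rw [hn]; decide)
  have h3 : σ g - σ g⁻¹ = 0 := hirr.comm_zero (fun h => by rw [mul_sub, sub_mul, com, com g⁻¹]) hw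
    (hB.eq_zero (h2 _))
  have h4 : (σ g - 1) * (σ g + 1) = 0 := by
    have : σ g * σ g = 1 := by
      nth_rewrite 2 [sub_eq_zero.1 h3]
      rw [← map_mul, mul_inv_cancel, map_one]
    rw [mul_add, sub_mul, this, sub_mul]
    simp
  rcases hirr.mul_zero (fun h => by rw [mul_sub, sub_mul, com, mul_one, one_mul]) h4 with h5 | h5
  · rw [sub_eq_zero.1 h5]; exact mem_span_singleton_self v
  · rw [eq_neg_of_add_eq_zero_left h5]; exact neg_mem (mem_span_singleton_self v)

/-- second moment formula -/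
theorem moment2 [Fintype G] (hB : PDF B) (hI : Inv σ B) (hirr : Irr σ) (hn : finrank ℚ V = 23)
    (u w z : V) : ∑ g, B (σ g u) z • σ g w = (Fintype.card G * B u w / 23) • z := by
  obtain ⟨c, hc⟩ := schur hB hI hirr hn (T := ∑ g, (B (σ g u)).smulRight (σ g w)) fun h => by
    ext z
    simp only [End.mul_apply, LinearMap.sum_apply, smulRight_apply, map_sum, map_smul]
    rw [← Equiv.sum_comp (Equiv.mulLeft h) fun g => B (σ g u) (σ h z) • σ g w]
    refine Finset.sum_congr rfl fun g _ => ?_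
    simp only [Equiv.coe_mulLeft, ← s_mul, hI h]
  have h1 := congrArg (LinearMap.trace ℚ V) hc
  simp only [map_sum, trace_smulRight, hI _ u w, map_smul, trace_one, hn, Finset.sum_const,
    Finset.card_univ, nsmul_eq_mul, smul_eq_mul] at h1
  have h2 := LinearMap.congr_fun hc z
  simp only [LinearMap.sum_apply, smulRight_apply, LinearMap.smul_apply, End.one_apply] at h2
  rw [h2, h1]
  congr 1
  push_cast
  ring

theorem moment1 [Fintype G] (hirr : Irr σ) (hn : 1 < finrank ℚ V) (w : V) : ∑ g, σ g w = 0 := by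
  by_contra h
  refine hirr.no_line hn h fun g => ?_
  have := Equiv.sum_comp (Equiv.mulLeft g) fun h => σ h w
  simp only [Equiv.coe_mulLeft, ← s_mul, ← map_sum] at this
  rw [this]
  exact mem_span_singleton_self _

/-- invariant lattice -/
def LInv (σ : G →* End ℚ V) (L : Submodule ℤ V) : Prop := ∀ g, ∀ v ∈ L, σ g v ∈ L

theorem LInv.dual (hI : Inv σ B) {L : Submodule ℤ V} (h : LInv σ L) : LInv σ (dual B L) :=
  fun g v hv => mem_dual.2 fun l hl => by
    rw [hI.adj]; exact mem_dual.1 hv _ (h _ _ hl)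

theorem LInv.sc {L : Submodule ℤ V} (h : LInv σ L) (c : ℚ) : LInv σ (sc c L) :=
  fun g v hv => by
    rw [mem_sc] at hv ⊢
    rw [← map_smul]; exact h _ _ hv

theorem LInv.inf {L M : Submodule ℤ V} (h : LInv σ L) (h' : LInv σ M) : LInv σ (L ⊓ M) :=
  fun g v hv => ⟨h g v hv.1, h' g v hv.2⟩

theorem exists_lat [Finite G] (σ : G →* End ℚ V) {n : ℕ} (hn : finrank ℚ V = n) :
    ∃ L, Lat n L ∧ LInv σ L := by
  let e := Module.finBasis ℚ V
  refine ⟨span ℤ (Set.range fun p : G × Fin (finrank ℚ V) => σ p.1 (e p.2)),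
    lat_of hn (fg_span (Set.finite_range _)) ?_, fun g v hv => ?_⟩
  · rw [span_span_of_tower, eq_top_iff, ← e.span_eq]
    exact span_mono (by rintro _ ⟨i, rfl⟩; exact ⟨(1, i), by simp⟩)
  · induction hv using span_induction with
    | mem x hx =>
      obtain ⟨p, rfl⟩ := hx
      exact subset_span ⟨(g * p.1, p.2), (s_mul σ _ _ _).symm⟩
    | zero => simp
    | add x y _ _ hx hy => rw [map_add]; exact add_mem hx hy
    | smul c x _ hx => rw [map_zsmul]; exact smul_mem _ _ hx

theorem dvd_card [Finite G] (hB : PDF B) (hI : Inv σ B) (hirr : Irr σ) (hn : finrank ℚ V = 23) :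
    23 ∣ Nat.card G := by
  classical
  have := Fintype.ofFinite G
  obtain ⟨L, ⟨b, hb⟩, hL⟩ := exists_lat σ hn
  have hu : B.dualBasis hB.nondeg b 0 ∈ dual B L := by
    rw [hb, dual, BilinForm.dualSubmodule_span_of_basis B hB.nondeg b]
    exact subset_span ⟨0, rfl⟩
  have hw : b 0 ∈ L := hb ▸ subset_span ⟨0, rfl⟩
  have h1 : B (B.dualBasis hB.nondeg b 0) (b 0) = 1 := by simp [BilinForm.apply_dualBasis_left]
  have h2 := congrArg (B (B.dualBasis hB.nondeg b 0)) (moment2 hB hI hirr hn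
    (B.dualBasis hB.nondeg b 0) (b 0) (b 0))
  simp only [map_sum, map_smul, h1, smul_eq_mul, mul_one] at h2
  obtain ⟨z, hz⟩ : IsZ (Fintype.card G / 23) := h2 ▸ isZ_sum _ fun g _ =>
    (mem_dual.1 (hL.dual hI g _ hu) _ hw).mul (mem_dual.1 hu _ (hL g _ hw))
  rw [Nat.card_eq_fintype_card, ← Int.natCast_dvd_natCast]
  refine ⟨z, ?_⟩
  have : (Fintype.card G : ℚ) = 23 * z := by linarith
  exact_mod_cast this

end H21.F23
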