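import Cfsg.Agent.H21.F23A

/-!
Rational representations of degree 23: the elements of order 23.
-/

set_option autoImplicit false
set_option linter.unusedSectionVars false

namespace H21.F23
open Module Submodule LinearMap

variable {V : Type*} [AddCommGroup V] [Module ℚ V] [FiniteDimensional ℚ V]
variable {G : Type*} [Group G] {σ : G →* End ℚ V} {B : LinearMap.BilinForm ℚ V}

/-- standing hypotheses -/
structure St (σ : G →* End ℚ V) (B : LinearMap.BilinForm ℚ V) : Prop where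
  pd : PDF B
  inv : Inv σ B
  irr : Irr σ
  dim : finrank ℚ V = 23
  inj : Function.Injective σ

theorem rk22 {g : G} (hg : g ^ 23 = 1) {W : Submodule ℚ V} (hW : ∀ w ∈ W, σ g w ∈ W) :
    22 ∣ finrank ℚ (W.map (σ g - 1)) := by
  have := dv_cyc (σ g) (p := 23) (k := 0) (by norm_num) (by simp [← map_pow, hg]) hW
  rwa [pow_zero, pow_one] at this

theorem nm_fix {g : G} (hg : g ^ 23 = 1) (u : V) :
    σ g (∑ i ∈ Finset.range 23, σ (g ^ i) u) = ∑ i ∈ Finset.range 23, σ (g ^ i) u := by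
  have k1 := Finset.sum_range_succ (fun i => σ (g ^ i) u) 23
  have k2 := Finset.sum_range_succ' (fun i => σ (g ^ i) u) 23
  rw [hg] at k1
  rw [pow_zero] at k2
  rw [map_sum]
  refine Eq.trans ?_ (add_right_cancel (k2.symm.trans k1))
  exact Finset.sum_congr rfl fun i _ => by rw [s_mul, pow_succ']

theorem fix_small {g : G} (hg : g ^ 23 = 1) {W : Submodule ℚ V} (hW : ∀ w ∈ W, σ g w ∈ W)
    (hr : finrank ℚ W < 22) {w : V} (hw : w ∈ W) : σ g w = w := by
  have h1 := rk22 hg hW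
  have h2 := finrank_map_le (σ g - 1) W
  have h3 : W.map (σ g - 1) = ⊥ :=
    Submodule.finrank_eq_zero.1 (Nat.eq_zero_of_dvd_of_lt h1 (by omega))
  exact sub_eq_zero.1 ((eq_bot_iff.1 h3) ⟨w, hw, rfl⟩)

theorem St.rk_ne (h : St σ B) {g : G} (hg : g ≠ 1) : finrank ℚ ((⊤ : Submodule ℚ V).map (σ g - 1)) ≠ 0 := by
  intro h0
  refine hg (h.inj ?_)
  rw [map_one]
  ext v
  exact sub_eq_zero.1 ((eq_bot_iff.1 (Submodule.finrank_eq_zero.1 h0)) ⟨v, mem_top, rfl⟩)

theorem St.fix_line (h : St σ B) {g : G} (hg : g ^ 23 = 1) (h1 : g ≠ 1) :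
    ∃ a : V, a ≠ 0 ∧ ∀ v, σ g v = v ↔ v ∈ span ℚ {a} := by
  have k1 := rk22 (σ := σ) hg (W := ⊤) fun _ _ => mem_top
  have k2 := h.rk_ne h1
  rw [Submodule.map_top] at k1 k2
  have k3 := LinearMap.finrank_range_add_finrank_ker (σ g - 1)
  rw [h.dim] at k3
  have k4 : finrank ℚ (ker (σ g - 1)) = 1 := by omega
  obtain ⟨a, ha, ha'⟩ := finrank_eq_one_iff'.1 k4
  refine ⟨a, by simpa using ha, fun v => ⟨fun hv => ?_, fun hv => ?_⟩⟩
  · obtain ⟨c, hc⟩ := ha' ⟨v, sub_eq_zero.2 hv⟩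
    exact mem_span_singleton.2 ⟨c, congrArg Subtype.val hc⟩
  · obtain ⟨c, rfl⟩ := mem_span_singleton.1 hv
    rw [map_smul, show σ g a = a from sub_eq_zero.1 a.2]

theorem St.prime_le [Finite G] (h : St σ B) {q : ℕ} (hq : q.Prime) (hd : q ∣ Nat.card G) :
    q ≤ 23 := by
  have := Fact.mk hq
  obtain ⟨g, hg⟩ := exists_prime_orderOf_dvd_card' q hd
  have k1 := dv_cyc (σ g) (k := 0) hq (by
    rw [← map_pow, zero_add, pow_one, ← hg, pow_orderOf_eq_one, map_one]) (W := ⊤) fun _ _ => mem_top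
  rw [pow_zero, one_mul, pow_one] at k1
  have k2 := h.rk_ne (g := g) (by rintro rfl; rw [orderOf_one] at hg; exact hq.ne_one hg.symm)
  have k3 := Nat.le_of_dvd (Nat.pos_of_ne_zero k2) k1
  have k4 := ((⊤ : Submodule ℚ V).map (σ g - 1)).finrank_le
  rw [h.dim] at k4
  have : q ≠ 24 := by rintro rfl; norm_num at hq
  omega

theorem span_eq_of_mem {a u : V} (hu : u ≠ 0) (h : u ∈ span ℚ {a}) : span ℚ {u} = span ℚ {a} := by
  obtain ⟨c, rfl⟩ := mem_span_singleton.1 h
  exact span_singleton_smul_eq (IsUnit.mk0 c fun h => hu (by simp [h])) a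

theorem St.not_sq [Finite G] (h : St σ B) : ¬ 23 ^ 2 ∣ Nat.card G := by
  classical
  intro hd
  have : Fact (Nat.Prime 23) := ⟨by norm_num⟩
  obtain ⟨K, hK⟩ := Sylow.exists_subgroup_card_pow_prime 23 hd
  have := Fintype.ofFinite K
  have hc := IsPGroup.isMulCommutative_of_card_eq_prime_sq hK
  have he : ∀ e : K, (e : G) ^ 23 = 1 := fun e => by
    by_contra h1
    have k0 : (e : G) ^ 23 ^ (1 + 1) = 1 := by
      rw [← Subgroup.coe_pow, ← hK, pow_card_eq_one', Subgroup.coe_one]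
    have k1 := dv_cyc (σ e) (p := 23) (k := 1) (by norm_num) (by rw [← map_pow, k0, map_one])
      (W := ⊤) fun _ _ => mem_top
    rw [pow_one, ← map_pow] at k1
    have k3 := Nat.le_of_dvd (Nat.pos_of_ne_zero (h.rk_ne h1)) k1
    have k4 := ((⊤ : Submodule ℚ V).map (σ ((e : G) ^ 23) - 1)).finrank_le
    rw [h.dim] at k4
    omega
  have : Nontrivial K := Finite.one_lt_card_iff_nontrivial.1 (by rw [hK]; norm_num)
  obtain ⟨x, hx⟩ := exists_ne (1 : K)
  have hx' : (x : G) ≠ 1 := by simpa using hx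
  obtain ⟨a, ha, hfa⟩ := h.fix_line (he x) hx'
  have fa : ∀ e : K, σ e a = a := fun e => by
    refine fix_small (he e) (W := span ℚ {a}) (fun w hw => (hfa _).1 ?_)
      (by rw [finrank_span_singleton ha]; norm_num) (mem_span_singleton_self a)
    rw [s_mul, ← Subgroup.coe_mul, hc.is_comm.comm, Subgroup.coe_mul, ← s_mul, (hfa w).2 hw]
  have kz : ∀ e : K, e ≠ 1 → ∀ y, σ e y = y → B a y = 0 → y = 0 := fun e h1 y hy h0 => by
    obtain ⟨b, -, hb⟩ := h.fix_line (he e) (by simpa using h1)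
    have := (hb y).1 hy
    rw [← span_eq_of_mem ha ((hb a).1 (fa e))] at this
    obtain ⟨c, rfl⟩ := mem_span_singleton.1 this
    simp only [map_smul, smul_eq_mul, mul_eq_zero, (h.pd.pos a ha).ne', or_false] at h0
    simp [h0]
  obtain ⟨v, hv⟩ : ∃ v, σ x v ≠ v := by
    by_contra hc
    push Not at hc
    exact hx' (h.inj (by rw [map_one]; exact LinearMap.ext hc))
  have ort : ∀ e : K, B a (σ e (σ x v - v)) = 0 := fun e => by
    rw [h.inv.adj', ← Subgroup.coe_inv, fa, map_sub, h.inv.adj', ← Subgroup.coe_inv, fa, sub_self]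
  set u := σ x v - v
  have s1 : ∑ e : K, σ e u = 0 := by
    refine kz x hx _ ?_ (by simp [map_sum, ort])
    have := Equiv.sum_comp (Equiv.mulLeft x) fun e : K => σ e u
    simpa only [Equiv.coe_mulLeft, Subgroup.coe_mul, ← s_mul, ← map_sum] using this
  have s2 : ∀ e : K, e ≠ 1 → ∑ i ∈ Finset.range 23, σ (e ^ i : K) u = 0 := fun e h1 => by
    refine kz e h1 _ ?_ (by simp only [map_sum, ort, Finset.sum_const_zero])
    exact nm_fix (he e) u
  have s3 : ∑ e : K, ∑ i ∈ Finset.range 23, σ (e ^ i : K) u = (23 : ℚ) • u := by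
    rw [Finset.sum_eq_single 1 (fun e _ h1 => s2 e h1) (by simp)]
    simp [← Nat.cast_smul_eq_nsmul ℚ]
  rw [Finset.sum_comm, Finset.sum_eq_single 0 (fun i hi h0 => ?_) (by simp)] at s3
  · simp only [pow_zero, Subgroup.coe_one, map_one, End.one_apply, Finset.sum_const,
      Finset.card_univ, ← Nat.card_eq_fintype_card, hK, ← Nat.cast_smul_eq_nsmul ℚ] at s3
    rw [← sub_eq_zero, ← sub_smul, smul_eq_zero] at s3
    rcases s3 with s3 | s3
    · norm_num at s3
    · exact hv (sub_eq_zero.1 s3)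
  · have hcop : (Nat.card K).Coprime i := by
      rw [hK]
      refine Nat.Coprime.pow_left _ ((Nat.Prime.coprime_iff_not_dvd (by norm_num)).2 fun hd => ?_)
      have := Nat.le_of_dvd (by omega) hd
      simp at hi
      omega
    rw [← s1]
    exact Equiv.sum_comp (powCoprime hcop) fun e : K => σ e u

theorem St.normal_irr (h : St σ B) {x : G} (hx : x ^ 23 = 1) (h1 : x ≠ 1) (N : Subgroup G)
    [hN : N.Normal] (hxN : x ∈ N) : Irr (σ.comp N.subtype) := by
  intro W hW
  by_contra hc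
  push Not at hc
  obtain ⟨U, hU, r1, r2⟩ : ∃ U : Submodule ℚ V, (∀ g ∈ N, ∀ w ∈ U, σ g w ∈ U) ∧ U ≠ ⊥ ∧
      finrank ℚ U < 22 := by
    by_cases hr : finrank ℚ W < 22
    · exact ⟨W, fun g hg => hW ⟨g, hg⟩, hc.1, hr⟩
    have k1 := BilinForm.finrank_orthogonal h.pd.nondeg W
    have k2 := finrank_lt hc.2
    rw [h.dim] at k1 k2
    refine ⟨B.orthogonal W, fun g hg w hw v hv => ?_, fun h0 => ?_, by omega⟩
    · have := hw _ (hW ⟨g⁻¹, inv_mem hg⟩ v hv)
      change B _ _ = 0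
      rw [h.inv.adj']
      exact this
    · rw [h0, finrank_bot] at k1
      omega
  obtain ⟨a, -, hfa⟩ := h.fix_line hx h1
  obtain ⟨u, hu, hu0⟩ := Submodule.exists_mem_ne_zero_of_ne_bot r1
  have k : ∀ g, σ g u ∈ span ℚ {a} := fun g => by
    refine (hfa _).1 (fix_small hx (W := U.map (σ g)) ?_ ((finrank_map_le _ _).trans_lt r2)
      ⟨u, hu, rfl⟩)
    rintro _ ⟨w, hw, rfl⟩
    refine ⟨_, hU (g⁻¹ * x * g) (hN.conj_mem' x hxN g) w hw, ?_⟩
    rw [s_mul, s_mul]
    congr 2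
    group
  refine h.irr.no_line (by rw [h.dim]; norm_num) hu0 fun g => ?_
  rw [span_eq_of_mem hu0 (by simpa using k 1)]
  exact k g

theorem St.exists_x [Finite G] (h : St σ B) : ∃ x : G, x ^ 23 = 1 ∧ x ≠ 1 := by
  have : Fact (Nat.Prime 23) := ⟨by norm_num⟩
  obtain ⟨g, hg⟩ := exists_prime_orderOf_dvd_card' 23 (dvd_card h.pd h.inv h.irr h.dim)
  exact ⟨g, hg ▸ pow_orderOf_eq_one g, by rintro rfl; simp at hg⟩

theorem St.small [Finite G] (h : St σ B) (hidx : ∀ H : Subgroup G, H.index ≠ 23 ∧ H.index ≠ 24)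
    {W : Submodule ℚ V} {T : Set (Submodule ℚ V)} (hf : T.Finite) (hT : T.ncard ≤ 24)
    (hW : ∀ g, W.map (σ g) ∈ T) : W = ⊥ ∨ W = ⊤ := by
  let _ : MulAction G (Submodule ℚ V) :=
    { smul := fun g W => W.map (σ g)
      one_smul := fun W => by change W.map (σ 1) = W; rw [map_one]; exact Submodule.map_id W
      mul_smul := fun g g' W => by
        change W.map (σ (g * g')) = (W.map (σ g')).map (σ g)
        rw [map_mul, ← Submodule.map_comp]; rfl }
  let H := MulAction.stabilizer G W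
  have h1 : H.index ≤ 24 := by
    rw [MulAction.index_stabilizer]
    exact (Set.ncard_le_ncard (by rintro _ ⟨g, rfl⟩; exact hW g) hf).trans hT
  have h2 := hidx H
  obtain ⟨x, hx, hx1⟩ := h.exists_x
  have hm : x ∈ H.normalCore := by
    rw [Subgroup.normalCore_eq_ker, MonoidHom.mem_ker, ← orderOf_eq_one_iff]
    have k1 : orderOf (MulAction.toPermHom G (G ⧸ H) x) ∣ 23 :=
      orderOf_dvd_of_pow_eq_one (by rw [← map_pow, hx, map_one])
    have k2 := orderOf_dvd_natCard (MulAction.toPermHom G (G ⧸ H) x)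
    rw [Nat.card_perm] at k2
    rcases (Nat.dvd_prime (by norm_num)).1 k1 with k | k
    · exact k
    · rw [k, Nat.Prime.dvd_factorial (by norm_num)] at k2
      have : H.index = Nat.card (G ⧸ H) := rfl
      omega
  refine h.normal_irr hx hx1 _ hm W fun g w hw => ?_
  have : W.map (σ g) = W := H.normalCore_le g.2
  exact this ▸ ⟨w, hw, rfl⟩

end H21.F23
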