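import Cfsg.Agent.H21.F23M

/-!
The even sublattice of the minimal lattice has a cyclic discriminant group.
-/

set_option autoImplicit false
set_option linter.unusedSectionVars false

namespace H21.F23
open Module Submodule LinearMap

variable {V : Type*} [AddCommGroup V] [Module ℚ V] [FiniteDimensional ℚ V]
variable {G : Type*} [Group G] {σ : G →* End ℚ V} {B : LinearMap.BilinForm ℚ V}

/-- even sublattice -/
def ev (hB : PDF B) {L : Submodule ℤ V} (hL : L ≤ dual B L) : Submodule ℤ V where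
  carrier := {y | y ∈ L ∧ IsZ (B y y / 2)}
  zero_mem' := ⟨zero_mem _, by simpa using isZ_zero⟩
  add_mem' := fun {a b} ha hb => ⟨add_mem ha.1 hb.1, by
    have := (ha.2.add hb.2).add (mem_dual.1 (hL ha.1) _ hb.1)
    convert this using 1
    simp only [map_add, LinearMap.add_apply, hB.symm b a]
    ring⟩
  smul_mem' := fun c a ha => ⟨smul_mem _ _ ha.1, by
    have := ((isZ_int c).mul (isZ_int c)).mul ha.2
    convert this using 1
    simp only [map_zsmul, LinearMap.smul_apply, zsmul_eq_mul]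
    ring⟩

theorem even_int (hB : PDF B) {L : Submodule ℤ V} (h : ∀ y ∈ L, IsZ (B y y / 2)) : L ≤ dual B L :=
  fun a ha => mem_dual.2 fun b hb => by
    have := ((h _ (add_mem ha hb)).sub (h _ ha)).sub (h _ hb)
    convert this using 1
    simp only [map_add, LinearMap.add_apply, hB.symm b a]
    ring

/-- the even lattice with cyclic discriminant group -/
structure EL (σ : G →* End ℚ V) (B : LinearMap.BilinForm ℚ V) (x : G) (L : Submodule ℤ V) (v : V)
    (D : ℕ) : Prop where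
  lat : Lat 23 L
  inv : LInv σ L
  even : ∀ y ∈ L, IsZ (B y y / 2)
  mem : v ∈ dual B L
  ne : v ≠ 0
  gen : ∀ y ∈ dual B L, ∃ k : ℤ, y - k • v ∈ L
  ord : ∀ k : ℤ, k • v ∈ L ↔ (D : ℤ) ∣ k
  pos : 0 < D
  two : 2 ∣ D
  eight : ¬ 8 ∣ D
  norm : B v v = 23 / D ∨ B v v = 1 / D
  fix : σ x v = v

theorem pow_sub_mem {L : Submodule ℤ V} (hL : LInv σ L) {x : G} {y w : V}
    (h1 : σ x y - y - w ∈ L) (h2 : σ x w - w ∈ L) (k : ℕ) : σ (x ^ k) y - y - (k : ℤ) • w ∈ L := by
  induction k with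
  | zero => simp
  | succ k ih =>
    convert add_mem (add_mem (hL x _ ih) h1) (smul_mem _ (k : ℤ) h2) using 1
    rw [pow_succ', ← s_mul]
    simp only [map_sub, map_zsmul, Nat.cast_succ, add_smul, one_smul, smul_sub]
    abel

theorem pow_fix {x : G} {v : V} (h : σ x v = v) (i : ℕ) : σ (x ^ i) v = v := by
  induction i with
  | zero => rw [pow_zero, map_one]; rfl
  | succ i ih => rw [pow_succ, ← s_mul, h, ih]

theorem exists_EL [Finite G] (h : St σ B) {L : Submodule ℤ V} (hL : ML σ B L) {x : G}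
    (hx : x ^ 23 = 1) (hx1 : x ≠ 1) : ∃ L0 v D, EL σ B x L0 v D := by
  let L0 := ev h.pd hL.int
  have mem : ∀ {y}, y ∈ L0 ↔ y ∈ L ∧ IsZ (B y y / 2) := Iff.rfl
  have two : ∀ l ∈ L, (2 : ℤ) • l ∈ L0 := fun l hl => mem.2 ⟨smul_mem _ _ hl, by
    convert (isZ_int 2).mul (mem_dual.1 (hL.int hl) _ hl) using 1
    simp only [map_zsmul, LinearMap.smul_apply, zsmul_eq_mul]
    ring⟩
  have lat : Lat 23 L0 := (hL.lat.sc (c := 1 / 2) (by norm_num)).between hL.lat
    (fun y hy => by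
      convert two _ (mem_sc.1 hy)
      rw [← Int.cast_smul_eq_zsmul ℚ, smul_smul]; norm_num) fun y hy => hy.1
  have inv : LInv σ L0 := fun g y hy => mem.2 ⟨hL.inv g y hy.1, by rw [h.inv]; exact hy.2⟩
  have dinv := inv.dual h.inv
  have int := even_int h.pd (L := L0) fun y hy => hy.2
  have t1 : ∀ g, ∀ l ∈ L, σ g l - l ∈ L0 := fun g l hl => mem.2 ⟨sub_mem (hL.inv g l hl) hl, by
    convert (mem_dual.1 (hL.int hl) _ hl).sub (mem_dual.1 (hL.int hl) _ (hL.inv g l hl)) using 1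
    simp only [map_sub, LinearMap.sub_apply, h.inv g l l, h.pd.symm (σ g l) l]
    ring⟩
  have t2 : ∀ y ∈ dual B L0, σ x y - y ∈ dual B L := fun y hy => mem_dual.2 fun l hl => by
    convert mem_dual.1 hy _ (t1 x⁻¹ l hl) using 1
    rw [map_sub, map_sub, LinearMap.sub_apply, h.inv.adj]
  have sat : ∀ y ∈ dual B L0, (23 : ℤ) • y ∈ L0 → y ∈ L0 := fun y hy h23 => by
    have k1 : (2 : ℤ) • y ∈ L := hL.sat h (mem_dual.2 fun l hl => by
      simpa using mem_dual.1 hy _ (two l hl)) (by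
      convert smul_mem L (2 : ℤ) h23.1 using 1
      rw [smul_comm, ← Int.cast_smul_eq_zsmul ℚ 23]; norm_num)
    have k2 : y ∈ L := by
      convert sub_mem h23.1 (smul_mem L (11 : ℤ) k1) using 1
      module
    refine mem.2 ⟨k2, ?_⟩
    convert h23.2.sub ((isZ_int 264).mul (mem_dual.1 (hL.int k2) _ k2)) using 1
    simp only [map_zsmul, LinearMap.smul_apply, zsmul_eq_mul]
    push_cast
    ring
  have t3 : ∀ y ∈ dual B L0, σ x (σ x y - y) - (σ x y - y) ∈ L0 → σ x y - y ∈ L0 := fun y hy h2 => by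
    refine sat _ (sub_mem (dinv x y hy) hy) ?_
    have := pow_sub_mem inv (y := y) (by rw [sub_self]; exact zero_mem _) h2 23
    rw [hx, map_one, End.one_apply, sub_self, zero_sub] at this
    exact neg_mem_iff.1 this
  have tr : ∀ y ∈ dual B L0, σ x y - y ∈ L0 := fun y hy =>
    t3 y hy (t3 _ (sub_mem (dinv x y hy) hy) (t1 _ _ (hL.tr h hx (t2 y hy))))
  obtain ⟨a, ha, hfa⟩ := h.fix_line hx hx1
  obtain ⟨v, hv, hv0, hva, hgen⟩ := (lat.dual h.pd).line h.pd ha
  have fix := (hfa v).2 hva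
  have nm : ∀ y ∈ dual B L0, ∃ k : ℤ, ∑ i ∈ Finset.range 23, σ (x ^ i) y = k • v := fun y hy =>
    hgen _ (sum_mem fun i _ => dinv _ y hy) ((hfa _).1 (nm_fix hx y))
  have cop : ∀ y ∈ dual B L0, ∃ n : ℤ, IsCoprime n 23 ∧ n • y ∈ L0 := fun y hy => by
    obtain ⟨n, hn, h2⟩ := lat.den y
    induction n using Nat.strong_induction_on with | _ n ih =>
    by_cases hd : 23 ∣ n
    · obtain ⟨k, rfl⟩ := hd
      refine ih k (by omega) (by omega) (sat _ (smul_mem _ _ hy) ?_)
      rwa [smul_smul, ← Nat.cast_ofNat, ← Nat.cast_mul]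
    · exact ⟨n, (Nat.isCoprime_iff_coprime.2
        ((Nat.Prime.coprime_iff_not_dvd (by norm_num)).2 hd)).symm, h2⟩
  have gen : ∀ y ∈ dual B L0, ∃ k : ℤ, y - k • v ∈ L0 := fun y hy => by
    obtain ⟨k, hk⟩ := nm y hy
    obtain ⟨n, ⟨p, q, hpq⟩, hn⟩ := cop y hy
    have k1 : ∑ i ∈ Finset.range 23, (σ (x ^ i) y - y) ∈ L0 := sum_mem fun i _ => by
      simpa using pow_sub_mem inv (w := 0) (by simpa using tr y hy) (by simp) i
    rw [Finset.sum_sub_distrib, hk, Finset.sum_const, Finset.card_range] at k1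
    refine ⟨q * k, ?_⟩
    convert sub_mem (smul_mem L0 p hn) (smul_mem L0 q k1) using 1
    rw [smul_sub, smul_smul, smul_smul, ← natCast_zsmul, smul_smul, ← sub_add, sub_add_eq_add_sub,
      ← add_smul, Nat.cast_ofNat, hpq, one_smul]
  let D := addOrderOf (QuotientAddGroup.mk v : V ⧸ L0.toAddSubgroup)
  have ord : ∀ k : ℤ, k • v ∈ L0 ↔ (D : ℤ) ∣ k := fun k => by
    rw [addOrderOf_dvd_iff_zsmul_eq_zero, ← QuotientAddGroup.mk_zsmul, QuotientAddGroup.eq_zero_iff]
    rfl
  have pos : 0 < D := by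
    obtain ⟨n, hn, h2⟩ := lat.den v
    exact Nat.pos_of_dvd_of_pos (Int.natCast_dvd_natCast.1 ((ord _).1 h2)) hn
  have hD : (0 : ℚ) < D := by exact_mod_cast pos
  obtain ⟨t, ht⟩ := mem_dual.1 hv _ ((ord D).2 dvd_rfl)
  simp only [map_zsmul, zsmul_eq_mul, Int.cast_natCast] at ht
  have tp : 0 < t := by
    have := mul_pos hD (h.pd.pos v hv0)
    rw [ht] at this
    exact_mod_cast this
  have tp' : (t : ℚ) ≠ 0 := by exact_mod_cast tp.ne'
  have t23 : t = 1 ∨ t = 23 := by
    obtain ⟨j, hj⟩ := hgen ((23 / t : ℚ) • v) (mem_dual.2 fun l hl => by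
      obtain ⟨k, hk⟩ := nm l (int hl)
      obtain ⟨k', rfl⟩ := (ord k).1 (hk ▸ sum_mem fun i _ => inv _ l hl)
      have := congrArg (B v) hk
      have e : ∀ i : ℕ, B v (σ (x ^ i) l) = B v l := fun i => by
        rw [← h.inv (x ^ i) v l, pow_fix fix]
      simp only [map_sum, e, Finset.sum_const, Finset.card_range, nsmul_eq_mul, map_zsmul,
        zsmul_eq_mul] at this
      refine ⟨k', ?_⟩
      simp only [map_smul, LinearMap.smul_apply, smul_eq_mul]
      push_cast at this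
      field_simp
      rw [this, ← ht]
      ring) (smul_mem _ _ hva)
    rw [← Int.cast_smul_eq_zsmul ℚ] at hj
    have k1 := smul_left_injective ℚ hv0 hj
    have k2 : 23 = j * t := by
      rw [div_eq_iff tp'] at k1
      exact_mod_cast k1
    have k3 : t.natAbs ∣ 23 := Int.natAbs_dvd_natAbs.2 (Dvd.intro_left _ k2.symm)
    rcases (Nat.dvd_prime (by norm_num)).1 k3 with k | k <;> omega
  refine ⟨L0, v, D, lat, inv, fun y hy => hy.2, hv, hv0, gen, ord, pos, ?_, ?_, ?_, fix⟩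
  · obtain ⟨z, hz⟩ := ((ord D).2 dvd_rfl).2
    simp only [map_zsmul, LinearMap.smul_apply, zsmul_eq_mul, Int.cast_natCast, ht] at hz
    have : (D : ℤ) * t = 2 * z := by
      have : (D : ℚ) * t = 2 * z := by linarith
      exact_mod_cast this
    rcases t23 with rfl | rfl <;> omega
  · rintro ⟨e, he⟩
    have hw : IsZ (B ((4 * e : ℤ) • v) ((4 * e : ℤ) • v) / 2) := ⟨e * t, by
      simp only [map_zsmul, LinearMap.smul_apply, zsmul_eq_mul]
      push_cast
      rw [← ht, he]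
      push_cast
      ring⟩
    have hn : (4 * e : ℤ) • v ∉ L0 := by
      rw [ord, he]
      intro hd
      have := Int.le_of_dvd (by omega) hd
      omega
    refine hn (mem.2 ⟨hL.m1 (L0 ⊔ span ℤ {(4 * e : ℤ) • v}) ?_ ?_ ?_
      (mem_sup_right (mem_span_singleton_self _)), hw⟩)
    · intro g y hy
      obtain ⟨l, hl, _, h2, rfl⟩ := mem_sup.1 hy
      obtain ⟨j, rfl⟩ := mem_span_singleton.1 h2
      obtain ⟨k, hk⟩ := gen _ (dinv g v hv)
      refine mem_sup.2 ⟨_, add_mem (inv g l hl) (smul_mem _ (j * (4 * e)) hk), _,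
        mem_span_singleton.2 ⟨j * k, rfl⟩, ?_⟩
      simp only [map_add, map_zsmul]
      module
    · intro l hl
      obtain ⟨k, hk⟩ := gen l (dual_anti (fun y hy => (mem.1 hy).1) (hL.int hl))
      obtain ⟨j, hj⟩ := (ord (2 * k)).1 (by
        convert sub_mem (two l hl) (smul_mem L0 2 hk) using 1
        module)
      refine mem_sup.2 ⟨_, hk, _, mem_span_singleton.2 ⟨j, rfl⟩, ?_⟩
      rw [smul_smul, show j * (4 * e) = k by rw [he] at hj; push_cast at hj; linarith]
      abel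
    · refine even_int h.pd fun y hy => ?_
      obtain ⟨l, hl, _, h2, rfl⟩ := mem_sup.1 hy
      obtain ⟨j, rfl⟩ := mem_span_singleton.1 h2
      convert (hl.2.add ((isZ_int j).mul (mem_dual.1 (smul_mem _ (4 * e : ℤ) hv) _ hl))).add
        (((isZ_int j).mul (isZ_int j)).mul hw) using 1
      simp only [map_add, map_zsmul, LinearMap.add_apply, LinearMap.smul_apply, zsmul_eq_mul,
        h.pd.symm l v]
      ring
  · rcases t23 with rfl | rfl
    · right; rw [eq_div_iff hD.ne', mul_comm, ht]; simp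
    · left; rw [eq_div_iff hD.ne', mul_comm, ht]; simp

end H21.F23
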