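import Cfsg.Agent.H21.F23E

/-!
Moment inequalities determine the discriminant.
-/

set_option autoImplicit false
set_option linter.unusedSectionVars false

namespace H21.F23
open Module Submodule LinearMap

variable {V : Type*} [AddCommGroup V] [Module ℚ V] [FiniteDimensional ℚ V]
variable {G : Type*} [Group G] {σ : G →* End ℚ V} {B : LinearMap.BilinForm ℚ V}

theorem cube_nonneg (hB : PDF B) {ι : Type*} [Fintype ι] (u : ι → V) :
    0 ≤ ∑ i, ∑ j, B (u i) (u j) ^ 3 := by
  obtain ⟨e, he⟩ := LinearMap.BilinForm.exists_orthogonal_basis (B := B) ⟨hB.symm⟩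
  have k : ∀ v w, B v w = ∑ k, B (e k) (e k) * (e.repr v k * e.repr w k) := fun v w => by
    conv_lhs => rw [← e.sum_repr v, ← e.sum_repr w]
    simp only [map_sum, map_smul, LinearMap.sum_apply, LinearMap.smul_apply, smul_eq_mul]
    refine Finset.sum_congr rfl fun k _ => ?_
    rw [Finset.sum_eq_single k (fun l _ hl => by rw [show B (e l) (e k) = 0 from he hl, mul_zero])
      (by simp)]
    ring
  have k3 : ∀ f : Fin (finrank ℚ V) → ℚ, (∑ k, f k) ^ 3 =
      ∑ p : Fin (finrank ℚ V) × Fin (finrank ℚ V) × Fin (finrank ℚ V), f p.1 * f p.2.1 * f p.2.2 :=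
    fun f => by
      rw [pow_three, Finset.sum_mul_sum Finset.univ Finset.univ f f, Finset.sum_mul]
      simp only [Fintype.sum_prod_type, Finset.mul_sum, mul_assoc]
  have : ∑ i, ∑ j, B (u i) (u j) ^ 3 =
      ∑ p : Fin (finrank ℚ V) × Fin (finrank ℚ V) × Fin (finrank ℚ V),
        B (e p.1) (e p.1) * B (e p.2.1) (e p.2.1) * B (e p.2.2) (e p.2.2) *
          (∑ i, e.repr (u i) p.1 * e.repr (u i) p.2.1 * e.repr (u i) p.2.2) ^ 2 := by
    simp only [k (u _) (u _), k3, pow_two, Finset.sum_mul_sum]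
    simp only [Finset.mul_sum]
    rw [Finset.sum_comm (s := Finset.univ (α := _ × _ × _))]
    refine Finset.sum_congr rfl fun i _ => ?_
    rw [Finset.sum_comm]
    exact Finset.sum_congr rfl fun p _ => Finset.sum_congr rfl fun j _ => by ring
  rw [this]
  exact Finset.sum_nonneg fun p _ => mul_nonneg
    (mul_nonneg (mul_nonneg (hB.nonneg _) (hB.nonneg _)) (hB.nonneg _)) (sq_nonneg _)

theorem moment3 [Fintype G] (hB : PDF B) (hI : Inv σ B) (v : V) : 0 ≤ ∑ g, B (σ g v) v ^ 3 := by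
  have := cube_nonneg hB fun g => σ g v
  rw [Finset.sum_comm, Finset.sum_congr rfl (g := fun _ => ∑ g, B (σ g v) v ^ 3) fun h _ => by
    rw [← Equiv.sum_comp (Equiv.mulLeft h)]
    simp only [Equiv.coe_mulLeft, ← s_mul, hI h]] at this
  rw [Finset.sum_const, nsmul_eq_mul] at this
  exact (mul_nonneg_iff_of_pos_left (by exact_mod_cast Finset.univ_nonempty.card_pos)).1 this

variable {x : G} {L : Submodule ℤ V} {v : V} {D : ℕ}

/-- kernel of the action on the discriminant group -/
def EL.gam (E : EL σ B x L v D) : Subgroup G where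
  carrier := {g | σ g v - v ∈ L}
  one_mem' := by simp
  mul_mem' := fun {a b} ha hb => by
    have := add_mem (E.inv a _ hb) ha
    rwa [map_sub, s_mul, sub_add_sub_cancel] at this
  inv_mem' := fun {a} ha => by
    have := neg_mem (E.inv a⁻¹ _ ha)
    rwa [map_sub, s_inv, neg_sub] at this

theorem EL.mem_gam (E : EL σ B x L v D) {g : G} : g ∈ E.gam ↔ σ g v - v ∈ L := Iff.rfl

theorem EL.gam_triv (E : EL σ B x L v D) {g : G} (hg : g ∈ E.gam) {y : V} (hy : y ∈ dual B L) :
    σ g y - y ∈ L := by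
  obtain ⟨k, hk⟩ := E.gen y hy
  convert add_mem (sub_mem (E.inv g _ hk) hk) (smul_mem _ k hg) using 1
  simp only [map_sub, map_zsmul, smul_sub]
  abel

theorem EL.gam_normal (E : EL σ B x L v D) (hI : Inv σ B) : E.gam.Normal := ⟨fun n hn g => by
  have := E.inv g _ (E.gam_triv hn (E.inv.dual hI g⁻¹ _ E.mem))
  rwa [map_sub, s_inv', s_mul, s_mul] at this⟩

theorem EL.six [Finite G] (h : St σ B) (E : EL σ B x L v D) (hx : x ^ 23 = 1) (hx1 : x ≠ 1) :
    B v v = 23 / D ∧ (D = 2 ∨ D = 4 ∨ D = 6 ∨ D = 12) ∧ ∀ g, σ g v - v ∈ L ∨ σ g v + v ∈ L := by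
  have := E.gam_normal h.inv
  have := Fintype.ofFinite E.gam
  have irr := h.normal_irr hx hx1 E.gam (by rw [E.mem_gam, E.fix, sub_self]; exact zero_mem _)
  have inv : Inv (σ.comp E.gam.subtype) B := fun g => h.inv g
  have hD : (2 : ℚ) ≤ D := by exact_mod_cast Nat.le_of_dvd E.pos E.two
  have hk : ∀ g : E.gam, ∃ k : ℤ, 0 ≤ k ∧ B (σ g v) v = B v v - k := fun g => by
    obtain ⟨k, hk⟩ := E.even _ g.2
    refine ⟨k, ?_, ?_⟩
    · have := h.pd.nonneg (σ g v - v)
      have : (0 : ℚ) ≤ k := by linarith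
      exact_mod_cast this
    · simp only [map_sub, LinearMap.sub_apply, h.inv g v v, h.pd.symm v (σ g v)] at hk
      linarith
  have hN : B v v = 23 / D := by
    refine E.norm.resolve_right fun hN => irr.no_line (by rw [h.dim]; norm_num) E.ne fun g => ?_
    obtain ⟨k, k0, hk⟩ := hk g
    change σ g v ∈ _
    have hN' : B v v ≤ 1 / 2 := by rw [hN]; gcongr
    by_cases k1 : k = 0
    · have : σ g v - v = 0 := h.pd.eq_zero (by
        simp only [map_sub, LinearMap.sub_apply, h.inv g v v, h.pd.symm v (σ g v), hk, k1]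
        simp)
      rw [sub_eq_zero.1 this]
      exact mem_span_singleton_self v
    · have : σ g v + v = 0 := h.pd.eq_zero (le_antisymm (by
        simp only [map_add, LinearMap.add_apply, h.inv g v v, h.pd.symm v (σ g v), hk]
        have : (1 : ℚ) ≤ k := by exact_mod_cast (by omega : 1 ≤ k)
        linarith) (h.pd.nonneg _))
      rw [eq_neg_of_add_eq_zero_left this]
      exact neg_mem (mem_span_singleton_self v)
  have n0 : (0 : ℚ) < Fintype.card E.gam := by exact_mod_cast Fintype.card_pos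
  have m2 : ∀ u, B u u = B v v → ∑ g : E.gam, B (σ g u) v ^ 2 =
      Fintype.card E.gam * B v v ^ 2 / 23 := fun u hu => by
    have := congrArg (B v) (moment2 h.pd inv irr h.dim u u v)
    simp only [map_sum, map_smul, smul_eq_mul, hu] at this
    refine Eq.trans (Finset.sum_congr rfl fun g _ => ?_) (this.trans (by ring))
    rw [h.pd.symm v, pow_two]
    rfl
  have m1 : ∑ g : E.gam, B (σ g v) v = 0 := by
    have := congrArg (fun y => B y v) (moment1 irr (by rw [h.dim]; norm_num) v)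
    simp only [map_sum, LinearMap.sum_apply, map_zero, LinearMap.zero_apply] at this
    exact this
  have m3 : 0 ≤ ∑ g : E.gam, B (σ g v) v ^ 3 := moment3 h.pd inv v
  have ineq : ∀ m : ℤ, 0 ≤ m → 0 ≤ 598 - 24 * (2 * m + 1) * D + m * (m + 1) * D ^ 2 := fun m hm => by
    have k1 : 0 ≤ ∑ g : E.gam, (B v v - B (σ g v) v) * ((B v v - B (σ g v) v) - m) *
        ((B v v - B (σ g v) v) - (m + 1)) := Finset.sum_nonneg fun g _ => by
      obtain ⟨k, k0, hk⟩ := hk g
      rw [hk, sub_sub_cancel, mul_assoc]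
      have : 0 ≤ k * ((k - m) * (k - (m + 1))) := mul_nonneg k0 (by
        rcases le_or_gt k m with h | h <;> nlinarith)
      exact_mod_cast this
    have k2 : ∀ s : ℚ, (B v v - s) * ((B v v - s) - m) * ((B v v - s) - (m + 1)) =
        (B v v ^ 3 - (2 * m + 1) * B v v ^ 2 + m * (m + 1) * B v v) +
        (-3 * B v v ^ 2 + 2 * (2 * m + 1) * B v v - m * (m + 1)) * s +
        (3 * B v v - (2 * m + 1)) * s ^ 2 - s ^ 3 := fun s => by ring
    simp only [k2, Finset.sum_sub_distrib, Finset.sum_add_distrib, ← Finset.mul_sum, m1, m2 v rfl,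
      Finset.sum_const, Finset.card_univ, nsmul_eq_mul] at k1
    have hD0 : (0 : ℚ) < D := by linarith
    have k3 : 0 ≤ (Fintype.card E.gam * 23 / D ^ 3 : ℚ) *
        (598 - 24 * (2 * m + 1) * D + m * (m + 1) * D ^ 2) := by
      refine (add_nonneg k1 m3).trans (le_of_eq ?_)
      rw [hN]
      field_simp
      ring
    exact_mod_cast (mul_nonneg_iff_of_pos_left (by positivity)).1 k3
  have hD4 : D = 2 ∨ D = 4 ∨ D = 6 ∨ D = 12 := by
    have i0 := ineq 0 le_rfl
    have i1 := ineq 1 (by norm_num)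
    have i2 := ineq 2 (by norm_num)
    have := E.pos
    have := E.two
    have := E.eight
    have : D ≤ 24 := by omega
    interval_cases D <;> omega
  refine ⟨hN, hD4, fun g => ?_⟩
  clear hk
  obtain ⟨k, hk⟩ := E.gen _ (E.inv.dual h.inv g v E.mem)
  suffices (D : ℤ) ∣ k - 1 ∨ (D : ℤ) ∣ k + 1 by
    refine this.imp (fun hd => ?_) fun hd => ?_
    · convert add_mem hk ((E.ord _).2 hd) using 1
      module
    · convert add_mem hk ((E.ord _).2 hd) using 1
      module
  obtain ⟨z, hz⟩ := ((E.even _ hk).add ((isZ_int k).mul (mem_dual.1 E.mem _ hk)))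
  simp only [map_sub, map_zsmul, LinearMap.sub_apply, LinearMap.smul_apply, zsmul_eq_mul,
    h.inv g v v, h.pd.symm v (σ g v), hN] at hz
  have e : 23 * (1 - k ^ 2) = 2 * D * z := by
    have : (23 * (1 - k ^ 2) : ℚ) = 2 * D * z := by
      rw [← hz]; field_simp; ring
    exact_mod_cast this
  obtain ⟨r, hr, t, rfl⟩ : ∃ r : ℕ, r < 12 ∧ ∃ t : ℤ, k = 12 * t + r :=
    ⟨(k % 12).toNat, by omega, k / 12, by omega⟩
  have e' : 23 * (1 - (r : ℤ) ^ 2) = 2 * D * z + 24 * (23 * (6 * t ^ 2 + t * r)) := by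
    rw [← e]; ring
  generalize 23 * (6 * t ^ 2 + t * r) = s at e'
  have no5 : D = 12 → r ≠ 5 ∧ r ≠ 7 := by
    rintro rfl
    have k1 := m2 (σ g v) (h.inv g v v)
    have k2 : ∀ γ : E.gam, ∃ j : ℤ, B (σ γ (σ g v)) v = (23 * r + 12 * j) / 12 := fun γ => by
      obtain ⟨j, hj⟩ := mem_dual.1 E.mem _
        (add_mem (E.gam_triv γ.2 (E.inv.dual h.inv g v E.mem)) hk)
      refine ⟨j + 23 * t, ?_⟩
      rw [sub_add_sub_cancel, map_sub, map_zsmul, hN, h.pd.symm, zsmul_eq_mul] at hj
      push_cast at hj ⊢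
      linarith
    by_contra hc
    have k3 : ∑ γ : E.gam, (25 / 144 : ℚ) ≤ ∑ γ : E.gam, B (σ γ (σ g v)) v ^ 2 :=
      Finset.sum_le_sum fun γ _ => by
        obtain ⟨j, hj⟩ := k2 γ
        have : (25 : ℤ) ≤ (23 * r + 12 * j) ^ 2 := by
          have : 23 * r + 12 * j ≤ -5 ∨ 5 ≤ 23 * r + 12 * j := by omega
          rcases this with h | h <;> nlinarith
        have : (25 : ℚ) ≤ (23 * r + 12 * j) ^ 2 := by exact_mod_cast this
        rw [hj]
        linarith
    rw [k1, hN, Finset.sum_const, Finset.card_univ, nsmul_eq_mul] at k3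
    norm_num at k3
    linarith
  rcases hD4 with rfl | rfl | rfl | rfl <;> interval_cases r <;> omega

end H21.F23
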