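import Cfsg.Agent.H1.Th4

/-!
Venkov's identity for the roots of an even unimodular lattice of rank 24
(the theta series with a harmonic quadratic weight is a cusp form of weight 14).
-/

set_option autoImplicit false

namespace H21.F23
open Complex Real Matrix H1.Th

variable {n : ℕ} {B : Matrix (Fin n) (Fin n) ℤ}

/-- a term of the weighted theta function -/
noncomputable def tm (B : Matrix (Fin n) (Fin n) ℤ) (a : Fin n → ℤ) (k : ℕ) (s z : ℂ)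
    (x : Fin n → ℤ) : ℂ :=
  ((a ⬝ᵥ (B *ᵥ x) : ℤ) : ℂ) ^ k *
    cexp (-(π * s) * ((x ⬝ᵥ (B *ᵥ x) : ℤ) : ℂ) + 2 * π * z * ((a ⬝ᵥ (B *ᵥ x) : ℤ) : ℂ))

theorem q_nonneg (h : PD (re B)) (x : Fin n → ℤ) : (0 : ℝ) ≤ ((x ⬝ᵥ (B *ᵥ x) : ℤ) : ℝ) := by
  rw [← qr_int]
  by_cases hx : (fun i => (x i : ℝ)) = 0
  · rw [hx]; simp [qr]
  · exact (h _ hx).le

theorem summ_lin (h : PD (re B)) (a : Fin n → ℤ) {t : ℝ} (ht : 0 < t) (c : ℝ) :
    Summable fun x : Fin n → ℤ =>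
      Real.exp (-t * ((x ⬝ᵥ (B *ᵥ x) : ℤ) : ℝ) + c * ((a ⬝ᵥ (B *ᵥ x) : ℤ) : ℝ)) := by
  have := h.summ_real ht (fun i => c * ((a ᵥ* B) i : ℤ))
  refine this.congr fun x => ?_
  rw [qr_int, Matrix.dotProduct_mulVec a]
  congr 2
  simp only [dotProduct, mul_assoc]
  push_cast
  rw [Finset.mul_sum]

theorem tm_bound (h : PD (re B)) (a : Fin n → ℤ) (k : ℕ) {σ : ℝ} (hσ : 0 < σ) (R : ℝ) :
    ∃ u : (Fin n → ℤ) → ℝ, Summable u ∧
      ∀ x s z, σ ≤ s.re → ‖z‖ ≤ R → ‖tm B a k s z x‖ ≤ u x := by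
  have ht : 0 < π * σ := mul_pos Real.pi_pos hσ
  refine ⟨fun x => (k.factorial : ℝ) * (Real.exp (-(π * σ) * ((x ⬝ᵥ (B *ᵥ x) : ℤ) : ℝ) +
      (2 * π * R + 1) * ((a ⬝ᵥ (B *ᵥ x) : ℤ) : ℝ)) + Real.exp (-(π * σ) * ((x ⬝ᵥ (B *ᵥ x) : ℤ) : ℝ) +
      (-(2 * π * R + 1)) * ((a ⬝ᵥ (B *ᵥ x) : ℤ) : ℝ))),
    ((summ_lin h a ht _).add (summ_lin h a ht _)).mul_left _, fun x s z hs hz => ?_⟩
  have h0 := q_nonneg h x
  set q : ℝ := ((x ⬝ᵥ (B *ᵥ x) : ℤ) : ℝ) with hq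
  set l : ℝ := ((a ⬝ᵥ (B *ᵥ x) : ℤ) : ℝ) with hl
  have e1 : ((x ⬝ᵥ (B *ᵥ x) : ℤ) : ℂ) = (q : ℂ) := by rw [hq, ofReal_intCast]
  have e2 : ((a ⬝ᵥ (B *ᵥ x) : ℤ) : ℂ) = (l : ℂ) := by rw [hl, ofReal_intCast]
  rw [tm, e1, e2, norm_mul, norm_pow, Complex.norm_exp, Complex.norm_real, Real.norm_eq_abs]
  have k1 : |l| ^ k ≤ k.factorial * Real.exp |l| := by
    have := Real.pow_div_factorial_le_exp |l| (abs_nonneg l) k
    rwa [div_le_iff₀ (by positivity), mul_comm] at this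
  have k2 : (-(π * s) * (q : ℂ) + 2 * π * z * (l : ℂ)).re ≤ -(π * σ) * q + 2 * π * R * |l| := by
    have : (-(π * s) * (q : ℂ) + 2 * π * z * (l : ℂ)).re = -(π * s.re) * q + 2 * π * (z.re * l) := by
      simp; ring
    rw [this]
    have a1 : z.re * l ≤ R * |l| := by
      refine (le_abs_self _).trans ?_
      rw [abs_mul]
      gcongr
      exact (Complex.abs_re_le_norm z).trans hz
    have a2 : π * σ * q ≤ π * s.re * q := by gcongr
    nlinarith [Real.pi_pos]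
  calc |l| ^ k * Real.exp _ ≤ (k.factorial * Real.exp |l|) *
        Real.exp (-(π * σ) * q + 2 * π * R * |l|) := by gcongr
    _ = k.factorial * Real.exp (-(π * σ) * q + (2 * π * R + 1) * |l|) := by
        rw [mul_assoc, ← Real.exp_add]; congr 2; ring
    _ ≤ _ := by
        refine mul_le_mul_of_nonneg_left ?_ (by positivity)
        rcases abs_cases l with h1 | h1
        · rw [h1.1]; exact le_add_of_nonneg_right (Real.exp_pos _).le
        · rw [h1.1, show (2 * π * R + 1) * -l = -(2 * π * R + 1) * l by ring]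
          exact le_add_of_nonneg_left (Real.exp_pos _).le

/-- the weighted theta function -/
noncomputable def GG (B : Matrix (Fin n) (Fin n) ℤ) (a : Fin n → ℤ) (k : ℕ) (s z : ℂ) : ℂ :=
  ∑' x, tm B a k s z x

theorem tm_summ (h : PD (re B)) (a : Fin n → ℤ) (k : ℕ) {s : ℂ} (hs : 0 < s.re) (z : ℂ) :
    Summable (tm B a k s z) := by
  obtain ⟨u, hu, hb⟩ := tm_bound h a k hs ‖z‖
  exact Summable.of_norm_bounded hu fun x => hb x s z le_rfl le_rfl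

theorem tm_deriv (a : Fin n → ℤ) (k : ℕ) (s z : ℂ) (x : Fin n → ℤ) :
    HasDerivAt (fun z => tm B a k s z x) (2 * π * tm B a (k + 1) s z x) z := by
  unfold tm
  have := (((hasDerivAt_id z).const_mul (2 * π : ℂ)).mul_const ((a ⬝ᵥ (B *ᵥ x) : ℤ) : ℂ)).const_add
    (-(π * s) * ((x ⬝ᵥ (B *ᵥ x) : ℤ) : ℂ))
  refine (this.cexp.const_mul (((a ⬝ᵥ (B *ᵥ x) : ℤ) : ℂ) ^ k)).congr_deriv ?_
  simp only [id]
  ring

theorem GG_deriv (h : PD (re B)) (a : Fin n → ℤ) (k : ℕ) {s : ℂ} (hs : 0 < s.re) (z : ℂ) :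
    HasDerivAt (GG B a k s) (2 * π * GG B a (k + 1) s z) z := by
  obtain ⟨u, hu, hb⟩ := tm_bound h a k hs (‖z‖ + 1)
  have hU : IsOpen (Metric.ball (0 : ℂ) (‖z‖ + 1)) := Metric.isOpen_ball
  have hz : z ∈ Metric.ball (0 : ℂ) (‖z‖ + 1) := by simp
  have hd : ∀ x, DifferentiableOn ℂ (fun z => tm B a k s z x) (Metric.ball (0 : ℂ) (‖z‖ + 1)) :=
    fun x w _ => (tm_deriv a k s w x).differentiableAt.differentiableWithinAt
  have hb' : ∀ x w, w ∈ Metric.ball (0 : ℂ) (‖z‖ + 1) → ‖tm B a k s w x‖ ≤ u x :=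
    fun x w hw => hb x s w le_rfl (by simpa using (mem_ball_zero_iff.1 hw).le)
  have h1 := Complex.hasSum_deriv_of_summable_norm hu hd hU hb' hz
  have h2 := (differentiableOn_tsum_of_summable_norm hu hd hU hb').differentiableAt (hU.mem_nhds hz)
  simp only [(tm_deriv a k s z _).deriv] at h1
  have h3 := h2.hasDerivAt
  rw [← h1.tsum_eq, tsum_mul_left] at h3
  exact h3

theorem T_one_ne (h : PD (re B)) : T B 1 ≠ 0 := by
  have s1 := T_summ h (s := 1) (by simp)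
  have : T B 1 = ((∑' x : Fin n → ℤ, ‖cexp (-(π * 1) * ((x ⬝ᵥ (B *ᵥ x) : ℤ) : ℂ))‖ : ℝ) : ℂ) := by
    rw [ofReal_tsum]
    refine tsum_congr fun x => ?_
    rw [Complex.norm_exp, ofReal_exp]
    congr 1
    simp
  rw [this]
  exact_mod_cast (s1.tsum_pos (fun _ => norm_nonneg _) 0 (by simp)).ne'

theorem GG_zero (a : Fin n → ℤ) (s : ℂ) : GG B a 0 s 0 = T B s := by
  simp [GG, T, tm]

theorem qc_lin (C : Matrix (Fin n) (Fin n) ℤ) (y w : Fin n → ℤ) (c : ℂ) :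
    qc (re C) (fun i => y i + c * w i) = ((y ⬝ᵥ (C *ᵥ y) : ℤ) : ℂ) +
      c * (((y ⬝ᵥ (C *ᵥ w) : ℤ) : ℂ) + ((w ⬝ᵥ (C *ᵥ y) : ℤ) : ℂ)) +
        c ^ 2 * ((w ⬝ᵥ (C *ᵥ w) : ℤ) : ℂ) := by
  simp only [qc, H1.Th.re, dotProduct, mulVec, Finset.mul_sum, map_apply, eq_intCast, mul_add]
  push_cast
  simp only [Finset.mul_sum, ← Finset.sum_add_distrib]
  exact Finset.sum_congr rfl fun i _ => Finset.sum_congr rfl fun j _ => by ring

theorem GG_inv0 (hsymm : B.IsSymm) (h : PD (re B)) (hdet : B.det = 1) (a : Fin n → ℤ) {s : ℂ}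
    (hs : 0 < s.re) (z : ℂ) :
    GG B a 0 s z = 1 / (s ^ (1 / 2 : ℂ)) ^ n *
      (cexp (π * ((a ⬝ᵥ (B *ᵥ a) : ℤ) : ℂ) / s * z ^ 2) * GG B a 0 s⁻¹ (-Complex.I / s * z)) := by
  have hu : IsUnit B.det := by simp [hdet]
  have h1 : B * B⁻¹ = 1 := Matrix.mul_nonsing_inv _ hu
  have h2 : B⁻¹ * B = 1 := Matrix.nonsing_inv_mul _ hu
  obtain ⟨k, hk⟩ := poisson n (re B) (re B⁻¹) (fun i j => by simp [H1.Th.re, hsymm.apply]) h
    (by rw [H1.Th.re, H1.Th.re, ← Matrix.map_mul, h1]; simp)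
  let e : (Fin n → ℤ) ≃ (Fin n → ℤ) := ⟨fun x => B *ᵥ x, fun x => B⁻¹ *ᵥ x,
    fun x => by simp [Matrix.mulVec_mulVec, h2], fun x => by simp [Matrix.mulVec_mulVec, h1]⟩
  have sy : ∀ x y : Fin n → ℤ, (B *ᵥ x) ⬝ᵥ y = x ⬝ᵥ (B *ᵥ y) := fun x y => by
    rw [Matrix.dotProduct_mulVec, ← Matrix.mulVec_transpose, hsymm.eq]
  have key : ∀ s : ℂ, 0 < s.re → ∀ z : ℂ, GG B a 0 s z = k / (s ^ (1 / 2 : ℂ)) ^ n *
      (cexp (π * ((a ⬝ᵥ (B *ᵥ a) : ℤ) : ℂ) / s * z ^ 2) * GG B a 0 s⁻¹ (-Complex.I / s * z)) := by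
    intro s hs z
    have := hk s hs fun i => z * ((B *ᵥ a) i : ℤ)
    simp only [qc_int] at this
    have e0 : GG B a 0 s z = ∑' x : Fin n → ℤ, cexp (-(π * s) * ((x ⬝ᵥ (B *ᵥ x) : ℤ) : ℂ) +
        ∑ i, 2 * π * (z * ((B *ᵥ a) i : ℤ)) * x i) := by
      refine tsum_congr fun x => ?_
      rw [tm, pow_zero, one_mul, ← sy a]
      congr 2
      simp only [dotProduct]
      push_cast
      rw [Finset.mul_sum]
      exact Finset.sum_congr rfl fun i _ => by ring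
    rw [e0, this, ← e.tsum_eq, GG]
    congr 1
    rw [← tsum_mul_left]
    refine tsum_congr fun x => ?_
    have e3 : ∀ x y : Fin n → ℤ, (B *ᵥ x) ⬝ᵥ (B⁻¹ *ᵥ (B *ᵥ y)) = x ⬝ᵥ (B *ᵥ y) := fun x y => by
      rw [Matrix.mulVec_mulVec, h2, Matrix.one_mulVec, sy]
    have e4 := qc_lin B⁻¹ (B *ᵥ x) (B *ᵥ a) (Complex.I * z)
    simp only [e3, mul_assoc] at e4
    rw [show x ⬝ᵥ (B *ᵥ a) = a ⬝ᵥ (B *ᵥ x) by rw [← sy, dotProduct_comm]] at e4
    have e5 : e x = B *ᵥ x := rfl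
    rw [e5, e4, tm, pow_zero, one_mul, ← Complex.exp_add]
    congr 1
    have : Complex.I ^ 2 = -1 := Complex.I_sq
    rw [mul_pow, this]
    ring
  have k1 := key 1 (by simp) 0
  simp only [GG_zero, inv_one, one_cpow, one_pow, div_one, mul_zero, ne_eq, OfNat.ofNat_ne_zero,
    not_false_eq_true, zero_pow, Complex.exp_zero, one_mul] at k1
  have : k = 1 := by
    apply mul_right_cancel₀ (T_one_ne h)
    rw [← k1, one_mul]
  rw [key s hs, this]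

theorem GG_inv2 (hsymm : B.IsSymm) (h : PD (re B)) (hdet : B.det = 1) (a : Fin n → ℤ) {s : ℂ}
    (hs : 0 < s.re) :
    GG B a 2 s 0 = 1 / (s ^ (1 / 2 : ℂ)) ^ n *
      (((a ⬝ᵥ (B *ᵥ a) : ℤ) : ℂ) / (2 * π * s) * T B s⁻¹ - s⁻¹ ^ 2 * GG B a 2 s⁻¹ 0) := by
  have hs' : 0 < (s⁻¹).re := by
    rw [Complex.inv_re]
    exact div_pos hs (Complex.normSq_pos.2 fun h0 => by simp [h0] at hs)
  have hs0 : s ≠ 0 := fun h0 => by simp [h0] at hs
  set c := 1 / (s ^ (1 / 2 : ℂ)) ^ n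
  set A := π * ((a ⬝ᵥ (B *ᵥ a) : ℤ) : ℂ) / s with hA
  set d := -Complex.I / s with hd
  have dE : ∀ z : ℂ, HasDerivAt (fun z : ℂ => cexp (A * z ^ 2)) (cexp (A * z ^ 2) * (A * (2 * z))) z :=
    fun z => by simpa using ((hasDerivAt_pow 2 z).const_mul A).cexp
  have dG : ∀ (k : ℕ) (z : ℂ), HasDerivAt (fun z => GG B a k s⁻¹ (d * z))
      (2 * π * GG B a (k + 1) s⁻¹ (d * z) * d) z := fun k z => by
    have := (GG_deriv h a k hs' (d * z)).comp z ((hasDerivAt_id z).const_mul d)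
    rw [mul_one] at this
    exact this
  have e1 : ∀ z, 2 * π * GG B a 1 s z = c * (cexp (A * z ^ 2) * (A * (2 * z)) * GG B a 0 s⁻¹ (d * z) +
      cexp (A * z ^ 2) * (2 * π * GG B a 1 s⁻¹ (d * z) * d)) := fun z => by
    have k1 := GG_deriv h a 0 hs z
    rw [show GG B a 0 s = fun z => c * (cexp (A * z ^ 2) * GG B a 0 s⁻¹ (d * z)) from
      funext (GG_inv0 hsymm h hdet a hs)] at k1
    exact k1.unique (((dE z).mul (dG 0 z)).const_mul c)
  have k1 := (GG_deriv h a 1 hs 0).const_mul (2 * π : ℂ)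
  simp only [e1] at k1
  have k2 := k1.unique (((((dE 0).mul (((hasDerivAt_id (0 : ℂ)).const_mul 2).const_mul A)).mul
    (dG 0 0)).add ((dE 0).mul (((dG 1 0).const_mul (2 * π : ℂ)).mul_const d))).const_mul c)
  simp only [id, mul_zero, ne_eq, OfNat.ofNat_ne_zero, not_false_eq_true, zero_pow,
    Complex.exp_zero, zero_mul, zero_add, one_mul, mul_one, Pi.mul_apply, add_zero, GG_zero,
    Nat.reduceAdd] at k2
  have hp : (π : ℂ) ≠ 0 := by exact_mod_cast Real.pi_ne_zero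
  apply mul_left_cancel₀ (show (2 * π * (2 * π) : ℂ) ≠ 0 by simp [hp])
  rw [mul_assoc, k2, hA, hd]
  have : Complex.I ^ 2 = -1 := Complex.I_sq
  field_simp
  rw [this]
  ring

open UpperHalfPlane ModularForm MatrixGroups
open scoped Manifold

/-- harmonic weight -/
def wt (B : Matrix (Fin n) (Fin n) ℤ) (a c x : Fin n → ℤ) : ℤ :=
  c ⬝ᵥ (B *ᵥ c) * (a ⬝ᵥ (B *ᵥ x)) ^ 2 - a ⬝ᵥ (B *ᵥ a) * (c ⬝ᵥ (B *ᵥ x)) ^ 2

/-- harmonic theta function -/
noncomputable def HH (B : Matrix (Fin n) (Fin n) ℤ) (a c : Fin n → ℤ) (s : ℂ) : ℂ :=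
  ((c ⬝ᵥ (B *ᵥ c) : ℤ) : ℂ) * GG B a 2 s 0 - ((a ⬝ᵥ (B *ᵥ a) : ℤ) : ℂ) * GG B c 2 s 0

theorem HH_sum (h : PD (re B)) (a c : Fin n → ℤ) {s : ℂ} (hs : 0 < s.re) :
    HasSum (fun x => (wt B a c x : ℂ) * cexp (-(π * s) * ((x ⬝ᵥ (B *ᵥ x) : ℤ) : ℂ))) (HH B a c s) := by
  refine (((tm_summ h a 2 hs 0).hasSum.mul_left _).sub
    ((tm_summ h c 2 hs 0).hasSum.mul_left _)).congr_fun fun x => ?_
  simp only [wt, tm, mul_zero, zero_mul, add_zero]
  push_cast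
  ring

/-- harmonic theta series -/
noncomputable def th2 (B : Matrix (Fin n) (Fin n) ℤ) (a c : Fin n → ℤ) (τ : ℍ) : ℂ :=
  HH B a c (-Complex.I * τ)

theorem th2_q (h : PD (re B)) (heven : ∀ x : Fin n → ℤ, (2 : ℤ) ∣ x ⬝ᵥ (B *ᵥ x))
    (a c : Fin n → ℤ) (τ : ℍ) :
    HasSum (fun m : ℕ => (∑' x : {x : Fin n → ℤ | x ⬝ᵥ (B *ᵥ x) = 2 * m}, (wt B a c x : ℂ)) •
      Function.Periodic.qParam 1 (τ : ℂ) ^ m) (th2 B a c τ) := by
  have h0 : ∀ x : Fin n → ℤ, 0 ≤ x ⬝ᵥ (B *ᵥ x) := fun x => by exact_mod_cast q_nonneg h x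
  have hs : 0 < (-Complex.I * τ).re := by simpa using τ.im_pos
  have := (HH_sum h a c hs).tsum_fiberwise fun x => (x ⬝ᵥ (B *ᵥ x) / 2).toNat
  refine this.congr_fun fun m => ?_
  have e : (fun x : Fin n → ℤ => (x ⬝ᵥ (B *ᵥ x) / 2).toNat) ⁻¹' {m} =
      {x : Fin n → ℤ | x ⬝ᵥ (B *ᵥ x) = 2 * m} := by
    ext x
    have := h0 x
    have := heven x
    simp only [Set.mem_preimage, Set.mem_singleton_iff, Set.mem_ofPred_eq]
    omega
  rw [e, smul_eq_mul, ← tsum_mul_right]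
  refine tsum_congr ?_
  rintro ⟨x, hx⟩
  simp only [Set.mem_ofPred_eq] at hx
  simp only [hx, Function.Periodic.qParam, ← Complex.exp_nat_mul]
  congr 2
  push_cast
  ring

theorem GG_holo (h : PD (re B)) (a : Fin n → ℤ) (k : ℕ) :
    DifferentiableOn ℂ (fun z => GG B a k (-Complex.I * z) 0) {z | 0 < z.im} := by
  intro z hz
  have hz' : 0 < z.im := hz
  have hU : IsOpen {w : ℂ | z.im / 2 < w.im} := isOpen_lt continuous_const continuous_im
  obtain ⟨u, hu, hb⟩ := tm_bound h a k (σ := z.im / 2) (by linarith) 0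
  have := differentiableOn_tsum_of_summable_norm (U := {w : ℂ | z.im / 2 < w.im})
    (F := fun (x : Fin n → ℤ) w => tm B a k (-Complex.I * w) 0 x) hu
    (fun x => by unfold tm; fun_prop) hU
    fun x w hw => hb x _ _ (by simpa using (show z.im / 2 < w.im from hw).le) (by simp)
  exact (this.differentiableAt (hU.mem_nhds (show z.im / 2 < z.im by linarith))).differentiableWithinAt

theorem th2_holo (h : PD (re B)) (a c : Fin n → ℤ) : MDifferentiable 𝓘(ℂ) 𝓘(ℂ) (th2 B a c) := by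
  rw [UpperHalfPlane.mdifferentiable_iff]
  have : DifferentiableOn ℂ (fun z => HH B a c (-Complex.I * z)) {z | 0 < z.im} :=
    ((GG_holo h a 2).const_mul _).sub ((GG_holo h c 2).const_mul _)
  refine this.congr fun z hz => ?_
  simp [th2, ofComplex_apply_of_im_pos hz]

/-- harmonic theta as a modular form -/
noncomputable def th2MF {B : Matrix (Fin 24) (Fin 24) ℤ} (hsymm : B.IsSymm)
    (hpos : ∀ x : Fin 24 → ℤ, x ≠ 0 → 0 < x ⬝ᵥ (B *ᵥ x))
    (heven : ∀ x : Fin 24 → ℤ, (2 : ℤ) ∣ x ⬝ᵥ (B *ᵥ x)) (hdet : B.det = 1) (a c : Fin 24 → ℤ) :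
    ModularForm 𝒮ℒ 14 :=
  have h := pd_re hsymm hpos hdet
  have hS : th2 B a c ∣[(14 : ℤ)] ModularGroup.S = th2 B a c := by
    ext z
    have hs : 0 < (-Complex.I * z).re := by simpa using z.im_pos
    have hz : (z : ℂ) ≠ 0 := ne_zero z
    have e : ((-Complex.I * z) ^ (1 / 2 : ℂ)) ^ 24 = (z : ℂ) ^ 12 := by
      rw [show 24 = 2 * 12 by rfl, pow_mul, ← Complex.cpow_nat_mul]
      norm_num
      rw [mul_pow, show 12 = 4 * 3 by rfl, pow_mul, I_pow_four]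
      simp
    suffices HH B a c (-Complex.I * -(z : ℂ)⁻¹) * ((z : ℂ) ^ 14)⁻¹ = HH B a c (-Complex.I * z) by
      rw [SL_slash_apply, UpperHalfPlane.modular_S_smul, ModularGroup.denom_S]
      simpa [th2]
    have e2 : (-Complex.I * z)⁻¹ = -Complex.I * -(z : ℂ)⁻¹ := by
      rw [mul_inv, inv_neg, Complex.inv_I]; ring
    rw [HH, HH, GG_inv2 hsymm h hdet a hs, GG_inv2 hsymm h hdet c hs, e, e2]
    have : (-Complex.I * -(z : ℂ)⁻¹) ^ 2 = -((z : ℂ) ^ 2)⁻¹ := by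
      rw [neg_mul_neg, mul_pow, Complex.I_sq]; ring
    rw [this]
    field_simp
    ring
  have hT : th2 B a c ∣[(14 : ℤ)] ModularGroup.T = th2 B a c := by
    ext z
    have k1 := th2_q h heven a c z
    have k2 := th2_q h heven a c ((1 : ℝ) +ᵥ z)
    have : Function.Periodic.qParam 1 (((1 : ℝ) +ᵥ z : ℍ) : ℂ) = Function.Periodic.qParam 1 z := by
      simp only [Function.Periodic.qParam, coe_vadd, ← exp_periodic (2 * π * Complex.I * z / (1 : ℝ))]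
      congr 1
      push_cast
      ring
    rw [this] at k2
    rw [SL_slash_apply, ModularGroup.denom_apply, modular_T_smul, k2.unique k1, ModularGroup.coe_T]
    simp
  { toFun := th2 B a c
    slash_action_eq' := fun A hA => by
      obtain ⟨A, rfl⟩ := hA
      exact SlashInvariantForm.slash_action_generators_SL2Z hS hT A
    holo' := th2_holo h a c
    bdd_at_cusps' := fun hc => by
      rw [Subgroup.IsArithmetic.isCusp_iff_isCusp_SL2Z] at hc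
      rw [OnePoint.isBoundedAt_iff_forall_SL2Z hc]
      intro γ _
      rw [SlashInvariantForm.slash_action_generators_SL2Z hS hT]
      exact isBoundedAtImInfty_of_hasSum_qExpansion one_pos (th2_q h heven a c) }

/-- **Venkov's identity.** -/
theorem venkov {B : Matrix (Fin 24) (Fin 24) ℤ} (hsymm : B.IsSymm)
    (hpos : ∀ x : Fin 24 → ℤ, x ≠ 0 → 0 < x ⬝ᵥ (B *ᵥ x))
    (heven : ∀ x : Fin 24 → ℤ, (2 : ℤ) ∣ x ⬝ᵥ (B *ᵥ x)) (hdet : B.det = 1) (a c : Fin 24 → ℤ) :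
    ∑' x : {x : Fin 24 → ℤ | x ⬝ᵥ (B *ᵥ x) = 2 * ((1 : ℕ) : ℤ)}, (wt B a c x : ℂ) = 0 := by
  have h := pd_re hsymm hpos hdet
  have hc := ModularFormClass.qExpansion_coeff_unique one_pos one_mem_strictPeriods_SL
    (f := th2MF hsymm hpos heven hdet a c) (th2_q h heven a c)
  have h0 : (qExpansion 1 (th2MF hsymm hpos heven hdet a c)).coeff 0 = 0 := by
    rw [← hc 0]
    refine (tsum_congr (g := fun _ => 0) ?_).trans tsum_zero
    rintro ⟨x, hx⟩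
    simp only [Set.mem_ofPred_eq] at hx
    have : x = 0 := by_contra fun h0 => by
      have := hpos x h0
      omega
    simp [wt, this]
  have h1 := qExpansion_eq_qExpansion_discriminant_mul _ h0
  have h2 : CuspForm.discriminantEquiv (toCuspForm _ h0) = 0 :=
    rank_zero_iff_forall_zero.mp levelOne_weight_two_rank_zero _
  rw [h2] at h1
  rw [hc 1, h1]
  simp [qExpansion_zero]

theorem no_A1 {B : Matrix (Fin 24) (Fin 24) ℤ} (hsymm : B.IsSymm)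
    (hpos : ∀ x : Fin 24 → ℤ, x ≠ 0 → 0 < x ⬝ᵥ (B *ᵥ x))
    (heven : ∀ x : Fin 24 → ℤ, (2 : ℤ) ∣ x ⬝ᵥ (B *ᵥ x)) (hdet : B.det = 1) (a c : Fin 24 → ℤ)
    (ha : a ≠ 0) (hac : a ⬝ᵥ (B *ᵥ c) = 0) (hc : c ⬝ᵥ (B *ᵥ c) = 2)
    (hr : ∀ x, x ⬝ᵥ (B *ᵥ x) = 2 → x = c ∨ x = -c) : False := by
  have h := venkov hsymm hpos heven hdet a c
  have hne : c ≠ -c := fun h => by
    have : c = 0 := by
      ext i
      have := congrFun h i
      simp only [Pi.neg_apply] at this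
      simp only [Pi.zero_apply]
      omega
    simp [this] at hc
  have e : {x : Fin 24 → ℤ | x ⬝ᵥ (B *ᵥ x) = 2 * ((1 : ℕ) : ℤ)} = ({c, -c} : Finset (Fin 24 → ℤ)) := by
    ext x
    simp only [Set.mem_ofPred_eq, Finset.coe_insert, Finset.coe_singleton, Set.mem_insert_iff,
      Set.mem_singleton_iff]
    refine ⟨fun hx => hr x (by simpa using hx), ?_⟩
    rintro (rfl | rfl)
    · simpa using hc
    · simpa [Matrix.mulVec_neg] using hc
  rw [e, Finset.tsum_subtype' _ (fun x => (wt B a c x : ℂ)), Finset.sum_pair hne] at h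
  have h' : wt B a c c + wt B a c (-c) = 0 := by exact_mod_cast h
  simp only [wt, Matrix.mulVec_neg, dotProduct_neg, hac, hc] at h'
  have := hpos a ha
  norm_num at h'
  omega

end H21.F23
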