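import Cfsg.Agent.H21.F23R3
import Cfsg.Agent.H21.F23S
import Cfsg.Agent.H21.F23V

/-!
Gluing to an even unimodular lattice of rank 24.
-/

set_option autoImplicit false
set_option linter.unusedSectionVars false

namespace H21.F23
open Module Submodule LinearMap Matrix

theorem gram {W : Type*} [AddCommGroup W] [Module ℚ W] {B : LinearMap.BilinForm ℚ W} (hB : PDF B)
    {n : ℕ} {L : Submodule ℤ W} (hL : Lat n L) (h1 : L ≤ dual B L) (h2 : dual B L ≤ L) :
    ∃ (A : Matrix (Fin n) (Fin n) ℤ) (Φ : (Fin n → ℤ) ≃+ L), A.IsSymm ∧ A.det = 1 ∧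
      ∀ a a', B (Φ a) (Φ a') = ((a ⬝ᵥ (A *ᵥ a') : ℤ) : ℚ) := by
  obtain ⟨b, hb⟩ := hL
  obtain ⟨A, hA⟩ := gram_int hb h1
  have := b.finiteDimensional_of_finite
  have hA' : ∀ i j, B (b i) (b j) = A i j := fun i j => by
    simpa using congrFun (congrFun hA i) j
  have hd : ∀ i, ∃ c : Fin n → ℤ, ∑ j, c j • b j = B.dualBasis hB.nondeg b i := fun i => by
    rw [← mem_span_range_iff_exists_fun, ← hb]
    refine h2 ?_
    rw [hb, dual, BilinForm.dualSubmodule_span_of_basis B hB.nondeg b]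
    exact subset_span ⟨i, rfl⟩
  choose C hC using hd
  have hCA : Matrix.of C * A = 1 := by
    ext i k
    have := BilinForm.apply_dualBasis_left hB.nondeg b i k
    rw [← hC] at this
    simp only [map_sum, map_zsmul, LinearMap.sum_apply, LinearMap.smul_apply, hA', zsmul_eq_mul]
      at this
    rw [Matrix.mul_apply, Matrix.one_apply]
    apply Int.cast_injective (α := ℚ)
    push_cast
    simp only [Matrix.of_apply, this, eq_comm]
  have hp := gram_pos hB b
  rw [hA, ← RingHom.mapMatrix_apply, ← RingHom.map_det] at hp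
  have hp' : 0 < A.det := by simpa using hp
  subst hb
  refine ⟨A, (b.restrictScalars ℤ).equivFun.symm.toAddEquiv, ?_, ?_, fun a a' => ?_⟩
  · ext i j
    apply Int.cast_injective (α := ℚ)
    rw [Matrix.transpose_apply, ← hA', ← hA', hB.symm]
  · rcases Int.isUnit_iff.1 (Matrix.isUnit_det_of_left_inverse hCA) with h | h <;> omega
  · simp only [LinearEquiv.coe_toAddEquiv, LinearEquiv.coe_addEquiv_apply, Basis.equivFun_symm_apply,
      Submodule.coe_sum, Submodule.coe_smul_of_tower, Basis.restrictScalars_apply, map_sum,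
      map_zsmul, LinearMap.sum_apply, LinearMap.smul_apply, hA', zsmul_eq_mul, dotProduct,
      Matrix.mulVec, Finset.mul_sum]
    push_cast
    rw [Finset.sum_comm]
    exact Finset.sum_congr rfl fun i _ => Finset.sum_congr rfl fun j _ => by ring

variable {V : Type*} [AddCommGroup V] [Module ℚ V] [FiniteDimensional ℚ V]
variable {G : Type*} [Group G] {σ : G →* End ℚ V} {B : LinearMap.BilinForm ℚ V}

/-- the form on `V × ℚ` -/
def B24 (B : LinearMap.BilinForm ℚ V) (D : ℕ) : LinearMap.BilinForm ℚ (V × ℚ) :=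
  LinearMap.mk₂ ℚ (fun w w' => B w.1 w'.1 + w.2 * w'.2 / D)
    (fun _ _ _ => by simp; ring) (fun _ _ _ => by simp; ring)
    (fun _ _ _ => by simp; ring) (fun _ _ _ => by simp; ring)

theorem B24_apply (D : ℕ) (w w' : V × ℚ) : B24 B D w w' = B w.1 w'.1 + w.2 * w'.2 / D := rfl

theorem PDF.b24 (hB : PDF B) {D : ℕ} (hD : 0 < D) : PDF (B24 B D) := by
  refine ⟨fun u v => by rw [B24_apply, B24_apply, hB.symm, mul_comm], fun w hw => ?_⟩
  rw [B24_apply]
  by_cases h1 : w.1 = 0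
  · have : w.2 ≠ 0 := fun h2 => hw (Prod.ext h1 h2)
    have := mul_self_pos.2 this
    rw [h1, map_zero]
    positivity
  · exact add_pos_of_pos_of_nonneg (hB.pos _ h1) (div_nonneg (mul_self_nonneg _) (by positivity))

/-- the glued lattice -/
def glue (L : Submodule ℤ V) (v : V) : Submodule ℤ (V × ℚ) where
  carrier := {w | ∃ k : ℤ, w.2 = k ∧ w.1 - k • v ∈ L}
  zero_mem' := ⟨0, by simp, by simp⟩
  add_mem' := by
    rintro a b ⟨k, h1, h2⟩ ⟨k', h1', h2'⟩
    refine ⟨k + k', by simp [h1, h1'], ?_⟩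
    convert add_mem h2 h2' using 1
    simp only [Prod.fst_add]
    module
  smul_mem' := by
    rintro c a ⟨k, h1, h2⟩
    refine ⟨c * k, by simp [h1], ?_⟩
    convert smul_mem L c h2 using 1
    simp only [Prod.smul_fst]
    module

variable {x : G} {L : Submodule ℤ V} {v : V} {D : ℕ}

theorem mem_glue {w : V × ℚ} : w ∈ glue L v ↔ ∃ k : ℤ, w.2 = k ∧ w.1 - k • v ∈ L := Iff.rfl

theorem EL.glue_b (E : EL σ B x L v D) (j : ℤ) : ((0 : V), (D * j : ℚ)) ∈ glue L v :=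
  ⟨D * j, by simp, by
    rw [zero_sub]; exact neg_mem ((E.ord _).2 (Dvd.intro _ rfl))⟩

theorem EL.glue_lat (E : EL σ B x L v D) (hB : PDF B) : Lat 24 (glue L v) := by
  refine lat_of (by rw [Module.finrank_prod, E.lat.finrank, finrank_self])
    (((E.lat.dual hB).fg.prod (fg_span_singleton (1 : ℚ))).of_le ?_) (eq_top_iff.2 fun w _ => ?_)
  · rintro w ⟨k, h1, h2⟩
    refine ⟨?_, mem_span_singleton.2 ⟨k, by simp [h1]⟩⟩
    simpa using add_mem (even_int hB E.even h2) (smul_mem _ k E.mem)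
  · obtain ⟨m, hm, h1⟩ := E.lat.den w.1
    have k1 : ((m : ℤ) • w.1, (0 : ℚ)) ∈ glue L v := ⟨0, by simp, by simpa using h1⟩
    have hm' : (m : ℚ) ≠ 0 := by exact_mod_cast hm.ne'
    have hD : (D : ℚ) ≠ 0 := by exact_mod_cast E.pos.ne'
    convert add_mem (smul_mem _ (m : ℚ)⁻¹ (subset_span (R := ℚ) k1))
      (smul_mem _ (w.2 / D) (subset_span (R := ℚ) (E.glue_b 1))) using 1
    ext
    · simp [← Nat.cast_smul_eq_nsmul ℚ, smul_smul, hm']
    · simp [hD]

theorem EL.glue_even (E : EL σ B x L v D) (hB : PDF B) (hN : B v v = 23 / D) (hD : D ∣ 12) :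
    ∀ w ∈ glue L v, IsZ (B24 B D w w / 2) := by
  rintro ⟨y, t⟩ ⟨k, rfl, h2⟩
  obtain ⟨e, he⟩ := hD
  have hD : (D : ℚ) ≠ 0 := by exact_mod_cast E.pos.ne'
  have he' : (12 : ℚ) = D * e := by exact_mod_cast he
  obtain ⟨l, rfl⟩ : ∃ l, y = l + k • v := ⟨y - k • v, by simp⟩
  rw [add_sub_cancel_right] at h2
  convert ((E.even _ h2).add ((isZ_int k).mul (mem_dual.1 E.mem _ h2))).add
    (((isZ_int k).mul (isZ_int k)).mul (isZ_nat e)) using 1
  simp only [B24_apply, map_add, map_zsmul, LinearMap.add_apply, LinearMap.smul_apply, hN,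
    hB.symm l v, zsmul_eq_mul]
  field_simp
  linear_combination (2 * (k : ℚ) ^ 2) * he'

theorem EL.glue_dual (E : EL σ B x L v D) (hB : PDF B) (hN : B v v = 23 / D) (hD : D ∣ 12) :
    dual (B24 B D) (glue L v) ≤ glue L v := by
  rintro ⟨y, t⟩ hw
  have hD0 : (D : ℚ) ≠ 0 := by exact_mod_cast E.pos.ne'
  obtain ⟨j, hj⟩ := E.gen y (mem_dual.2 fun l hl => by
    simpa [B24_apply] using mem_dual.1 hw (l, 0) ⟨0, by simp, by simpa using hl⟩)
  have k1 : (y, (j : ℚ)) ∈ glue L v := ⟨j, rfl, hj⟩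
  obtain ⟨z, hz⟩ := mem_dual.1 (sub_mem hw (even_int (hB.b24 E.pos) (E.glue_even hB hN hD) k1))
    (v, 1) ⟨1, by simp, by simp⟩
  simp only [B24_apply, Prod.mk_sub_mk, sub_self, map_zero, LinearMap.zero_apply, zero_add,
    mul_one] at hz
  convert add_mem k1 (E.glue_b z) using 1
  ext
  · simp
  · rw [← hz]
    simp only [Prod.snd_add]
    field_simp
    ring

open Classical in
/-- the sign -/
noncomputable def EL.sg (E : EL σ B x L v D) (g : G) : ℚ := if g ∈ E.gam then 1 else -1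

theorem EL.sg_or (E : EL σ B x L v D) (g : G) : E.sg g = 1 ∨ E.sg g = -1 := by
  unfold EL.sg; split_ifs <;> simp

theorem EL.mul_mem_iff (E : EL σ B x L v D) (hs : ∀ g, σ g v - v ∈ L ∨ σ g v + v ∈ L) (g h : G) :
    g * h ∈ E.gam ↔ (g ∈ E.gam ↔ h ∈ E.gam) := by
  by_cases h1 : g ∈ E.gam
  · simp [h1, E.gam.mul_mem_cancel_left h1]
  by_cases h2 : h ∈ E.gam
  · simp [h2, E.gam.mul_mem_cancel_right h2]
  simp only [h1, h2, iff_true, E.mem_gam]
  have := sub_mem (E.inv g _ ((hs h).resolve_left h2)) ((hs g).resolve_left h1)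
  convert this using 1
  rw [map_add, s_mul]
  abel

/-- the twisted action -/
noncomputable def EL.tau (E : EL σ B x L v D) (hs : ∀ g, σ g v - v ∈ L ∨ σ g v + v ∈ L) :
    G →* End ℚ (V × ℚ) where
  toFun g := LinearMap.prodMap (E.sg g • σ g) LinearMap.id
  map_one' := by
    rw [map_one, EL.sg, if_pos E.gam.one_mem, one_smul]
    exact LinearMap.prodMap_id
  map_mul' g h := by
    have : E.sg (g * h) = E.sg g * E.sg h := by
      by_cases h1 : g ∈ E.gam <;> by_cases h2 : h ∈ E.gam <;> simp [EL.sg, E.mul_mem_iff hs, h1, h2]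
    refine LinearMap.ext fun w => Prod.ext ?_ rfl
    simp [this, smul_smul, mul_comm]

theorem EL.tau_apply (E : EL σ B x L v D) (hs : ∀ g, σ g v - v ∈ L ∨ σ g v + v ∈ L) (g : G)
    (w : V × ℚ) : E.tau hs g w = (E.sg g • σ g w.1, w.2) := rfl

theorem EL.tau_inv (E : EL σ B x L v D) (hs : ∀ g, σ g v - v ∈ L ∨ σ g v + v ∈ L) (hI : Inv σ B) :
    Inv (E.tau hs) (B24 B D) := fun g u w => by
  simp only [E.tau_apply, B24_apply, map_smul, LinearMap.smul_apply, hI g, smul_eq_mul]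
  rcases E.sg_or g with h | h <;> simp [h]

theorem EL.tau_linv (E : EL σ B x L v D) (hs : ∀ g, σ g v - v ∈ L ∨ σ g v + v ∈ L) :
    LInv (E.tau hs) (glue L v) := by
  rintro g w ⟨k, h1, h2⟩
  refine ⟨k, h1, ?_⟩
  simp only [E.tau_apply, EL.sg]
  split_ifs with hg
  · convert add_mem (E.inv g _ h2) (smul_mem L k hg) using 1
    simp only [map_sub, map_zsmul]
    module
  · convert neg_mem (add_mem (E.inv g _ h2) (smul_mem L k ((hs g).resolve_left hg))) using 1
    simp only [map_sub, map_zsmul]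
    module

theorem EL.rs [Finite G] (E : EL σ B x L v D) (h : St σ B)
    (hidx : ∀ H : Subgroup G, H.index ≠ 23 ∧ H.index ≠ 24) : RS σ B L :=
  ⟨h.pd, h.inv, h.dim, E.inv, E.even, fun _ hy => mem_dual.1 (even_int h.pd E.even hy),
    fun _ _ h1 h2 h3 => h.small hidx h1 h2 h3⟩

theorem EL.glue_root [Finite G] (E : EL σ B x L v D) (h : St σ B)
    (hidx : ∀ H : Subgroup G, H.index ≠ 23 ∧ H.index ≠ 24) (hN : B v v = 23 / D) (hD : D ∣ 12)
    (hs : ∀ g, σ g v - v ∈ L ∨ σ g v + v ∈ L) {w : V × ℚ} (hw : Rt (B24 B D) (glue L v) w) :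
    w.1 = 0 := by
  have R := E.rs h hidx
  have pd := h.pd.b24 E.pos
  have h0 : ∀ u, Rt (B24 B D) (glue L v) u → u.2 ≠ 0 := by
    rintro u ⟨⟨k, h1, h2⟩, h3⟩ h4
    have : k = 0 := by rw [h4] at h1; exact_mod_cast h1.symm
    refine R.no_root u.1 ⟨by simpa [this] using h2, by simpa [B24_apply, h4] using h3⟩
  by_contra hw1
  let S := {u | Rt (B24 B D) (glue L v) u ∧ u.2 = w.2}
  have li : LinearIndependent ℚ (Subtype.val : S → V × ℚ) :=
    LinearMap.BilinForm.linearIndependent_of_pairwise_le_zero (B24 B D) (fun u hu => pd.pos u hu)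
      (w.2 • LinearMap.snd ℚ V ℚ) _ (fun u => by
        simpa [u.2.2] using h0 w hw) fun u u' huu => by
        obtain ⟨z, hz⟩ := mem_dual.1 (even_int pd (E.glue_even h.pd hN hD) u.2.1.1) _ u'.2.1.1
        have k1 : B24 B D (u.1 - u'.1) (u.1 - u'.1) = 4 - 2 * z := by
          simp only [map_sub, LinearMap.sub_apply, u.2.1.2, u'.2.1.2, pd.symm u'.1 u.1, hz]
          ring
        have k2 := pd.pos _ (sub_ne_zero.2 fun h => huu (Subtype.ext h))
        have k3 : z ≠ 1 := by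
          rintro rfl
          exact h0 _ ⟨sub_mem u.2.1.1 u'.2.1.1, by rw [k1]; norm_num⟩ (by simp [u.2.2, u'.2.2])
        have k4 : z < 2 := by
          have : (z : ℚ) < 2 := by linarith
          exact_mod_cast this
        rw [hz]
        exact_mod_cast (by omega : z ≤ 0)
  have := li.finite
  have := Fintype.ofFinite S
  have k7 := li.fintype_card_le_finrank
  rw [← Nat.card_eq_fintype_card, Module.finrank_prod, h.dim, finrank_self] at k7
  refine R.no_lines (ι := S) k7 (fun u => u.1.1) hw1 fun g =>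
    ⟨⟨E.tau hs g w, ⟨E.tau_linv hs g w hw.1, by rw [E.tau_inv hs h.inv, hw.2]⟩, rfl⟩, ?_⟩
  simp only [E.tau_apply]
  rcases E.sg_or g with h | h <;> simp [h]

theorem exists_glue [Finite G] (h : St σ B)
    (hidx : ∀ H : Subgroup G, H.index ≠ 23 ∧ H.index ≠ 24) :
    ∃ (A : Matrix (Fin 24) (Fin 24) ℤ) (τ : G →* Equiv.Perm (Fin 24 → ℤ)) (b : Fin 24 → ℤ)
      (ε : G →* Multiplicative (ZMod 2)), A.IsSymm ∧ A.det = 1 ∧
      (∀ a, a ≠ 0 → 0 < a ⬝ᵥ (A *ᵥ a)) ∧ (∀ a, (2 : ℤ) ∣ a ⬝ᵥ (A *ᵥ a)) ∧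
      (∀ a, a ⬝ᵥ (A *ᵥ a) ≠ 2) ∧ (∀ g a a', τ g (a + a') = τ g a + τ g a') ∧ (∀ g a, τ g a ⬝ᵥ (A *ᵥ τ g a) = a ⬝ᵥ (A *ᵥ a)) ∧
      (∀ g, τ g b = b) ∧ (b ⬝ᵥ (A *ᵥ b) = 4 ∨ b ⬝ᵥ (A *ᵥ b) = 6) ∧
      ∀ g, ε g = 1 → τ g = 1 → g = 1 := by
  classical
  obtain ⟨c, hc, L0, hL0⟩ := exists_ML h
  replace h := h.smul hc
  generalize c • B = B at h hL0
  obtain ⟨x, hx, hx1⟩ := h.exists_x
  obtain ⟨L, v, D, E⟩ := exists_EL h hL0 hx hx1
  obtain ⟨hN, hD, hs⟩ := E.six h hx hx1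
  have hD12 : D ∣ 12 := by rcases hD with rfl | rfl | rfl | rfl <;> norm_num
  have pd := h.pd.b24 E.pos
  have ev := E.glue_even h.pd hN hD12
  obtain ⟨A, Φ, a1, a2, a3⟩ := gram pd (E.glue_lat h.pd) (even_int pd ev) (E.glue_dual h.pd hN hD12)
  have rt := fun w => E.glue_root h hidx hN hD12 hs (w := w)
  have a4 : ∀ a, a ≠ 0 → 0 < a ⬝ᵥ (A *ᵥ a) := fun a ha => by
    have := pd.pos (Φ a) (by simpa using ha)
    rw [a3] at this
    exact_mod_cast this
  have a5 : ∀ a, (2 : ℤ) ∣ a ⬝ᵥ (A *ᵥ a) := fun a => by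
    obtain ⟨z, hz⟩ := ev _ (Φ a).2
    rw [a3] at hz
    refine ⟨z, ?_⟩
    apply Int.cast_injective (α := ℚ)
    push_cast at hz ⊢
    linarith
  have hD0 : (D : ℚ) ≠ 0 := by exact_mod_cast E.pos.ne'
  let b := Φ.symm ⟨_, E.glue_b 1⟩
  have hb : b ⬝ᵥ (A *ᵥ b) = D := by
    apply Int.cast_injective (α := ℚ)
    rw [← a3]
    simp [b, B24_apply, hD0]
  have r1 : ∀ a, a ⬝ᵥ (A *ᵥ a) = 2 → D = 2 ∧ (a = b ∨ a = -b) := fun a ha => by
    have k1 : B24 B D (Φ a) (Φ a) = 2 := by rw [a3, ha]; rfl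
    have k2 := rt _ ⟨(Φ a).2, k1⟩
    obtain ⟨k, k3, k4⟩ := (Φ a).2
    rw [k2, zero_sub, neg_mem_iff, E.ord] at k4
    obtain ⟨j, rfl⟩ := k4
    rw [B24_apply, k2, k3, map_zero, zero_add] at k1
    have k5 : D * j ^ 2 = 2 := by
      have : (D : ℚ) * j ^ 2 = 2 := by
        rw [← k1]; push_cast; field_simp
      exact_mod_cast this
    have k6 : D = 2 := by rcases hD with rfl | rfl | rfl | rfl <;> omega
    refine ⟨k6, ?_⟩
    have k7 : j = 1 ∨ j = -1 := by
      rw [k6] at k5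
      exact sq_eq_one_iff.1 (by omega)
    refine k7.imp (fun hj => ?_) fun hj => ?_
    · rw [AddEquiv.eq_symm_apply]
      exact Subtype.ext (Prod.ext k2 (by rw [k3, hj]; simp))
    · rw [← map_neg, AddEquiv.eq_symm_apply]
      exact Subtype.ext (Prod.ext (by simpa using k2) (by rw [k3, hj]; simp))
  have d2 : D ≠ 2 := fun hD2 => by
    obtain ⟨m, hm, h1⟩ := E.lat.den v
    refine no_A1 a1 a4 a5 a2 (Φ.symm ⟨((m : ℤ) • v, 0), 0, by simp, by simpa using h1⟩) b ?_ ?_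
      (by rw [hb, hD2]; rfl) fun a ha => (r1 a ha).2
    · rw [Ne, AddEquiv.symm_apply_eq, map_zero, Subtype.ext_iff, Prod.ext_iff]
      simp [← Nat.cast_smul_eq_nsmul ℚ, hm.ne', E.ne]
    · apply Int.cast_injective (α := ℚ)
      rw [← a3]
      simp [b, B24_apply]
  have d12 : D ≠ 12 := by
    rintro rfl
    exact E.ne (rt (v, 1) ⟨⟨1, by simp, by simp⟩, by rw [B24_apply, hN]; norm_num⟩)
  let τ0 : G →* Equiv.Perm (glue L v) :=
    { toFun := fun g =>
        { toFun := fun w => ⟨E.tau hs g w, E.tau_linv hs g _ w.2⟩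
          invFun := fun w => ⟨E.tau hs g⁻¹ w, E.tau_linv hs _ _ w.2⟩
          left_inv := fun w => Subtype.ext (s_inv _ _ _)
          right_inv := fun w => Subtype.ext (s_inv' _ _ _) }
      map_one' := Equiv.ext fun w => Subtype.ext (by
        change E.tau hs 1 w = w
        rw [map_one]; rfl)
      map_mul' := fun g g' => Equiv.ext fun w => Subtype.ext (s_mul _ _ _ _).symm }
  refine ⟨A, (Equiv.permCongrHom Φ.symm.toEquiv).toMonoidHom.comp τ0, b,
    { toFun := fun g => if g ∈ E.gam then 1 else Multiplicative.ofAdd 1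
      map_one' := if_pos E.gam.one_mem
      map_mul' := fun g g' => by
        by_cases h1 : g ∈ E.gam <;> by_cases h2 : g' ∈ E.gam <;> simp [E.mul_mem_iff hs, h1, h2]
        rfl }, a1, a2, a4, a5, fun a ha => d2 (r1 a ha).1, fun g a a' => ?_, fun g a => ?_,
    fun g => ?_, by rw [hb]; omega, fun g h1 h2 => ?_⟩
  · change Φ.symm (τ0 g (Φ (a + a'))) = Φ.symm (τ0 g (Φ a)) + Φ.symm (τ0 g (Φ a'))
    rw [← map_add, map_add Φ]
    exact congrArg _ (Subtype.ext (map_add (E.tau hs g) _ _))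
  · apply Int.cast_injective (α := ℚ)
    rw [← a3, ← a3]
    change B24 B D (Φ (Φ.symm (τ0 g (Φ a)))) (Φ (Φ.symm (τ0 g (Φ a)))) = _
    rw [AddEquiv.apply_symm_apply]
    exact E.tau_inv hs h.inv g _ _
  · change Φ.symm (τ0 g (Φ (Φ.symm _))) = Φ.symm _
    rw [AddEquiv.apply_symm_apply]
    exact congrArg _ (Subtype.ext (Prod.ext (by simp [τ0, E.tau_apply]) rfl))
  · have hg : g ∈ E.gam := by
      by_contra hg
      simp only [MonoidHom.coe_mk, OneHom.coe_mk, hg, if_false] at h1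
      exact absurd h1 (by decide)
    refine h.inj (LinearMap.ext fun y => ?_)
    obtain ⟨m, hm, h3⟩ := E.lat.den y
    have k := DFunLike.congr_fun h2 (Φ.symm ⟨((m : ℤ) • y, 0), 0, by simp, by simpa using h3⟩)
    change Φ.symm (τ0 g (Φ (Φ.symm _))) = Φ.symm _ at k
    rw [AddEquiv.apply_symm_apply] at k
    have k2 : E.sg g • σ g ((m : ℤ) • y) = (m : ℤ) • y :=
      congrArg (fun w : glue L v => w.1.1) (Φ.symm.injective k)
    rw [EL.sg, if_pos hg, one_smul, map_zsmul, ← Int.cast_smul_eq_zsmul ℚ,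
      ← Int.cast_smul_eq_zsmul ℚ] at k2
    rw [map_one]
    exact smul_right_injective V (by exact_mod_cast hm.ne') k2

end H21.F23
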