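import Mathlib

/-!
Lattices in rational positive definite quadratic spaces.
-/

set_option autoImplicit false
set_option linter.unusedSectionVars false

namespace H21.F23
open Module Submodule LinearMap

variable {V : Type*} [AddCommGroup V] [Module ℚ V]

/-- positive definite symmetric form -/
structure PDF (B : LinearMap.BilinForm ℚ V) : Prop where
  symm : ∀ u v, B u v = B v u
  pos : ∀ v, v ≠ 0 → 0 < B v v

/-- integer -/
def IsZ (r : ℚ) : Prop := ∃ z : ℤ, r = z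

theorem IsZ.add {a b : ℚ} (ha : IsZ a) (hb : IsZ b) : IsZ (a + b) := by
  obtain ⟨x, rfl⟩ := ha; obtain ⟨y, rfl⟩ := hb; exact ⟨x + y, by push_cast; rfl⟩
theorem IsZ.sub {a b : ℚ} (ha : IsZ a) (hb : IsZ b) : IsZ (a - b) := by
  obtain ⟨x, rfl⟩ := ha; obtain ⟨y, rfl⟩ := hb; exact ⟨x - y, by push_cast; rfl⟩
theorem IsZ.mul {a b : ℚ} (ha : IsZ a) (hb : IsZ b) : IsZ (a * b) := by
  obtain ⟨x, rfl⟩ := ha; obtain ⟨y, rfl⟩ := hb; exact ⟨x * y, by push_cast; rfl⟩
theorem IsZ.neg {a : ℚ} (ha : IsZ a) : IsZ (-a) := by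
  obtain ⟨x, rfl⟩ := ha; exact ⟨-x, by push_cast; rfl⟩
theorem isZ_int (z : ℤ) : IsZ z := ⟨z, rfl⟩
theorem isZ_nat (z : ℕ) : IsZ z := ⟨z, by simp⟩
theorem isZ_zero : IsZ 0 := ⟨0, by simp⟩
theorem isZ_sum {ι : Type*} (s : Finset ι) {f : ι → ℚ} (h : ∀ i ∈ s, IsZ (f i)) :
    IsZ (∑ i ∈ s, f i) :=
  Finset.sum_induction f IsZ (fun _ _ => IsZ.add) isZ_zero h

variable {B : LinearMap.BilinForm ℚ V} {n : ℕ}

theorem PDF.nonneg (h : PDF B) (v : V) : 0 ≤ B v v := by
  by_cases hv : v = 0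
  · simp [hv]
  · exact (h.pos v hv).le

theorem PDF.eq_zero (h : PDF B) {v : V} (hv : B v v = 0) : v = 0 :=
  by_contra fun h0 => (h.pos v h0).ne' hv

theorem PDF.isSymm (h : PDF B) : B.IsSymm := ⟨h.symm⟩

theorem PDF.nondeg (h : PDF B) : B.Nondegenerate :=
  ⟨fun v hv => h.eq_zero (hv v), fun v hv => h.eq_zero (hv v)⟩

theorem PDF.smul (h : PDF B) {c : ℚ} (hc : 0 < c) : PDF (c • B) :=
  ⟨fun u v => by simp [h.symm u v], fun v hv => by simpa using mul_pos hc (h.pos v hv)⟩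

/-- Cauchy–Schwarz -/
theorem PDF.cs (h : PDF B) (u v : V) : B u v ^ 2 ≤ B u u * B v v := by
  by_cases hv : v = 0
  · simp [hv]
  have h1 := h.pos v hv
  have h2 := h.nonneg (B v v • u - B u v • v)
  simp only [map_sub, map_smul, LinearMap.sub_apply, LinearMap.smul_apply, smul_eq_mul,
    h.symm v u] at h2
  nlinarith

/-- dual lattice -/
def dual (B : LinearMap.BilinForm ℚ V) (L : Submodule ℤ V) : Submodule ℤ V := B.dualSubmodule L

theorem mem_dual {L : Submodule ℤ V} {y : V} : y ∈ dual B L ↔ ∀ l ∈ L, IsZ (B y l) := by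
  simp only [dual, BilinForm.mem_dualSubmodule, Submodule.mem_one, IsZ, eq_intCast, algebraMap_int_eq]
  exact forall₂_congr fun l _ => exists_congr fun z => eq_comm

theorem dual_anti {L M : Submodule ℤ V} (h : L ≤ M) : dual B M ≤ dual B L :=
  fun _ hy => mem_dual.2 fun l hl => mem_dual.1 hy l (h hl)

/-- full lattice -/
def Lat (n : ℕ) (L : Submodule ℤ V) : Prop := ∃ b : Basis (Fin n) ℚ V, L = span ℤ (Set.range b)

theorem Lat.finrank {L : Submodule ℤ V} (h : Lat n L) : finrank ℚ V = n := by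
  obtain ⟨b, -⟩ := h
  simpa using finrank_eq_card_basis b

theorem Lat.fg {L : Submodule ℤ V} (h : Lat n L) : L.FG := by
  obtain ⟨b, rfl⟩ := h
  exact fg_span (Set.finite_range _)

theorem Lat.span_top {L : Submodule ℤ V} (h : Lat n L) : span ℚ (L : Set V) = ⊤ := by
  obtain ⟨b, rfl⟩ := h
  rw [span_span_of_tower, b.span_eq]

theorem lat_of (hn : finrank ℚ V = n) {L : Submodule ℤ V} (hfg : L.FG)
    (hs : span ℚ (L : Set V) = ⊤) : Lat n L := by
  have : IsLattice ℚ L := ⟨hfg, hs⟩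
  have hr : finrank ℤ L = n := by
    rw [← hn, finrank, finrank, IsLattice.rank' ℚ L]
  let b := Module.finBasisOfFinrankEq ℤ L hr
  refine ⟨b.extendOfIsLattice ℚ, ?_⟩
  have : Set.range (b.extendOfIsLattice ℚ) = L.subtype '' Set.range b := by
    rw [← Set.range_comp]
    congr 1
    ext i
    simp
  rw [this, ← Submodule.map_span, b.span_eq, Submodule.map_top, range_subtype]

theorem Lat.between {L M N : Submodule ℤ V} (hL : Lat n L) (hN : Lat n N) (h1 : L ≤ M)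
    (h2 : M ≤ N) : Lat n M := by
  refine lat_of hL.finrank ?_ (eq_top_iff.2 (hL.span_top ▸ span_mono h1))
  have : Module.Finite ℤ N := Module.Finite.iff_fg.2 hN.fg
  have : IsNoetherian ℤ M := isNoetherian_of_le h2
  exact Module.Finite.iff_fg.1 inferInstance

theorem Lat.dual (hB : PDF B) {L : Submodule ℤ V} (h : Lat n L) : Lat n (dual B L) := by
  obtain ⟨b, rfl⟩ := h
  have := b.finiteDimensional_of_finite
  exact ⟨_, BilinForm.dualSubmodule_span_of_basis B hB.nondeg b⟩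

theorem Lat.dual_dual (hB : PDF B) {L : Submodule ℤ V} (h : Lat n L) :
    F23.dual B (F23.dual B L) = L := by
  obtain ⟨b, rfl⟩ := h
  exact BilinForm.dualSubmodule_dualSubmodule_of_basis B hB.nondeg hB.isSymm b

theorem Lat.mem_of (hB : PDF B) {L : Submodule ℤ V} (h : Lat n L) {y : V}
    (hy : ∀ u ∈ F23.dual B L, IsZ (B y u)) : y ∈ L := by
  rw [← h.dual_dual hB]
  exact mem_dual.2 hy

theorem Lat.den {L : Submodule ℤ V} (h : Lat n L) (v : V) : ∃ m : ℕ, 0 < m ∧ (m : ℤ) • v ∈ L := by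
  have hv : v ∈ span ℚ (L : Set V) := h.span_top ▸ mem_top
  induction hv using span_induction with
  | mem x hx => exact ⟨1, one_pos, by simpa using hx⟩
  | zero => exact ⟨1, one_pos, by simp⟩
  | add x y _ _ hx hy =>
    obtain ⟨a, ha, hx⟩ := hx
    obtain ⟨b, hb, hy⟩ := hy
    refine ⟨a * b, mul_pos ha hb, ?_⟩
    rw [smul_add, Nat.cast_mul]
    refine add_mem ?_ ?_
    · rw [mul_comm, mul_smul]; exact smul_mem _ _ hx
    · rw [mul_smul]; exact smul_mem _ _ hy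
  | smul c x _ hx =>
    obtain ⟨a, ha, hx⟩ := hx
    refine ⟨c.den * a, mul_pos c.den_pos ha, ?_⟩
    have : ((c.den * a : ℕ) : ℤ) • c • x = c.num • (a : ℤ) • x := by
      rw [← Int.cast_smul_eq_zsmul ℚ, ← Int.cast_smul_eq_zsmul ℚ, ← Int.cast_smul_eq_zsmul ℚ,
        smul_smul, smul_smul, ← Rat.mul_den_eq_num]
      congr 1
      push_cast
      ring
    rw [this]
    exact smul_mem _ _ hx

/-- scaled lattice `c⁻¹ L` -/
def sc (c : ℚ) (L : Submodule ℤ V) : Submodule ℤ V :=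
  L.comap ((c • LinearMap.id : V →ₗ[ℚ] V).restrictScalars ℤ)

theorem mem_sc {c : ℚ} {L : Submodule ℤ V} {y : V} : y ∈ sc c L ↔ c • y ∈ L := Iff.rfl

theorem sc_span {c : ℚ} (hc : c ≠ 0) (b : Basis (Fin n) ℚ V) :
    sc c (span ℤ (Set.range b)) =
      span ℤ (Set.range (b.unitsSMul fun _ => (Units.mk0 c hc)⁻¹)) := by
  ext y
  simp only [mem_sc, mem_span_range_iff_exists_fun, Basis.unitsSMul_apply, Units.smul_def,
    Units.val_inv_eq_inv_val, Units.val_mk0]
  refine exists_congr fun f => ?_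
  simp only [smul_comm (f _) c⁻¹, ← Finset.smul_sum]
  exact ⟨fun h => by rw [h, smul_smul, inv_mul_cancel₀ hc, one_smul],
    fun h => by rw [← h, smul_smul, mul_inv_cancel₀ hc, one_smul]⟩

theorem Lat.sc {L : Submodule ℤ V} (h : Lat n L) {c : ℚ} (hc : c ≠ 0) : Lat n (sc c L) := by
  obtain ⟨b, rfl⟩ := h
  exact ⟨_, sc_span hc b⟩

/-- index of lattices -/
noncomputable def idx (L M : Submodule ℤ V) : ℕ := L.toAddSubgroup.relIndex M.toAddSubgroup

theorem idx_det {L M : Submodule ℤ V} (h : L ≤ M) {b c : Basis (Fin n) ℚ V}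
    (hL : L = span ℤ (Set.range b)) (hM : M = span ℤ (Set.range c)) :
    (idx L M : ℚ) = |c.det b| :=
  AddSubgroup.relIndex_eq_abs_det _ _ h b c (by rw [hL, span_int_eq_addSubgroupClosure])
    (by rw [hM, span_int_eq_addSubgroupClosure])

theorem idx_pos {L M : Submodule ℤ V} (h : L ≤ M) (hL : Lat n L) (hM : Lat n M) : 0 < idx L M := by
  obtain ⟨b, hb⟩ := hL
  obtain ⟨c, hc⟩ := hM
  have := idx_det h hb hc
  have h2 : 0 < |c.det b| := abs_pos.2 (c.isUnit_det b).ne_zero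
  rw [← this] at h2
  exact_mod_cast h2

theorem idx_sc {L : Submodule ℤ V} (hL : Lat n L) {q : ℕ} (hq : q ≠ 0) :
    idx L (sc q L) = q ^ n := by
  obtain ⟨b, rfl⟩ := hL
  have hq' : (q : ℚ) ≠ 0 := by exact_mod_cast hq
  have := idx_det (fun y hy => mem_sc.2 (by
    rw [Nat.cast_smul_eq_nsmul]; exact nsmul_mem hy q)) rfl (sc_span hq' b)
  rw [Basis.det_unitsSMul] at this
  simp only [Finset.prod_const, Finset.card_univ, Fintype.card_fin, inv_pow, inv_inv,
    Units.val_pow_eq_pow_val, Units.val_mk0, AlternatingMap.smul_apply, Basis.det_self,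
    smul_eq_mul, mul_one, abs_pow, Nat.abs_cast] at this
  exact_mod_cast this

theorem eq_of_idx_one {L M : Submodule ℤ V} (h : L ≤ M) (h1 : idx L M = 1) : L = M :=
  le_antisymm h (AddSubgroup.relIndex_eq_one.1 h1)

/-- discriminant -/
def Disc (n : ℕ) (B : LinearMap.BilinForm ℚ V) (L : Submodule ℤ V) (d : ℚ) : Prop :=
  ∃ b : Basis (Fin n) ℚ V, L = span ℤ (Set.range b) ∧ (LinearMap.BilinForm.toMatrix b B).det = d

theorem Lat.disc {L : Submodule ℤ V} (h : Lat n L) (B : LinearMap.BilinForm ℚ V) :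
    ∃ d, Disc n B L d := by
  obtain ⟨b, hb⟩ := h
  exact ⟨_, b, hb, rfl⟩

theorem det_change (b c : Basis (Fin n) ℚ V) :
    (LinearMap.BilinForm.toMatrix b B).det = c.det b ^ 2 * (LinearMap.BilinForm.toMatrix c B).det := by
  rw [← LinearMap.BilinForm.toMatrix_mul_basis_toMatrix c b, Matrix.det_mul, Matrix.det_mul,
    Matrix.det_transpose, Basis.det_apply]
  ring

theorem Disc.idx {L M : Submodule ℤ V} {d e : ℚ} (hL : Disc n B L d) (hM : Disc n B M e)
    (h : L ≤ M) : d = (idx L M : ℚ) ^ 2 * e := by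
  obtain ⟨b, hb, rfl⟩ := hL
  obtain ⟨c, hc, rfl⟩ := hM
  rw [idx_det h hb hc, sq_abs, det_change]

theorem Disc.smul {L : Submodule ℤ V} {d : ℚ} (hL : Disc n B L d) (c : ℚ) :
    Disc n (c • B) L (c ^ n * d) := by
  obtain ⟨b, hb, rfl⟩ := hL
  exact ⟨b, hb, by rw [map_smul, Matrix.det_smul, Fintype.card_fin]⟩

theorem gram_pos (hB : PDF B) (b : Basis (Fin n) ℚ V) : 0 < (LinearMap.BilinForm.toMatrix b B).det := by
  have := b.finiteDimensional_of_finite
  obtain ⟨e, he⟩ := LinearMap.BilinForm.exists_orthogonal_basis (B := B) ⟨hB.symm⟩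
  have hn : finrank ℚ V = n := by simpa using finrank_eq_card_basis b
  subst hn
  rw [det_change b e]
  refine mul_pos ?_ ?_
  · exact sq_pos_of_ne_zero (e.isUnit_det b).ne_zero
  · have : LinearMap.BilinForm.toMatrix e B = Matrix.diagonal fun i => B (e i) (e i) := by
      ext i j
      rw [LinearMap.BilinForm.toMatrix_apply]
      by_cases h : i = j
      · simp [h]
      · rw [Matrix.diagonal_apply_ne _ h]; exact he h
    rw [this, Matrix.det_diagonal]
    exact Finset.prod_pos fun i _ => hB.pos _ (e.ne_zero i)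

theorem gram_int {L : Submodule ℤ V} {b : Basis (Fin n) ℚ V} (hb : L = span ℤ (Set.range b))
    (hi : L ≤ dual B L) :
    ∃ A : Matrix (Fin n) (Fin n) ℤ, LinearMap.BilinForm.toMatrix b B = A.map (Int.castRingHom ℚ) := by
  have : ∀ i j, IsZ (B (b i) (b j)) := fun i j =>
    mem_dual.1 (hi (hb ▸ subset_span ⟨i, rfl⟩)) _ (hb ▸ subset_span ⟨j, rfl⟩)
  choose A hA using this
  exact ⟨Matrix.of A, by ext i j; simp [hA]⟩

theorem Disc.nat (hB : PDF B) {L : Submodule ℤ V} {d : ℚ} (hL : Disc n B L d) (hi : L ≤ dual B L) :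
    ∃ m : ℕ, 0 < m ∧ d = m := by
  obtain ⟨b, hb, rfl⟩ := hL
  have hp := gram_pos hB b
  obtain ⟨A, hA⟩ := gram_int hb hi
  rw [hA, ← RingHom.mapMatrix_apply, ← RingHom.map_det] at hp ⊢
  simp only [eq_intCast] at hp ⊢
  have hp' : 0 < A.det := by exact_mod_cast hp
  exact ⟨A.det.toNat, by omega, by
    rw [← Int.cast_natCast, Int.toNat_of_nonneg hp'.le]⟩

theorem Lat.exists_scale {L : Submodule ℤ V} (h : Lat n L) (B : LinearMap.BilinForm ℚ V) :
    ∃ c : ℚ, 0 < c ∧ L ≤ F23.dual (c • B) L := by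
  obtain ⟨b, rfl⟩ := h
  refine ⟨∏ p : Fin n × Fin n, (B (b p.1) (b p.2)).den,
    Finset.prod_pos fun p _ => by exact_mod_cast (B (b p.1) (b p.2)).den_pos, ?_⟩
  intro y hy
  rw [mem_dual]
  intro l hl
  obtain ⟨f, rfl⟩ := (mem_span_range_iff_exists_fun _).1 hy
  obtain ⟨g, rfl⟩ := (mem_span_range_iff_exists_fun _).1 hl
  simp only [map_sum, map_zsmul, LinearMap.sum_apply, LinearMap.smul_apply, zsmul_eq_mul,
    smul_eq_mul]
  refine isZ_sum _ fun j _ => (isZ_int _).mul (isZ_sum _ fun i _ => (isZ_int _).mul ?_)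
  rw [← Finset.mul_prod_erase _ _ (Finset.mem_univ (i, j)), mul_comm, ← mul_assoc,
    Rat.mul_den_eq_num, ← Nat.cast_prod]
  exact (isZ_int _).mul (isZ_nat _)

/-- a lattice meets a line in a cyclic group -/
theorem Lat.line (hB : PDF B) {L : Submodule ℤ V} (h : Lat n L) {a : V} (ha : a ≠ 0) :
    ∃ v ∈ L, v ≠ 0 ∧ v ∈ span ℚ {a} ∧ ∀ y ∈ L, y ∈ span ℚ {a} → ∃ k : ℤ, y = k • v := by
  obtain ⟨m, hm, hu⟩ := (h.dual hB).den a
  obtain ⟨m', hm', hu'⟩ := h.den a
  let S : AddSubgroup ℤ :=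
    { carrier := {z | ∃ y ∈ L, y ∈ span ℚ {a} ∧ B ((m : ℤ) • a) y = z}
      zero_mem' := ⟨0, zero_mem _, zero_mem _, by simp⟩
      add_mem' := by
        rintro _ _ ⟨y, h1, h2, h3⟩ ⟨y', h1', h2', h3'⟩
        exact ⟨y + y', add_mem h1 h1', add_mem h2 h2', by rw [map_add, h3, h3']; simp⟩
      neg_mem' := by
        rintro _ ⟨y, h1, h2, h3⟩
        exact ⟨-y, neg_mem h1, neg_mem h2, by rw [map_neg, h3]; simp⟩ }
  obtain ⟨g, hg⟩ := Int.subgroup_cyclic S
  obtain ⟨v, h1, h2, h3⟩ : g ∈ S := hg ▸ AddSubgroup.subset_closure rfl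
  have key : ∀ y ∈ L, y ∈ span ℚ {a} → ∃ k : ℤ, y = k • v := by
    intro y hy hy2
    obtain ⟨z, hz⟩ := mem_dual.1 hu y hy
    have : z ∈ S := ⟨y, hy, hy2, hz⟩
    rw [hg, AddSubgroup.mem_closure_singleton] at this
    obtain ⟨k, rfl⟩ := this
    refine ⟨k, sub_eq_zero.1 ?_⟩
    obtain ⟨t, ht⟩ := mem_span_singleton.1 (sub_mem hy2 (zsmul_mem h2 k))
    have e : B ((m : ℤ) • a) (y - k • v) = 0 := by
      rw [map_sub, map_zsmul (B _), hz, h3]; simp
    rw [← ht] at e ⊢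
    simp only [map_zsmul, map_smul, LinearMap.smul_apply, smul_eq_mul, zsmul_eq_mul, mul_eq_zero,
      Int.cast_natCast, Nat.cast_eq_zero, hm.ne', (hB.pos a ha).ne', or_false] at e
    simp [e]
  refine ⟨v, h1, fun hv => ?_, h2, key⟩
  obtain ⟨k, hk⟩ := key _ hu' (zsmul_mem (mem_span_singleton_self a) _)
  rw [hv, smul_zero, ← Int.cast_smul_eq_zsmul ℚ, smul_eq_zero] at hk
  rcases hk with hk | hk
  · exact hm'.ne' (by exact_mod_cast hk)
  · exact ha hk

end H21.F23
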