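import Mathlib

/-!
An isometry of order 23 of a small nondegenerate symmetric space over a prime field is trivial.
-/

set_option autoImplicit false

namespace H21.F23
open Module LinearMap

theorem alt_even {F U : Type*} [Field F] [AddCommGroup U] [Module F U] [FiniteDimensional F U]
    (ω : LinearMap.BilinForm F U) (halt : ∀ v, ω v v = 0) (hnd : ∀ v, (∀ u, ω u v = 0) → v = 0) :
    Even (finrank F U) := by
  by_contra hn
  rw [Nat.not_even_iff_odd] at hn
  have hs : ∀ u v, ω u v = -ω v u := fun u v => by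
    have := halt (u + v)
    simp only [map_add, LinearMap.add_apply, halt, zero_add, add_zero] at this
    linear_combination this
  let b := Module.finBasis F U
  let P : Matrix (Fin (finrank F U)) (Fin (finrank F U))
      (MvPolynomial (Fin (finrank F U) × Fin (finrank F U)) ℤ) := Matrix.of fun i j =>
    if i < j then MvPolynomial.X (i, j) else if j < i then -MvPolynomial.X (j, i) else 0
  have h1 : P.det = 0 := by
    have : P.transpose = -P := by
      ext1 i j
      rcases lt_trichotomy i j with h | rfl | h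
      · simp [P, h, h.not_gt]
      · simp [P]
      · simp [P, h, h.not_gt]
    have h2 := congrArg Matrix.det this
    rw [Matrix.det_transpose, Matrix.det_neg, Fintype.card_fin, hn.neg_one_pow, neg_one_mul] at h2
    exact CharZero.eq_neg_self_iff.1 h2
  let φ := MvPolynomial.eval₂Hom (Int.castRingHom F)
    fun p : Fin (finrank F U) × Fin (finrank F U) => ω (b p.1) (b p.2)
  have h2 : φ.mapMatrix P = LinearMap.BilinForm.toMatrix b ω := by
    ext i j
    rcases lt_trichotomy i j with h | rfl | h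
    · simp [P, φ, h]
    · simp [P, φ, halt]
    · simp [P, φ, h, h.not_gt, hs (b i) (b j)]
  refine (LinearMap.BilinForm.nondegenerate_iff_det_ne_zero b).1
    ⟨fun v hv => hnd v fun u => by rw [hs, hv, neg_zero], hnd⟩ ?_
  rw [← h2, ← RingHom.map_det, h1, map_zero]

theorem qa {q : ℕ} [hq : Fact q.Prime] (h10 : ∀ k, 0 < k → k ≤ 10 → ¬ q ^ k ≡ 1 [MOD 23])
    (h23 : q ≠ 23) {A : Type*} [AddCommGroup A] [Module (ZMod q) A] [Finite A]
    (hc : Nat.card A ^ 2 ≤ q ^ 23) (β : LinearMap.BilinForm (ZMod q) A) (hs : ∀ u v, β u v = β v u)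
    (hnd : ∀ v, (∀ u, β u v = 0) → v = 0) (X : End (ZMod q) A) (hX : X ^ 23 = 1)
    (hβ : ∀ u v, β (X u) (X v) = β u v) : X = 1 := by
  classical
  have := Fintype.ofFinite A
  have : Fact (Nat.Prime 23) := ⟨by norm_num⟩
  have c1 : Nat.card A = q ^ finrank (ZMod q) A := by
    rw [Module.natCard_eq_pow_finrank (K := ZMod q), Nat.card_zmod]
  have c2 : Nat.card (ker (X - 1)) = q ^ finrank (ZMod q) (ker (X - 1)) := by
    rw [Module.natCard_eq_pow_finrank (K := ZMod q), Nat.card_zmod]
  have hXX : ∀ v, (X ^ 23) v = v := fun v => by rw [hX]; rfl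
  have c3 := Equiv.Perm.card_fixedPoints_modEq (f := (X : A → A)) (p := 23) (n := 1) (by
    funext v
    rw [pow_one]
    refine Eq.trans ?_ (hXX v)
    rw [Module.End.pow_apply]
    rfl)
  rw [← Nat.card_eq_fintype_card, ← Nat.card_eq_fintype_card, c1,
    show Nat.card (Function.fixedPoints (X : A → A)) = Nat.card (ker (X - 1)) from
      Nat.card_congr (Equiv.setCongr (by
        ext v
        simp [Function.IsFixedPt, sub_eq_zero])), c2] at c3
  have r1 := (ker (X - 1)).finrank_le
  rw [c1, ← pow_mul, Nat.pow_le_pow_iff_right hq.out.one_lt] at hc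
  obtain ⟨k, hk⟩ := Nat.exists_eq_add_of_le r1
  have c4 : q ^ k ≡ 1 [MOD 23] := by
    rw [hk, pow_add] at c3
    refine Nat.ModEq.cancel_left_of_coprime (c := q ^ finrank (ZMod q) (ker (X - 1))) ?_
      (by rwa [mul_one])
    exact Nat.Coprime.pow_right _ ((Nat.coprime_primes (by norm_num) hq.out).2 h23.symm)
  by_cases k0 : k = 0
  · rw [← sub_eq_zero, ← ker_eq_top]
    exact Submodule.eq_top_of_finrank_eq (by omega)
  exfalso
  have k1 : ¬ k ≤ 10 := fun h => h10 k (by omega) h c4
  have k2 : ker (X - 1) = ⊥ := Submodule.finrank_eq_zero.1 (by omega)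
  have e : ∀ v, X ((X ^ 22) v) = v := fun v => by rw [← End.mul_apply, ← pow_succ', hXX]
  have := alt_even (β.compRight (X - X ^ 22)) (fun v => by
    simp only [BilinForm.compRight_apply, LinearMap.sub_apply, map_sub]
    rw [← hβ v ((X ^ 22) v), e, hs, sub_self]) fun v hv => by
      have h1 := sub_eq_zero.1 (hnd _ hv)
      have h2 : (X ^ 2) v = v := by rw [pow_two, End.mul_apply, h1, e]
      have h3 : ∀ m, ((X ^ 2) ^ m) v = v := fun m => by
        induction m with
        | zero => rfl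
        | succ m ih => rw [pow_succ, End.mul_apply, h2, ih]
      have h4 := h3 12
      rw [← pow_mul, pow_succ', End.mul_apply, hXX] at h4
      exact (eq_bot_iff.1 k2) (sub_eq_zero.2 h4)
  rw [show finrank (ZMod q) A = 11 by omega] at this
  exact absurd this (by decide)

theorem qa2 {q : ℕ} [hq : Fact q.Prime] (h10 : ∀ k, 0 < k → k ≤ 10 → ¬ q ^ k ≡ 1 [MOD 23])
    (h23 : q ≠ 23) {A : Type*} [AddCommGroup A] [Finite A] [Module (ZMod q) A]
    (hc : Nat.card A ^ 2 ≤ q ^ 23) (β : A →+ A →+ ZMod q) (hs : ∀ u v, β u v = β v u)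
    (hnd : ∀ v, (∀ u, β u v = 0) → v = 0) (X : AddMonoid.End A) (hX : X ^ 23 = 1)
    (hβ : ∀ u v, β (X u) (X v) = β u v) (v : A) : X v = v := by
  let X2 : End (ZMod q) A := AddMonoidHom.toZModLinearMap q X
  have hX3 : ∀ (k : ℕ) (v : A), (X2 ^ k) v = (X ^ k) v := fun k => by
    induction k with
    | zero => exact fun v => rfl
    | succ k ih => exact fun v => by rw [pow_succ, End.mul_apply, ih, pow_succ]; rfl
  have := qa h10 h23 hc (LinearMap.mk₂ (ZMod q) (fun a b => β a b)
    (fun a a' b => map_add (β.flip b) _ _) (fun c a b => ZMod.map_smul (β.flip b) _ _)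
    (fun a b b' => map_add _ _ _) (fun c a b => ZMod.map_smul _ _ _)) hs hnd X2
    (LinearMap.ext fun v => by rw [hX3, hX]; rfl) hβ
  exact LinearMap.congr_fun this v

theorem qa' {q : ℕ} [hq : Fact q.Prime] (h10 : ∀ k, 0 < k → k ≤ 10 → ¬ q ^ k ≡ 1 [MOD 23])
    (h23 : q ≠ 23) {M : Type*} [AddCommGroup M] (N : AddSubgroup M) (h0 : N.index ≠ 0)
    (hc : N.index ^ 2 ≤ q ^ 23) (β : M →+ M →+ ZMod q) (hs : ∀ u v, β u v = β v u)
    (hN : ∀ v, v ∈ N ↔ ∀ u, β u v = 0) (X : AddMonoid.End M) (hX : X ^ 23 = 1)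
    (hβ : ∀ u v, β (X u) (X v) = β u v) (v : M) : X v - v ∈ N := by
  have : Finite (M ⧸ N) := Nat.finite_of_card_ne_zero h0
  have hz : ∀ a : M ⧸ N, q • a = 0 := fun a => by
    obtain ⟨a, rfl⟩ := QuotientAddGroup.mk_surjective a
    rw [← QuotientAddGroup.mk_nsmul, QuotientAddGroup.eq_zero_iff, hN]
    intro u
    rw [map_nsmul, nsmul_eq_mul, ZMod.natCast_self, zero_mul]
  let β1 : (M ⧸ N) →+ M →+ ZMod q := QuotientAddGroup.lift N β fun u hu =>
    AddMonoidHom.ext fun v => (hs u v).trans ((hN u).1 hu v)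
  let β2 : (M ⧸ N) →+ (M ⧸ N) →+ ZMod q := QuotientAddGroup.lift N β1.flip fun u hu =>
    AddMonoidHom.ext fun v => by
      obtain ⟨v, rfl⟩ := QuotientAddGroup.mk_surjective v
      exact (hN u).1 hu v
  have e : ∀ v, X ((X ^ 22) v) = v := fun v => by
    change (X * X ^ 22) v = v
    rw [← pow_succ', hX]; rfl
  let X2 : AddMonoid.End (M ⧸ N) := QuotientAddGroup.map N N X fun v hv => (hN _).2 fun u => by
    rw [← e u]
    exact (hβ _ _).trans ((hN v).1 hv _)
  have hX2 : ∀ v : M, X2 v = (X v : M) := fun v => rfl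
  have hX3 : ∀ (k : ℕ) (v : M), (X2 ^ k) v = ((X ^ k) v : M) := fun k => by
    induction k with
    | zero => exact fun v => rfl
    | succ k ih => exact fun v => by rw [pow_succ, pow_succ]; exact ih (X v)
  have := @qa2 q _ h10 h23 _ _ _ (AddCommGroup.zmodModule hz) hc β2 (fun u v => by
    obtain ⟨u, rfl⟩ := QuotientAddGroup.mk_surjective u
    obtain ⟨v, rfl⟩ := QuotientAddGroup.mk_surjective v
    exact hs v u) (fun v hv => by
    obtain ⟨v, rfl⟩ := QuotientAddGroup.mk_surjective v
    exact (QuotientAddGroup.eq_zero_iff _).2 ((hN v).2 fun u => (hs _ _).trans (hv u))) X2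
    (AddMonoidHom.ext fun v => by
    obtain ⟨v, rfl⟩ := QuotientAddGroup.mk_surjective v
    exact (hX3 23 v).trans (by rw [hX]; rfl)) (fun u v => by
    obtain ⟨u, rfl⟩ := QuotientAddGroup.mk_surjective u
    obtain ⟨v, rfl⟩ := QuotientAddGroup.mk_surjective v
    exact hβ v u) v
  rwa [← QuotientAddGroup.eq_iff_sub_mem, ← hX2]

end H21.F23
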