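import Cfsg.Agent.H21.F23B
import Cfsg.Agent.H21.F23Q

/-!
The invariant integral lattice of minimal discriminant.
-/

set_option autoImplicit false
set_option linter.unusedSectionVars false

namespace H21.F23
open Module Submodule LinearMap

variable {V : Type*} [AddCommGroup V] [Module ℚ V] [FiniteDimensional ℚ V]
variable {G : Type*} [Group G] {σ : G →* End ℚ V} {B : LinearMap.BilinForm ℚ V}

/-- minimal lattice -/
structure ML (σ : G →* End ℚ V) (B : LinearMap.BilinForm ℚ V) (L : Submodule ℤ V) : Prop where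
  lat : Lat 23 L
  inv : LInv σ L
  int : L ≤ dual B L
  m1 : ∀ M, LInv σ M → L ≤ M → M ≤ dual B M → M ≤ L
  m2 : ∀ q : ℕ, q ≠ 0 → idx L (dual B L ⊓ sc q L) ^ 2 ≤ q ^ 23

theorem St.smul (h : St σ B) {c : ℚ} (hc : 0 < c) : St σ (c • B) :=
  ⟨h.pd.smul hc, h.inv.smul c, h.irr, h.dim, h.inj⟩

theorem le_sc (L : Submodule ℤ V) (q : ℕ) : L ≤ sc q L := fun y hy => mem_sc.2 (by
  rw [Nat.cast_smul_eq_nsmul]; exact nsmul_mem hy q)

theorem exists_ML [Finite G] (h : St σ B) : ∃ c : ℚ, 0 < c ∧ ∃ L, ML σ (c • B) L := by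
  classical
  have hex : ∃ d : ℕ, ∃ c : ℚ, 0 < c ∧ ∃ L, Lat 23 L ∧ LInv σ L ∧ L ≤ dual (c • B) L ∧
      Disc 23 (c • B) L d := by
    obtain ⟨L, h1, h2⟩ := exists_lat σ h.dim
    obtain ⟨c, hc, h3⟩ := h1.exists_scale B
    obtain ⟨d, hd⟩ := h1.disc (c • B)
    obtain ⟨m, -, rfl⟩ := hd.nat (h.pd.smul hc) h3
    exact ⟨m, c, hc, L, h1, h2, h3, hd⟩
  obtain ⟨c, hc, L, h1, h2, h3, h4⟩ := Nat.find_spec hex
  have hp := h.pd.smul hc
  refine ⟨c, hc, L, h1, h2, h3, fun M k1 k2 k3 => ?_, fun q hq => ?_⟩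
  · have k4 := h1.between (h1.dual hp) k2 (k3.trans (dual_anti k2))
    obtain ⟨e, he⟩ := k4.disc (c • B)
    obtain ⟨m, hm, rfl⟩ := he.nat hp k3
    have k5 := Nat.find_min' hex ⟨c, hc, M, k4, k1, k3, he⟩
    have k6 : Nat.find hex = idx L M ^ 2 * m := by exact_mod_cast h4.idx he k2
    have k7 := idx_pos k2 h1 k4
    refine (eq_of_idx_one k2 ?_).ge
    by_contra h0
    have : 2 ≤ idx L M := by omega
    have k8 : 2 ^ 2 ≤ idx L M ^ 2 := Nat.pow_le_pow_left this 2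
    rw [k6] at k5
    nlinarith
  · have k2 : L ≤ dual (c • B) L ⊓ sc q L := le_inf h3 (le_sc L q)
    have k4 := h1.between (h1.dual hp) k2 inf_le_left
    obtain ⟨e, he⟩ := k4.disc (c • B)
    have hq' : (0 : ℚ) < q := by positivity
    have he' := he.smul q
    rw [smul_smul] at he'
    have k3 : dual (c • B) L ⊓ sc q L ≤ dual ((q * c) • B) (dual (c • B) L ⊓ sc q L) :=
      fun y hy => mem_dual.2 fun l hl => by
        have := mem_dual.1 hy.1 _ hl.2
        simpa [mul_assoc] using this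
    obtain ⟨m, hm, hm'⟩ := he'.nat (h.pd.smul (mul_pos hq' hc)) k3
    have k5 := Nat.find_min' hex ⟨_, mul_pos hq' hc, _, k4,
      (h2.dual (h.inv.smul c)).inf (h2.sc q), k3, hm' ▸ he'⟩
    have k6 := h4.idx he k2
    have k7 : (0 : ℚ) < e := by
      have : (0 : ℚ) < q ^ 23 * e := by rw [hm']; exact_mod_cast hm
      exact (mul_pos_iff_of_pos_left (by positivity)).1 this
    have k8 : ((Nat.find hex : ℕ) : ℚ) ≤ m := by exact_mod_cast k5
    rw [k6, ← hm'] at k8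
    exact_mod_cast le_of_mul_le_mul_right k8 k7

variable {L : Submodule ℤ V}

theorem ML.sq (h : St σ B) (hL : ML σ B L) {q : ℚ} (hq : IsZ q) {y : V} (hy : y ∈ dual B L)
    (h2 : (q * q) • y ∈ L) : q • y ∈ L := by
  let M : Submodule ℤ V :=
    { carrier := {v | ∃ l ∈ L, ∃ y ∈ dual B L, (q * q) • y ∈ L ∧ v = l + q • y}
      zero_mem' := ⟨0, zero_mem _, 0, zero_mem _, by simp, by simp⟩
      add_mem' := by
        rintro _ _ ⟨l, h1, y, h2, h3, rfl⟩ ⟨l', h1', y', h2', h3', rfl⟩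
        exact ⟨_, add_mem h1 h1', _, add_mem h2 h2', by rw [smul_add]; exact add_mem h3 h3',
          by rw [smul_add]; abel⟩
      smul_mem' := by
        rintro c _ ⟨l, h1, y, h2, h3, rfl⟩
        exact ⟨_, smul_mem _ c h1, _, smul_mem _ c h2, by rw [smul_comm]; exact smul_mem _ c h3,
          by rw [smul_add, smul_comm]⟩ }
  refine hL.m1 M ?_ (fun l hl => ⟨l, hl, 0, zero_mem _, by simp, by simp⟩) ?_
    ⟨0, zero_mem _, y, hy, h2, by simp⟩
  · rintro g _ ⟨l, h1, y, h2, h3, rfl⟩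
    exact ⟨_, hL.inv g _ h1, _, hL.inv.dual h.inv g _ h2,
      by rw [← map_smul]; exact hL.inv g _ h3, by simp⟩
  · rintro _ ⟨l, h1, y, h2, h3, rfl⟩
    rw [mem_dual]
    rintro _ ⟨l', h1', y', h2', h3', rfl⟩
    have k := mem_dual.1 h2 _ h3'
    simp only [map_add, map_smul, LinearMap.add_apply, LinearMap.smul_apply, smul_eq_mul,
      mul_add, ← mul_assoc] at k ⊢
    exact ((mem_dual.1 (hL.int h1) _ h1').add (hq.mul (mem_dual.1 h2 _ h1'))).add
      ((hq.mul (h.pd.symm _ _ ▸ mem_dual.1 h2' _ h1)).add k)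

theorem ML.nd (h : St σ B) (hL : ML σ B L) (q : ℕ) :
    (dual B L ⊓ sc q L) ⊓ dual B (dual B L ⊓ sc q L) ≤ L := by
  have k1 := (hL.inv.dual h.inv).inf (hL.inv.sc q)
  refine hL.m1 _ (k1.inf (k1.dual h.inv)) (le_inf (le_inf hL.int (le_sc L q)) ?_)
    (inf_le_right.trans (dual_anti inf_le_left))
  exact fun l hl => mem_dual.2 fun y hy => h.pd.symm _ _ ▸ mem_dual.1 hy.1 l hl

theorem ML.cop [Finite G] (h : St σ B) (hL : ML σ B L) {q m : ℕ} (hq : q.Prime)
    (hm : Nat.card G = 23 * m) (hqm : ¬ q ∣ m) {y : V} (hy : y ∈ dual B L) (h2 : (q : ℚ) • y ∈ L) :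
    y ∈ L := by
  have := Fintype.ofFinite G
  by_contra h0
  obtain ⟨u, hu, hu'⟩ : ∃ u ∈ dual B L, ¬ IsZ (B y u) := by
    by_contra hc
    push Not at hc
    exact h0 (hL.lat.mem_of h.pd hc)
  obtain ⟨z, hz⟩ := mem_dual.1 hu _ h2
  have hq0 : (q : ℚ) ≠ 0 := by exact_mod_cast hq.ne_zero
  rw [map_smul, smul_eq_mul, h.pd.symm] at hz
  have hz' : ¬ (q : ℤ) ∣ z := by
    rintro ⟨k, rfl⟩
    exact hu' ⟨k, mul_left_cancel₀ hq0 (by rw [hz]; push_cast; rfl)⟩
  have hc : IsCoprime (q : ℤ) (m * z) :=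
    IsCoprime.mul_right (Nat.isCoprime_iff_coprime.2 ((Nat.Prime.coprime_iff_not_dvd hq).2 hqm))
      (((Nat.prime_iff_prime_int.1 hq).irreducible.coprime_iff_not_dvd).2 hz')
  obtain ⟨a, b, hab⟩ := hc
  have k : sc q L ≤ dual B L := fun v hv => by
    have k1 := moment2 h.pd h.inv h.irr h.dim u y ((q : ℚ) • v)
    have k2 : ∑ g, B (σ g u) ((q : ℚ) • v) • σ g y ∈ dual B L := sum_mem fun g _ => by
      obtain ⟨w, hw⟩ := mem_dual.1 (hL.inv.dual h.inv g u hu) _ (mem_sc.1 hv)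
      rw [hw, Int.cast_smul_eq_zsmul]
      exact smul_mem _ _ (hL.inv.dual h.inv g y hy)
    rw [k1, ← Nat.card_eq_fintype_card, hm, smul_smul] at k2
    have k3 : v = a • (q : ℚ) • v + b • (((23 * m : ℕ) : ℚ) * B u y / 23 * q) • v := by
      rw [← Int.cast_smul_eq_zsmul ℚ, ← Int.cast_smul_eq_zsmul ℚ, smul_smul, smul_smul, ← add_smul]
      have : (a : ℚ) * q + b * (m * z) = 1 := by exact_mod_cast hab
      rw [← hz, h.pd.symm] at this
      rw [show (a : ℚ) * q + b * (((23 * m : ℕ) : ℚ) * B u y / 23 * q) = 1 by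
        rw [← this]; push_cast; ring, one_smul]
    rw [k3]
    exact add_mem (smul_mem _ _ (hL.int hv)) (smul_mem _ _ k2)
  have k2 := hL.m2 q hq.ne_zero
  rw [inf_eq_right.2 k, idx_sc hL.lat hq.ne_zero, ← pow_mul,
    Nat.pow_le_pow_iff_right hq.one_lt] at k2
  omega

theorem ML.sat [Finite G] (h : St σ B) (hL : ML σ B L) {y : V} (hy : y ∈ dual B L)
    (h2 : (23 : ℚ) • y ∈ L) : y ∈ L := by
  obtain ⟨m, hm⟩ := dvd_card h.pd h.inv h.irr h.dim
  refine hL.cop h (q := 23) (by norm_num) hm (fun hd => h.not_sq ?_) hy h2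
  rw [hm, pow_two]
  exact Nat.mul_dvd_mul_left _ hd

theorem ML.trq [Finite G] (h : St σ B) (hL : ML σ B L) {x : G} (hx : x ^ 23 = 1) {q : ℕ}
    (hq : q.Prime) {y : V} (hy : y ∈ dual B L) (h2 : (q : ℚ) • y ∈ L) : σ x y - y ∈ L := by
  obtain ⟨m, hm⟩ := dvd_card h.pd h.inv h.irr h.dim
  by_cases hqm : ¬ q ∣ m
  · have := hL.cop h hq hm hqm hy h2
    exact sub_mem (hL.inv x y this) this
  push Not at hqm
  have h23 : q ≠ 23 := by
    rintro rfl
    exact h.not_sq (by rw [hm, pow_two]; exact Nat.mul_dvd_mul_left _ hqm)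
  have hle := h.prime_le hq (hm ▸ hqm.mul_left 23)
  have := Fact.mk hq
  have hq0 : (q : ℚ) ≠ 0 := by exact_mod_cast hq.ne_zero
  let M := dual B L ⊓ sc q L
  have hM : LInv σ M := (hL.inv.dual h.inv).inf (hL.inv.sc q)
  have hZ : ∀ u v : M.toAddSubgroup, IsZ (q * B u v) := fun u v => by
    simpa using mem_dual.1 u.2.1 _ v.2.2
  choose f hf using hZ
  have fa : ∀ u v w, f u (v + w) = f u v + f u w := fun u v w => by
    apply Int.cast_injective (α := ℚ)
    push_cast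
    rw [← hf, ← hf, ← hf]
    simp [mul_add]
  have fs : ∀ u v, f u v = f v u := fun u v => by
    apply Int.cast_injective (α := ℚ)
    rw [← hf, ← hf, h.pd.symm]
  let β : M.toAddSubgroup →+ M.toAddSubgroup →+ ZMod q := AddMonoidHom.mk'
    (fun u => AddMonoidHom.mk' (fun v => (f u v : ZMod q)) fun v w => by rw [fa, Int.cast_add])
    fun u v => AddMonoidHom.ext fun w => by
      change ((f _ _ : ℤ) : ZMod q) = (f _ _ : ZMod q) + (f _ _ : ZMod q)
      rw [fs, fa, Int.cast_add, fs u, fs v]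
  let φ : G →* AddMonoid.End M.toAddSubgroup :=
    { toFun := fun g => AddMonoidHom.mk' (fun v => ⟨σ g v, hM g _ v.2⟩) fun u v => by
        ext; simp
      map_one' := AddMonoidHom.ext fun v => Subtype.ext (by change σ 1 v = v; rw [map_one]; rfl)
      map_mul' := fun g g' => AddMonoidHom.ext fun v => Subtype.ext (s_mul σ g g' v).symm }
  refine qa' (q := q) (fun k k1 k2 => ?_) h23 (L.toAddSubgroup.addSubgroupOf M.toAddSubgroup)
    (idx_pos (le_inf hL.int (le_sc L q)) hL.lat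
      (hL.lat.between (hL.lat.dual h.pd) (le_inf hL.int (le_sc L q)) inf_le_left)).ne'
    (hL.m2 q hq.ne_zero) β (fun u v => congrArg _ (fs u v)) (fun v => ?_) (φ x)
    (by rw [← map_pow, hx, map_one]) (fun u v => ?_) ⟨y, hy, h2⟩
  · have := hq.two_le
    interval_cases q <;> first | (exfalso; norm_num at hq; done) | (interval_cases k <;> decide)
  · have e : ∀ u : M.toAddSubgroup, β u v = 0 ↔ IsZ (B v u) := fun u => by
      change ((f _ _ : ℤ) : ZMod q) = 0 ↔ _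
      rw [ZMod.intCast_zmod_eq_zero_iff_dvd, h.pd.symm]
      refine ⟨fun ⟨k, hk⟩ => ⟨k, mul_left_cancel₀ hq0 (by rw [hf, hk]; push_cast; rfl)⟩,
        fun ⟨k, hk⟩ => ⟨k, Int.cast_injective (α := ℚ) (by rw [← hf, hk]; push_cast; rfl)⟩⟩
    simp only [e]
    exact ⟨fun hv u => h.pd.symm _ _ ▸ mem_dual.1 u.2.1 _ hv,
      fun hv => hL.nd h q ⟨v.2, mem_dual.2 fun u hu => hv ⟨u, hu⟩⟩⟩
  · refine congrArg _ (Int.cast_injective (α := ℚ) ?_)
    rw [← hf, ← hf]
    exact congrArg _ (h.inv x u v)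

theorem ML.tr [Finite G] (h : St σ B) (hL : ML σ B L) {x : G} (hx : x ^ 23 = 1) {y : V}
    (hy : y ∈ dual B L) : σ x y - y ∈ L := by
  obtain ⟨n, hn, h2⟩ := hL.lat.den y
  rw [← Int.cast_smul_eq_zsmul ℚ, Int.cast_natCast] at h2
  induction n using Nat.strong_induction_on generalizing y with | _ n ih =>
  by_cases h1 : n = 1
  · rw [h1, Nat.cast_one, one_smul] at h2
    exact sub_mem (hL.inv x y h2) h2
  obtain ⟨q, hq, n', rfl⟩ := Nat.exists_prime_and_dvd h1
  have hn' : 0 < n' := Nat.pos_of_mul_pos_left hn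
  have hlt : n' < q * n' := lt_mul_left hn' hq.one_lt
  have ns : ∀ (k : ℕ) {y : V}, y ∈ dual B L → (k : ℚ) • y ∈ dual B L := fun k y hy => by
    rw [Nat.cast_smul_eq_nsmul]; exact nsmul_mem hy k
  by_cases hd : q ∣ n'
  · obtain ⟨k, rfl⟩ := hd
    refine ih _ hlt hy hn' ?_
    rw [Nat.cast_mul, mul_smul]
    exact hL.sq h (isZ_nat q) (ns k hy) (by
      rw [smul_smul]; convert h2 using 2; push_cast; ring)
  obtain ⟨a, b, hab⟩ := Nat.isCoprime_iff_coprime.2 ((Nat.Prime.coprime_iff_not_dvd hq).2 hd)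
  have k1 := ih _ hlt (ns q hy) hn' (by rw [smul_smul]; convert h2 using 2; push_cast; ring)
  have k2 := hL.trq h hx hq (ns n' hy) (by rw [smul_smul]; convert h2 using 2; push_cast; ring)
  have : σ x y - y = a • (σ x ((q : ℚ) • y) - (q : ℚ) • y) + b • (σ x ((n' : ℚ) • y) - (n' : ℚ) • y) := by
    have : (a : ℚ) * q + b * n' = 1 := by exact_mod_cast hab
    rw [map_smul, map_smul, ← smul_sub, ← smul_sub, ← Int.cast_smul_eq_zsmul ℚ,
      ← Int.cast_smul_eq_zsmul ℚ, smul_smul, smul_smul, ← add_smul, this, one_smul]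
  rw [this]
  exact add_mem (smul_mem _ _ k1) (smul_mem _ _ k2)

end H21.F23
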