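import Cfsg.Agent.H21.F23B

/-!
Root systems in an invariant even lattice, I: connectedness and frames.
-/

set_option autoImplicit false
set_option linter.unusedSectionVars false

namespace H21.F23
open Module Submodule LinearMap

variable {V : Type*} [AddCommGroup V] [Module ℚ V] [FiniteDimensional ℚ V]
variable {G : Type*} [Group G] {σ : G →* End ℚ V} {B : LinearMap.BilinForm ℚ V}

theorem exists_step {P : ℕ → Prop} {a b : ℕ} (ha : P a) (hb : ∀ n, P n → n ≤ b) :
    ∃ m, a ≤ m ∧ P m ∧ ¬ P (m + 1) := by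
  by_contra hc
  push Not at hc
  have : ∀ n, P (a + n) := fun n => by
    induction n with
    | zero => exact ha
    | succ n ih => exact hc (a + n) (Nat.le_add_right _ _) ih
  have := hb _ (this (b + 1))
  omega

/-- hypotheses for the root analysis -/
structure RS (σ : G →* End ℚ V) (B : LinearMap.BilinForm ℚ V) (L : Submodule ℤ V) : Prop where
  pd : PDF B
  inv : Inv σ B
  dim : finrank ℚ V = 23
  linv : LInv σ L
  even : ∀ y ∈ L, IsZ (B y y / 2)
  int : ∀ y ∈ L, ∀ z ∈ L, IsZ (B y z)
  small : ∀ (W : Submodule ℚ V) (T : Set (Submodule ℚ V)), T.Finite → T.ncard ≤ 24 →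
    (∀ g, W.map (σ g) ∈ T) → W = ⊥ ∨ W = ⊤

/-- root -/
def Rt (B : LinearMap.BilinForm ℚ V) (L : Submodule ℤ V) (r : V) : Prop := r ∈ L ∧ B r r = 2

/-- splitting subspace -/
def Split (B : LinearMap.BilinForm ℚ V) (L : Submodule ℤ V) (U : Submodule ℚ V) : Prop :=
  ∀ r, Rt B L r → r ∈ U ∨ ∀ u ∈ U, B r u = 0

variable {L : Submodule ℤ V}

theorem RS.rt (h : RS σ B L) (g : G) {r : V} (hr : Rt B L r) : Rt B L (σ g r) :=
  ⟨h.linv g r hr.1, by rw [h.inv, hr.2]⟩

theorem Rt.ne {r : V} (hr : Rt B L r) : r ≠ 0 := by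
  rintro rfl
  simpa using hr.2

theorem RS.no_lines (h : RS σ B L) {ι : Type*} [Finite ι] (hc : Nat.card ι ≤ 24) (w : ι → V) {u : V}
    (hu : u ≠ 0) (hw : ∀ g, ∃ i, σ g u = w i ∨ σ g u = -w i) : False := by
  rcases h.small (span ℚ {u}) (Set.range fun i => span ℚ {w i}) (Set.finite_range _)
    ((Finite.card_range_le _).trans hc) (fun g => by
      obtain ⟨i, hi⟩ := hw g
      refine ⟨i, ?_⟩
      rw [Submodule.map_span, Set.image_singleton]
      rcases hi with hi | hi
      · rw [hi]
      · rw [hi, ← Set.neg_singleton, span_neg]) with h1 | h1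
  · exact hu (span_singleton_eq_bot.1 h1)
  · have := finrank_span_singleton (K := ℚ) hu
    rw [h1, finrank_top, h.dim] at this
    omega

theorem RS.conn (h : RS σ B L) {U : Submodule ℚ V} (hU : Split B L U) {r : V} (hr : Rt B L r)
    (hrU : r ∈ U) : U = ⊤ := by
  let rel : V → V → Prop := fun r s => ∀ U, Split B L U → (r ∈ U ↔ s ∈ U)
  let cls : V → Submodule ℚ V := fun r => span ℚ {s | Rt B L s ∧ rel r s}
  have k1 : ∀ g r s, rel r s → rel (σ g r) (σ g s) := fun g r s hrs U hU =>
    hrs (U.comap (σ g)) fun t ht => (hU _ (h.rt g ht)).imp_right fun h0 u hu => by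
      rw [← h.inv g, h0 _ hu]
  have k2 : ∀ g r, (cls r).map (σ g) ≤ cls (σ g r) := fun g r => by
    rw [Submodule.map_span]
    refine span_mono ?_
    rintro _ ⟨s, hs, rfl⟩
    exact ⟨h.rt g hs.1, k1 g r s hs.2⟩
  have k3 : ∀ g r, (cls r).map (σ g) = cls (σ g r) := fun g r => le_antisymm (k2 g r) fun y hy => by
    have := k2 g⁻¹ _ ⟨y, hy, rfl⟩
    rw [s_inv] at this
    exact ⟨_, this, s_inv' σ g y⟩
  have k4 : ∀ W : cls '' {r | Rt B L r}, ∃ r, Rt B L r ∧ cls r = W := fun W => W.2
  choose ρ hρ hρ' using k4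
  have k5 : LinearIndependent ℚ ρ := LinearMap.linearIndependent_of_isOrthoᵢ (B := B)
    (fun W W' hW => by
      by_contra h0
      refine hW (Subtype.ext ?_)
      have : rel (ρ W) (ρ W') := fun U hU =>
        ⟨fun h1 => (hU _ (hρ W')).resolve_right fun h2 => h0 ((h.pd.symm _ _).trans (h2 _ h1)),
          fun h1 => (hU _ (hρ W)).resolve_right fun h2 => h0 (h2 _ h1)⟩
      rw [← hρ', ← hρ']
      refine congrArg (span ℚ) (Set.ext fun s => and_congr_right fun _ => ?_)
      exact ⟨fun h1 U hU => (this U hU).symm.trans (h1 U hU), fun h1 U hU => (this U hU).trans (h1 U hU)⟩)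
    fun W h0 => by
      rw [(hρ W).2] at h0
      norm_num at h0
  have := k5.finite
  have k6 : (cls '' {r | Rt B L r}).ncard ≤ 24 := by
    have := Fintype.ofFinite (cls '' {r | Rt B L r})
    have k7 := k5.fintype_card_le_finrank
    rw [← Nat.card_eq_fintype_card, h.dim, Nat.card_coe_set_eq] at k7
    omega
  rcases h.small (cls r) _ (Set.toFinite _) k6 (fun g => ⟨_, h.rt g hr, (k3 g r).symm⟩) with h1 | h1
  · exact (hr.ne ((eq_bot_iff.1 h1) (subset_span ⟨hr, fun _ _ => Iff.rfl⟩))).elim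
  · rw [eq_top_iff, ← h1, span_le]
    exact fun s hs => (hs.2 U hU).1 hrU

/-- frame -/
structure Frame (B : LinearMap.BilinForm ℚ V) (L : Submodule ℤ V) {m : ℕ} (e : Fin m → V) : Prop where
  on : ∀ i j, B (e i) (e j) = if i = j then 1 else 0
  mem : ∀ i j, e i + e j ∈ L

variable {m : ℕ} {e : Fin m → V}

theorem Frame.sub (F : Frame B L e) (i j : Fin m) : e i - e j ∈ L := by
  convert sub_mem (F.mem i j) (F.mem j j) using 1
  abel

theorem Frame.le (F : Frame B L e) : m ≤ finrank ℚ V := by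
  have : LinearIndependent ℚ e := LinearMap.linearIndependent_of_isOrthoᵢ (B := B)
    (fun i j hij => (F.on i j).trans (if_neg hij)) fun i h0 => by simp [F.on] at h0
  simpa using this.fintype_card_le_finrank

theorem Frame.ext (F : Frame B L e) (hB : PDF B) {r : V} (hr : Rt B L r) {q : Fin m} {c : ℚ}
    (hc : c = 1 ∨ c = -1) (hq : ∀ i, B r (e i) = if i = q then c else 0) :
    ∃ e' : Fin (m + 1) → V, Frame B L e' := by
  have h1 : ∀ i, B (r - c • e q) (e i) = 0 := fun i => by
    simp only [map_sub, map_smul, LinearMap.sub_apply, LinearMap.smul_apply, hq, F.on, smul_eq_mul,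
      eq_comm (a := q)]
    split_ifs <;> simp
  have h2 : ∀ i, r - c • e q + e i ∈ L := fun i => by
    rcases hc with rfl | rfl
    · convert add_mem hr.1 (F.sub i q) using 1
      module
    · convert add_mem hr.1 (F.mem i q) using 1
      module
  refine ⟨Fin.cons (r - c • e q) e, fun i j => ?_, fun i j => ?_⟩
  · refine Fin.cases ?_ (fun i => ?_) i <;> refine Fin.cases ?_ (fun j => ?_) j
    · simp only [Fin.cons_zero, if_true]
      rw [map_sub, map_smul, h1, hB.symm, map_sub, map_smul, hr.2, hq]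
      rcases hc with rfl | rfl <;> norm_num
    · simp only [Fin.cons_zero, Fin.cons_succ, h1, (Fin.succ_ne_zero j).symm, if_false]
    · simp only [Fin.cons_zero, Fin.cons_succ, Fin.succ_ne_zero, if_false]
      rw [hB.symm, h1]
    · simp [F.on]
  · refine Fin.cases ?_ (fun i => ?_) i <;> refine Fin.cases ?_ (fun j => ?_) j
    · simp only [Fin.cons_zero]
      rcases hc with rfl | rfl
      · convert sub_mem (add_mem hr.1 hr.1) (F.mem q q) using 1
        module
      · convert add_mem (add_mem hr.1 hr.1) (F.mem q q) using 1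
        module
    · exact h2 j
    · simp only [Fin.cons_zero, Fin.cons_succ]
      rw [add_comm]; exact h2 i
    · exact F.mem i j

/-- the component orthogonal to a frame -/
def perp (B : LinearMap.BilinForm ℚ V) (e : Fin m → V) (y : V) : V := y - ∑ i, B y (e i) • e i

theorem Frame.perp_ip (F : Frame B L e) (y : V) (j : Fin m) : B (perp B e y) (e j) = 0 := by
  simp [perp, F.on]

theorem Frame.perp_nm (F : Frame B L e) (hB : PDF B) (y : V) :
    B (perp B e y) (perp B e y) = B y y - ∑ i, B y (e i) ^ 2 := by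
  conv_lhs => rw [perp.eq_1 B e y]
  rw [← perp.eq_1]
  nth_rewrite 2 [perp.eq_1]
  simp only [map_sub, map_sum, map_smul, F.perp_ip, smul_zero, Finset.sum_const_zero, sub_zero]
  simp [perp, hB.symm (e _) y, pow_two]

theorem perp_add (y z : V) : perp B e (y + z) = perp B e y + perp B e z := by
  simp only [perp, map_add, LinearMap.add_apply, add_smul, Finset.sum_add_distrib]
  abel

theorem perp_sub (y z : V) : perp B e (y - z) = perp B e y - perp B e z := by
  simp only [perp, map_sub, LinearMap.sub_apply, sub_smul, Finset.sum_sub_distrib]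
  abel

theorem sub_perp_mem (y : V) : y - perp B e y ∈ span ℚ (Set.range e) := by
  rw [perp, sub_sub_cancel]
  exact sum_mem fun i _ => smul_mem _ _ (subset_span ⟨i, rfl⟩)

/-- coefficient dichotomy -/
theorem coef_cases {c : Fin m → ℚ} (hc : ∀ i j, IsZ (c i + c j)) (hs : ∑ i, c i ^ 2 ≤ 2) :
    (∀ i, c i = 1 / 2 ∨ c i = -1 / 2) ∨ (∀ i, IsZ (c i)) ∧ ((∀ i, c i = 0) ∨ ∑ i, c i ^ 2 = 2 ∨
      ∃ q, (c q = 1 ∨ c q = -1) ∧ ∀ i, i ≠ q → c i = 0) := by
  have h1 : ∀ i, c i ^ 2 ≤ 2 := fun i =>
    (Finset.single_le_sum (f := fun i => c i ^ 2) (fun _ _ => sq_nonneg _) (Finset.mem_univ i)).trans hs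
  have h2 : ∀ i, c i = 1 / 2 ∨ c i = -1 / 2 ∨ c i = 0 ∨ c i = 1 ∨ c i = -1 := fun i => by
    obtain ⟨z, hz⟩ := hc i i
    have k := h1 i
    have e : c i = z / 2 := by linarith
    rw [e] at k ⊢
    have : z ^ 2 ≤ 8 := by
      have : (z : ℚ) ^ 2 ≤ 8 := by linarith
      exact_mod_cast this
    have k1 : z ≤ 2 := by nlinarith
    have k2 : -2 ≤ z := by nlinarith
    interval_cases z <;> norm_num
  by_cases h3 : ∃ i, c i = 1 / 2 ∨ c i = -1 / 2
  · obtain ⟨i, hi⟩ := h3
    refine .inl fun j => ?_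
    obtain ⟨z, hz⟩ := hc i j
    by_contra h4
    have : (2 * z : ℚ) = 2 * c i + 2 * c j := by linarith
    rcases hi with hi | hi <;> rcases h2 j with hj | hj | hj | hj | hj <;>
      first | exact h4 (.inl hj) | exact h4 (.inr hj) | (
        rw [hi, hj] at this
        norm_num at this
        have := congrArg (fun q : ℚ => q.num % 2) this
        norm_cast at this
        simp at this)
  push Not at h3
  have h4 : ∀ i, c i = 0 ∨ c i = 1 ∨ c i = -1 := fun i => by
    have := h2 i
    have := h3 i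
    tauto
  refine .inr ⟨fun i => ?_, ?_⟩
  · rcases h4 i with h | h | h <;> rw [h]
    exacts [isZ_zero, isZ_nat 1, (isZ_nat 1).neg]
  by_cases h5 : ∀ i, c i = 0
  · exact .inl h5
  push Not at h5
  obtain ⟨q, hq⟩ := h5
  have hq' := (h4 q).resolve_left hq
  by_cases h6 : ∀ i, i ≠ q → c i = 0
  · exact .inr (.inr ⟨q, hq', h6⟩)
  push Not at h6
  obtain ⟨p, hp, hp'⟩ := h6
  refine .inr (.inl (le_antisymm hs ?_))
  have := Finset.sum_le_sum_of_subset_of_nonneg (f := fun i => c i ^ 2) (Finset.subset_univ {p, q})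
    fun _ _ _ => sq_nonneg _
  rw [Finset.sum_pair hp] at this
  rcases hq' with h | h <;> rcases (h4 p).resolve_left hp' with h' | h' <;> rw [h, h'] at this <;>
    linarith

end H21.F23
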