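import Cfsg.Agent.H21.F23R

/-!
Root systems in an invariant even lattice, II: no `D₄`.
-/

set_option autoImplicit false
set_option linter.unusedSectionVars false

namespace H21.F23
open Module Submodule LinearMap

variable {V : Type*} [AddCommGroup V] [Module ℚ V] [FiniteDimensional ℚ V]
variable {G : Type*} [Group G] {σ : G →* End ℚ V} {B : LinearMap.BilinForm ℚ V}
variable {L : Submodule ℤ V} {m : ℕ} {e : Fin m → V}

theorem Frame.par (F : Frame B L e) (q : Fin m) {y : V} (hy : y ∈ L) (hz : ∀ i, IsZ (B y (e i))) :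
    perp B e y ∈ L ∨ perp B e y + e q ∈ L := by
  choose z hz using hz
  have h1 : perp B e y + (∑ i, z i) • e q ∈ L := by
    convert sub_mem hy (sum_mem (t := Finset.univ) fun i _ => smul_mem L (z i) (F.sub i q)) using 1
    simp only [perp, hz, Int.cast_smul_eq_zsmul, smul_sub, Finset.sum_sub_distrib, Finset.sum_smul]
    abel
  obtain ⟨w, hw | hw⟩ := Int.even_or_odd' (∑ i, z i)
  · left
    convert sub_mem h1 (smul_mem L w (F.mem q q)) using 1
    rw [hw]; module
  · right
    convert sub_mem h1 (smul_mem L w (F.mem q q)) using 1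
    rw [hw]; module

theorem RS.gap (h : RS σ B L) (F : Frame B L e) (hm : ¬ ∃ e' : Fin (m + 1) → V, Frame B L e')
    (q : Fin m) {x : V} (hx : ∀ i, B x (e i) = 0) (h1 : x ∈ L ∨ x + e q ∈ L) :
    x = 0 ∨ 2 ≤ B x x := by
  rw [or_iff_not_imp_left]
  intro h0
  have hp := h.pd.pos x h0
  rcases h1 with h1 | h1
  · obtain ⟨z, hz⟩ := h.even x h1
    have : 0 < z := by
      have : (0 : ℚ) < z := by linarith
      exact_mod_cast this
    have : (1 : ℚ) ≤ z := by exact_mod_cast this
    linarith
  · obtain ⟨z, hz⟩ := h.even _ h1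
    have e1 : B (x + e q) (x + e q) = B x x + 1 := by
      simp [hx, h.pd.symm (e q) x, F.on]
    have k1 : 0 < z := by
      have : (0 : ℚ) < z := by linarith
      exact_mod_cast this
    have k2 : z ≠ 1 := by
      rintro rfl
      refine hm (F.ext h.pd ⟨h1, by push_cast at hz; linarith⟩ (q := q) (.inl rfl) fun i => ?_)
      simp [hx, F.on, eq_comm]
    have : (2 : ℚ) ≤ z := by exact_mod_cast (by omega : 2 ≤ z)
    linarith

theorem RS.types (h : RS σ B L) (F : Frame B L e) (hm : ¬ ∃ e' : Fin (m + 1) → V, Frame B L e')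
    {r : V} (hr : Rt B L r) : (∀ i, B r (e i) = 1 / 2 ∨ B r (e i) = -1 / 2) ∨
      (∀ i, IsZ (B r (e i))) ∧ ((∀ i, B r (e i) = 0) ∨ r ∈ span ℚ (Set.range e)) := by
  have k := F.perp_nm h.pd r
  have k0 := h.pd.nonneg (perp B e r)
  rw [hr.2] at k
  refine (coef_cases (c := fun i => B r (e i)) (fun i j => by
    simpa using h.int _ hr.1 _ (F.mem i j)) (by linarith)).imp_right (And.imp_right ?_)
  rintro (h1 | h1 | ⟨q, h1, h2⟩)
  · exact .inl h1
  · right
    have := sub_perp_mem (B := B) (e := e) r
    rwa [h.pd.eq_zero (v := perp B e r) (by linarith), sub_zero] at this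
  · refine (hm (F.ext h.pd hr (q := q) h1 fun i => ?_)).elim
    split_ifs with hi
    · rw [hi]
    · exact h2 i hi

theorem Frame.sign (F : Frame B L e) {c : Fin m → ℚ} (hc : ∀ i, c i = 1 ∨ c i = -1) :
    Frame B L fun i => c i • e i := by
  refine ⟨fun i j => ?_, fun i j => ?_⟩
  · simp only [map_smul, LinearMap.smul_apply, F.on, smul_eq_mul]
    split_ifs with hij
    · subst hij
      rcases hc i with h | h <;> simp [h]
    · simp
  · rcases hc i with h | h <;> rcases hc j with h' | h' <;> rw [h, h']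
    · simpa using F.mem i j
    · simpa [← sub_eq_add_neg] using F.sub i j
    · simpa [neg_add_eq_sub] using F.sub j i
    · simpa [add_comm] using neg_mem (F.mem i j)

theorem Frame.tri {e : Fin 4 → V} (F : Frame B L e) (hB : PDF B) {r : V} (hr : Rt B L r)
    (h : ∀ i, B r (e i) = 1 / 2) : ∃ e' : Fin 5 → V, Frame B L e' := by
  have F' : Frame B L ![(1 / 2 : ℚ) • (e 0 + e 1 + e 2 + e 3), (1 / 2 : ℚ) • (e 0 + e 1 - e 2 - e 3),
      (1 / 2 : ℚ) • (e 0 - e 1 + e 2 - e 3), (1 / 2 : ℚ) • (e 0 - e 1 - e 2 + e 3)] := by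
    refine ⟨fun i j => ?_, fun i j => ?_⟩
    · fin_cases i <;> fin_cases j <;> simp [F.on] <;> norm_num
    · have a := F.mem
      have b := F.sub
      fin_cases i <;> fin_cases j <;> simp only [Fin.zero_eta, Fin.mk_one, Fin.reduceFinMk,
        Matrix.cons_val]
      · convert add_mem (a 0 1) (a 2 3) using 1; module
      · convert a 0 1 using 1; module
      · convert a 0 2 using 1; module
      · convert a 0 3 using 1; module
      · convert a 0 1 using 1; module
      · convert add_mem (b 0 2) (b 1 3) using 1; module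
      · convert b 0 3 using 1; module
      · convert b 0 2 using 1; module
      · convert a 0 2 using 1; module
      · convert b 0 3 using 1; module
      · convert add_mem (b 0 1) (b 2 3) using 1; module
      · convert b 0 1 using 1; module
      · convert a 0 3 using 1; module
      · convert b 0 2 using 1; module
      · convert b 0 1 using 1; module
      · convert add_mem (b 0 1) (b 3 2) using 1; module
  refine F'.ext hB hr (q := 0) (.inl rfl) fun i => ?_
  fin_cases i <;> simp [h] <;> norm_num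

theorem RS.no_frame (h : RS σ B L) : ¬ ∃ e : Fin 4 → V, Frame B L e := by
  intro h4
  obtain ⟨m, m4, ⟨e, F⟩, hm⟩ := exists_step (P := fun m => ∃ e : Fin m → V, Frame B L e) h4
    (fun n ⟨_, F⟩ => F.le)
  let q : Fin m := ⟨0, by omega⟩
  have spn : ∀ r, (∀ i, B r (e i) = 1 / 2 ∨ B r (e i) = -1 / 2) → ∑ i, B r (e i) ^ 2 = m / 4 :=
    fun r hr => by
      rw [Finset.sum_congr rfl (g := fun _ => 1 / 4) fun i _ => by
        rcases hr i with h | h <;> rw [h] <;> norm_num]
      simp [div_eq_mul_inv]
  by_cases hs : ∃ r, Rt B L r ∧ ∀ i, B r (e i) = 1 / 2 ∨ B r (e i) = -1 / 2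
  · obtain ⟨r, hr, hs⟩ := hs
    rcases m4.eq_or_lt with rfl | m5
    · refine hm ((F.sign (c := fun i => 2 * B r (e i)) fun i => ?_).tri h.pd hr fun i => ?_)
      · rcases hs i with h | h <;> rw [h] <;> norm_num
      · rw [map_smul, smul_eq_mul]
        rcases hs i with h | h <;> rw [h] <;> norm_num
    have m5' : (5 : ℚ) ≤ m := by exact_mod_cast m5
    have k1 : ∀ s, Rt B L s → (∀ i, B s (e i) = 1 / 2 ∨ B s (e i) = -1 / 2) →
        perp B e s = perp B e r ∨ perp B e s = -perp B e r := fun s hs1 hs2 => by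
      have a1 := h.gap F hm q (F.perp_ip _) (F.par q (sub_mem hs1.1 hr.1) fun i => by
        rw [map_sub, LinearMap.sub_apply]
        rcases hs i with h | h <;> rcases hs2 i with h' | h' <;> rw [h, h']
        exacts [⟨0, by norm_num⟩, ⟨-1, by norm_num⟩, ⟨1, by norm_num⟩, ⟨0, by norm_num⟩])
      have a2 := h.gap F hm q (F.perp_ip _) (F.par q (add_mem hs1.1 hr.1) fun i => by
        rw [map_add, LinearMap.add_apply]
        rcases hs i with h | h <;> rcases hs2 i with h' | h' <;> rw [h, h']
        exacts [⟨1, by norm_num⟩, ⟨0, by norm_num⟩, ⟨0, by norm_num⟩, ⟨-1, by norm_num⟩])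
      rw [perp_sub, sub_eq_zero] at a1
      rw [perp_add, add_eq_zero_iff_eq_neg] at a2
      by_contra hc
      push Not at hc
      have b1 := a1.resolve_left hc.1
      have b2 := a2.resolve_left hc.2
      have c1 := F.perp_nm h.pd r
      have c2 := F.perp_nm h.pd s
      rw [spn _ hs, hr.2] at c1
      rw [spn _ hs2, hs1.2] at c2
      simp only [map_add, map_sub, LinearMap.add_apply, LinearMap.sub_apply] at b1 b2
      linarith
    let U := span ℚ (Set.range (Fin.cons r e : Fin (m + 1) → V))
    have u1 : r ∈ U := subset_span ⟨0, rfl⟩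
    have u2 : span ℚ (Set.range e) ≤ U := span_mono (by rintro _ ⟨i, rfl⟩; exact ⟨i.succ, rfl⟩)
    have u3 : perp B e r ∈ U := by
      simpa using sub_mem u1 (u2 (sub_perp_mem (B := B) r))
    have u4 : ∀ s, Rt B L s → (∀ i, B s (e i) = 1 / 2 ∨ B s (e i) = -1 / 2) → s ∈ U :=
      fun s hs1 hs2 => by
        have := u2 (sub_perp_mem (B := B) s)
        rcases k1 s hs1 hs2 with k | k <;> rw [k] at this
        · simpa using add_mem this u3
        · simpa using sub_mem this u3
    have hU : U = ⊤ := h.conn (fun s hs1 => by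
      rcases h.types F hm hs1 with k | ⟨-, k | k⟩
      · exact .inl (u4 s hs1 k)
      · by_cases h0 : B r s = 0
        · refine .inr fun u hu => ?_
          refine span_induction (p := fun u _ => B s u = 0) ?_ (by simp)
            (fun x y _ _ hx hy => by simp [hx, hy]) (fun c x _ hx => by simp [hx]) hu
          rintro _ ⟨i, rfl⟩
          refine Fin.cases ?_ (fun i => k i) i
          exact (h.pd.symm _ _).trans h0
        · left
          obtain ⟨t, ht⟩ := h.int _ hr.1 _ hs1.1
          have := u4 (r - t • s) ⟨sub_mem hr.1 (smul_mem _ _ hs1.1), by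
            simp only [map_sub, map_zsmul, LinearMap.sub_apply, LinearMap.smul_apply, hr.2, hs1.2,
              h.pd.symm s r, ht, zsmul_eq_mul]
            ring⟩ fun i => by simpa [k] using hs i
          have := smul_mem U (t : ℚ)⁻¹ (sub_mem u1 this)
          rwa [sub_sub_cancel, ← Int.cast_smul_eq_zsmul ℚ, smul_smul, inv_mul_cancel₀ (ht ▸ h0),
            one_smul] at this
      · exact .inl (u2 k)) hr u1
    have d1 := finrank_range_le_card (R := ℚ) (Fin.cons r e : Fin (m + 1) → V)
    have d2 := F.perp_nm h.pd r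
    have d3 := h.pd.nonneg (perp B e r)
    rw [spn _ hs, hr.2] at d2
    have d4 : m ≤ 8 := by
      have : (m : ℚ) ≤ 8 := by linarith
      exact_mod_cast this
    rw [Set.finrank, show span ℚ (Set.range (Fin.cons r e : Fin (m + 1) → V)) = ⊤ from hU,
      finrank_top, h.dim, Fintype.card_fin] at d1
    omega
  have ty : ∀ r, Rt B L r →
      (∀ i, IsZ (B r (e i))) ∧ ((∀ i, B r (e i) = 0) ∨ r ∈ span ℚ (Set.range e)) :=
    fun r hr => (h.types F hm hr).resolve_left fun h1 => hs ⟨r, hr, h1⟩
  have r1 : ∀ i j, i ≠ j → Rt B L (e i + e j) := fun i j hij =>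
    ⟨F.mem i j, by simp [F.on, hij, hij.symm]; norm_num⟩
  have r2 : ∀ i j, i ≠ j → Rt B L (e i - e j) := fun i j hij =>
    ⟨F.sub i j, by simp [F.on, hij, hij.symm]; norm_num⟩
  have hU : span ℚ (Set.range e) = ⊤ := h.conn (fun s hs1 => ((ty s hs1).2.imp_left fun k u hu =>
      span_induction (p := fun u _ => B s u = 0) (by rintro _ ⟨i, rfl⟩; exact k i) (by simp)
        (fun x y _ _ hx hy => by simp [hx, hy]) (fun c x _ hx => by simp [hx]) hu).symm)
    (r1 q ⟨1, by omega⟩ (by simp [q])) (add_mem (subset_span ⟨_, rfl⟩) (subset_span ⟨_, rfl⟩))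
  have d1 := finrank_range_le_card (R := ℚ) e
  rw [Set.finrank, hU, finrank_top, h.dim, Fintype.card_fin] at d1
  have d2 := F.le
  refine h.no_lines (ι := Fin m) (by rw [h.dim] at d2; rw [Nat.card_fin]; omega) e (u := e q)
    (fun h0 => by simpa [h0] using F.on q q) fun g => ?_
  have z1 : ∀ r, Rt B L r → IsZ (B (σ g (e q)) r) := fun r hr => by
    rw [h.inv.adj, h.pd.symm]
    exact (ty _ (h.rt _ hr)).1 q
  have p0 : perp B e (σ g (e q)) = 0 := h.pd.eq_zero (span_induction
    (p := fun u _ => B (perp B e (σ g (e q))) u = 0) (by rintro _ ⟨i, rfl⟩; exact F.perp_ip _ i)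
    (by simp) (fun x y _ _ hx hy => by simp [hx, hy]) (fun c x _ hx => by simp [hx])
    (hU ▸ mem_top))
  have p1 := F.perp_nm h.pd (σ g (e q))
  rw [p0, h.inv, F.on, if_pos rfl, map_zero] at p1
  rcases coef_cases (c := fun i => B (σ g (e q)) (e i)) (fun i j => by
    by_cases hij : i = j
    · subst hij
      obtain ⟨k, hk⟩ : ∃ k, i ≠ k := by
        by_cases hi : i = q
        · exact ⟨⟨1, by omega⟩, by simp [hi, q]⟩
        · exact ⟨q, hi⟩
      convert (z1 _ (r1 i k hk)).add (z1 _ (r2 i k hk)) using 1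
      simp
    · simpa using z1 _ (r1 i j hij)) (by linarith) with k | ⟨-, k | k | ⟨p, k, k'⟩⟩
  · rw [spn _ k] at p1
    have : (23 : ℚ) ≤ m := by exact_mod_cast d1
    linarith
  · simp [k] at p1
  · linarith
  · refine ⟨p, ?_⟩
    rw [perp, sub_eq_zero, Finset.sum_eq_single p (fun i _ hi => by rw [k' i hi, zero_smul])
      (by simp)] at p0
    rcases k with k | k <;> rw [k] at p0
    · left; rw [p0, one_smul]
    · right; rw [p0, neg_one_smul]

end H21.F23
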