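import Cfsg.Agent.H21.F23R2

/-!
Root systems in an invariant even lattice, III: no roots.
-/

set_option autoImplicit false
set_option linter.unusedSectionVars false

namespace H21.F23
open Module Submodule LinearMap

variable {V : Type*} [AddCommGroup V] [Module ℚ V] [FiniteDimensional ℚ V]
variable {G : Type*} [Group G] {σ : G →* End ℚ V} {B : LinearMap.BilinForm ℚ V}
variable {L : Submodule ℤ V} {k : ℕ} {p : Fin k → V}

/-- regular simplex whose edges are roots -/
def Smp (B : LinearMap.BilinForm ℚ V) (L : Submodule ℤ V) {k : ℕ} (p : Fin k → V) : Prop :=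
  ∀ i j, i ≠ j → Rt B L (p i - p j)

theorem Smp.ip (S : Smp B L p) (hB : PDF B) (a b c d : Fin k) :
    B (p a - p b) (p c - p d) = (if a = c then 1 else 0) - (if a = d then 1 else 0) -
      (if b = c then 1 else 0) + (if b = d then 1 else 0) := by
  have D : ∀ i j, B (p i - p j) (p i - p j) = 2 - 2 * (if i = j then 1 else 0) := fun i j => by
    split_ifs with h
    · simp [h]
    · simpa using (S i j h).2
  have h1 := D a d
  have h2 := D b c
  have h3 := D a c
  have h4 := D b d
  simp only [map_sub, LinearMap.sub_apply] at h1 h2 h3 h4 ⊢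
  linarith [hB.symm (p c) (p b), hB.symm (p c) (p a), hB.symm (p d) (p a), hB.symm (p d) (p b)]

/-- vertex direction -/
def om (p : Fin k → V) (q : Fin k) : V := (k : ℚ)⁻¹ • ∑ t, (p q - p t)

theorem Smp.om_ip (S : Smp B L p) (hB : PDF B) (q i j : Fin k) :
    B (om p q) (p i - p j) = (if q = i then 1 else 0) - (if q = j then 1 else 0) := by
  have : (k : ℚ) ≠ 0 := by exact_mod_cast q.pos.ne'
  rw [om, map_smul, map_sum, LinearMap.smul_apply, LinearMap.sum_apply]
  simp only [S.ip hB, Finset.sum_add_distrib, Finset.sum_sub_distrib, Finset.sum_const,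
    Finset.card_univ, Fintype.card_fin, Finset.sum_ite_eq', Finset.mem_univ, if_true, smul_eq_mul,
    nsmul_eq_mul]
  field_simp
  ring

theorem Smp.le {p : Fin (k + 1) → V} (S : Smp B L p) (hB : PDF B) : k ≤ finrank ℚ V := by
  have : LinearIndependent ℚ fun i : Fin k => p i.succ - p 0 := by
    rw [Fintype.linearIndependent_iff]
    intro g hg i
    have := congrArg (B (om p i.succ)) hg
    simpa [S.om_ip hB, map_sum, -map_sub] using this
  simpa using this.fintype_card_le_finrank

theorem Smp.ext (S : Smp B L p) (hB : PDF B) {r : V} (hr : Rt B L r) {q : Fin k} {c : ℚ}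
    (hc : c = 1 ∨ c = -1) (hq : ∀ i, i ≠ q → B r (p q - p i) = c) :
    ∃ p' : Fin (k + 1) → V, Smp B L p' := by
  have h0 : c • r ∈ L := by
    rcases hc with rfl | rfl
    · simpa using hr.1
    · simpa using hr.1
  have h1 : ∀ i, Rt B L (p q - c • r - p i) := fun i => by
    rw [sub_right_comm]
    by_cases hi : i = q
    · subst hi
      rw [sub_self, zero_sub]
      refine ⟨neg_mem h0, ?_⟩
      rcases hc with rfl | rfl <;> simp [hr.2]
    · have k1 := S q i (Ne.symm hi)
      refine ⟨sub_mem k1.1 h0, ?_⟩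
      have k2 := hq i hi
      generalize p q - p i = y at *
      simp only [map_sub, map_smul, LinearMap.sub_apply, LinearMap.smul_apply, k1.2, hr.2, k2,
        hB.symm y r, smul_eq_mul]
      rcases hc with rfl | rfl <;> norm_num
  refine ⟨Fin.cons (p q - c • r) p, fun i j => ?_⟩
  refine Fin.cases ?_ (fun i => ?_) i <;> refine Fin.cases ?_ (fun j => ?_) j
  · exact fun h => (h rfl).elim
  · exact fun _ => h1 j
  · intro _
    have := h1 i
    simp only [Fin.cons_zero, Fin.cons_succ]
    rw [← neg_sub]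
    exact ⟨neg_mem this.1, by simpa only [map_neg, LinearMap.neg_apply, neg_neg] using this.2⟩
  · exact fun h => S i j fun h' => h (by rw [h'])

theorem two_level {d : Fin k → ℚ} (h : ∀ i j, d i - d j = 0 ∨ d i - d j = 1 ∨ d i - d j = -1) :
    (∀ i j, d i - d j = 0) ∨ (∃ q c, (c = 1 ∨ c = -1) ∧ ∀ i, i ≠ q → d q - d i = c) ∨
      ∃ q q' s s', q ≠ q' ∧ s ≠ s' ∧ d q - d s = 1 ∧ d q' = d q ∧ d s' = d s := by
  by_cases h1 : ∀ i j, d i - d j = 0
  · exact .inl h1
  right
  obtain ⟨q, s, hq⟩ : ∃ q s, d q - d s = 1 := by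
    push Not at h1
    obtain ⟨i, j, hij⟩ := h1
    rcases (h i j).resolve_left hij with h2 | h2
    · exact ⟨i, j, h2⟩
    · exact ⟨j, i, by linarith⟩
  have h2 : ∀ i, d i = d q ∨ d i = d s := fun i => by
    rcases h i q with a | a | a <;> rcases h i s with b | b | b <;>
      first | (left; linarith) | (right; linarith)
  by_cases h3 : ∃ q', q ≠ q' ∧ d q' = d q
  · by_cases h4 : ∃ s', s ≠ s' ∧ d s' = d s
    · obtain ⟨q', a, b⟩ := h3
      obtain ⟨s', c, e⟩ := h4
      exact .inr ⟨q, q', s, s', a, c, hq, b, e⟩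
    · push Not at h4
      refine .inl ⟨s, -1, .inr rfl, fun i hi => ?_⟩
      rw [(h2 i).resolve_right (h4 i hi.symm)]
      linarith
  · push Not at h3
    refine .inl ⟨q, 1, .inl rfl, fun i hi => ?_⟩
    rw [(h2 i).resolve_left (h3 i hi.symm)]
    exact hq

theorem d3_ext (hB : PDF B) {x y z r : V} (hx : Rt B L x) (hy : Rt B L y) (hz : Rt B L z)
    (hr : Rt B L r) (xy : B x y = 1) (xz : B x z = 1) (yz : B y z = 1) (rx : B r x = 1)
    (ry : B r y = 1) (rz : B r z = 0) : ∃ e : Fin 4 → V, Frame B L e := by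
  have F : Frame B L ![(1 / 2 : ℚ) • (x + y - z), (1 / 2 : ℚ) • (x - y + z),
      (1 / 2 : ℚ) • (x - y - z)] := by
    refine ⟨fun i j => ?_, fun i j => ?_⟩
    · fin_cases i <;> fin_cases j <;>
        simp [hx.2, hy.2, hz.2, xy, xz, yz, hB.symm y x, hB.symm z x, hB.symm z y] <;> norm_num
    · have a := hx.1
      have b := hy.1
      have c := hz.1
      fin_cases i <;> fin_cases j <;> simp only [Fin.zero_eta, Fin.mk_one, Fin.reduceFinMk,
        Matrix.cons_val]
      · convert sub_mem (add_mem a b) c using 1; module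
      · convert a using 1; module
      · convert sub_mem a c using 1; module
      · convert a using 1; module
      · convert add_mem (sub_mem a b) c using 1; module
      · convert sub_mem a b using 1; module
      · convert sub_mem a c using 1; module
      · convert sub_mem a b using 1; module
      · convert sub_mem (sub_mem a b) c using 1; module
  refine F.ext hB hr (q := 0) (.inl rfl) fun i => ?_
  fin_cases i <;> simp [rx, ry, rz]
  norm_num

theorem RS.rt_ip (h : RS σ B L) {r s : V} (hr : Rt B L r) (hs : Rt B L s) :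
    r = s ∨ r = -s ∨ B r s = 0 ∨ B r s = 1 ∨ B r s = -1 := by
  obtain ⟨z, hz⟩ := h.int _ hr.1 _ hs.1
  have k := h.pd.cs r s
  rw [hr.2, hs.2, hz] at k
  have k0 : z ^ 2 ≤ 4 := by exact_mod_cast k
  have k1 : z ≤ 2 := by nlinarith
  have k2 : -2 ≤ z := by nlinarith
  interval_cases z
  · refine .inr (.inl (eq_neg_of_add_eq_zero_left (h.pd.eq_zero ?_)))
    simp [hr.2, hs.2, h.pd.symm s r, hz]
  · simp [hz]
  · simp [hz]
  · simp [hz]
  · refine .inl (sub_eq_zero.1 (h.pd.eq_zero ?_))
    simp [hr.2, hs.2, h.pd.symm s r, hz]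

theorem ite_sub_one {P Q : Prop} [Decidable P] [Decidable Q]
    (h : ((if P then 1 else 0) - (if Q then 1 else 0) : ℚ) = 1) : P ∧ ¬ Q := by
  split_ifs at h with h1 h2 h2
  · norm_num at h
  · exact ⟨h1, h2⟩
  · norm_num at h
  · norm_num at h

theorem RS.no_root (h : RS σ B L) (r : V) : ¬ Rt B L r := by
  intro hr
  obtain ⟨k, k1, ⟨p, S⟩, hm⟩ := exists_step (P := fun k => ∃ p : Fin (k + 1) → V, Smp B L p) (a := 1)
    ⟨![r, 0], fun i j hij => by
      fin_cases i <;> fin_cases j
      · exact (hij rfl).elim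
      · simpa using hr
      · exact ⟨by simpa using hr.1, by simpa using hr.2⟩
      · exact (hij rfl).elim⟩ (fun n ⟨_, S⟩ => S.le h.pd)
  have ty : ∀ s, Rt B L s → (∃ i j, s = p i - p j) ∨ ∀ i j, B s (p i - p j) = 0 := fun s hs => by
    rw [or_iff_not_imp_left]
    intro h0
    push Not at h0
    rcases two_level (d := fun i => B s (p i)) (fun i j => by
      rw [← map_sub]
      by_cases hij : i = j
      · simp [hij]
      rcases h.rt_ip hs (S i j hij) with a | a | a
      · exact (h0 _ _ a).elim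
      · exact (h0 j i (by rw [a, neg_sub])).elim
      · exact a) with a | ⟨q, c, a, b⟩ | ⟨q, q', t, t', a, b, c, d, e⟩
    · simpa only [map_sub] using a
    · exact (hm (S.ext h.pd hs a fun i hi => by rw [map_sub, b i hi])).elim
    · have n1 : q ≠ t := by rintro rfl; simp at c
      have n2 : q ≠ t' := by rintro rfl; rw [e] at c; simp at c
      have n3 : q' ≠ t := by rintro rfl; rw [d] at c; simp at c
      have n4 : q' ≠ t' := by rintro rfl; rw [← d, e] at c; simp at c
      refine (h.no_frame (d3_ext h.pd (S q t' n2) (S q' t' n4) (S t t' b) hs ?_ ?_ ?_ ?_ ?_ ?_)).elim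
      · rw [S.ip h.pd]; simp [a, n2, n4.symm]
      · rw [S.ip h.pd]; simp [n1, n2, b.symm]
      · rw [S.ip h.pd]; simp [n3, n4, b.symm]
      · rw [map_sub]; linarith
      · rw [map_sub]; linarith
      · rw [map_sub]; linarith
  let U := span ℚ (Set.range fun ij : Fin (k + 1) × Fin (k + 1) => p ij.1 - p ij.2)
  have ort : ∀ y, (∀ i j, B y (p i - p j) = 0) → ∀ u ∈ U, B y u = 0 := fun y hy u hu =>
    span_induction (p := fun u _ => B y u = 0) (by rintro _ ⟨i, rfl⟩; exact hy _ _) (by simp)
      (fun x y _ _ hx hy => by simp [hx, hy]) (fun c x _ hx => by simp [hx]) hu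
  have n01 : (0 : Fin (k + 1)) ≠ ⟨1, by omega⟩ := by simp [Fin.ext_iff]
  have hU : U = ⊤ := h.conn (fun s hs => (ty s hs).imp
    (by rintro ⟨i, j, rfl⟩; exact subset_span ⟨(i, j), rfl⟩) (ort s)) (S _ _ n01)
    (subset_span ⟨(_, _), rfl⟩)
  have z0 : ∀ y, (∀ i j, B y (p i - p j) = 0) → y = 0 := fun y hy =>
    h.pd.eq_zero (ort y hy y (hU ▸ mem_top))
  have ty' : ∀ s, Rt B L s → ∃ i j, s = p i - p j := fun s hs =>
    (ty s hs).resolve_right fun h0 => hs.ne (z0 s h0)
  have d2 := S.le h.pd
  rw [h.dim] at d2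
  have o0 : om p 0 ≠ 0 := fun h0 => by
    have := S.om_ip h.pd 0 0 ⟨1, by omega⟩
    rw [h0, if_pos rfl, if_neg n01] at this
    simp at this
  refine h.no_lines (ι := Fin (k + 1)) (by rw [Nat.card_fin]; omega) (om p) o0 fun g => ?_
  have z1 : ∀ s, Rt B L s → B (σ g (om p 0)) s = 0 ∨ B (σ g (om p 0)) s = 1 ∨
      B (σ g (om p 0)) s = -1 := fun s hs => by
    obtain ⟨i, j, hij⟩ := ty' _ (h.rt g⁻¹ hs)
    rw [h.inv.adj, hij, S.om_ip h.pd]
    split_ifs <;> simp
  have z2 : ∀ s t, Rt B L s → Rt B L t → B (σ g (om p 0)) s = 1 → B (σ g (om p 0)) t = 1 →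
      B s t ≠ 0 := fun s t hs ht => by
    obtain ⟨i, j, hij⟩ := ty' _ (h.rt g⁻¹ hs)
    obtain ⟨i', j', hij'⟩ := ty' _ (h.rt g⁻¹ ht)
    rw [h.inv.adj, hij, S.om_ip h.pd, h.inv.adj, hij', S.om_ip h.pd, ← h.inv g⁻¹, hij, hij',
      S.ip h.pd]
    intro a b
    have a1 := ite_sub_one a
    have b1 := ite_sub_one b
    rw [← a1.1, ← b1.1, if_pos rfl, if_neg b1.2, if_neg (Ne.symm a1.2)]
    split_ifs <;> norm_num
  rcases two_level (d := fun i => B (σ g (om p 0)) (p i)) (fun i j => by
    rw [← map_sub]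
    by_cases hij : i = j
    · simp [hij]
    exact z1 _ (S i j hij)) with a | ⟨q, c, a, b⟩ | ⟨q, q', t, t', a, b, c, d, e⟩
  · have := z0 (σ g (om p 0)) fun i j => by rw [map_sub, a]
    exact (o0 (by rw [← s_inv σ g (om p 0), this, map_zero])).elim
  · have : σ g (om p 0) - c • om p q = 0 := z0 _ fun i j => by
      rw [map_sub B, LinearMap.sub_apply, map_smul, LinearMap.smul_apply, S.om_ip h.pd, map_sub,
        smul_eq_mul]
      by_cases hi : q = i <;> by_cases hj : q = j
      · subst hi hj; simp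
      · subst hi; rw [b j (Ne.symm hj)]; simp [hj]
      · subst hj
        have := b i (Ne.symm hi)
        simp only [hi, if_true, if_false]
        linarith
      · have := b i (Ne.symm hi)
        have := b j (Ne.symm hj)
        simp only [hi, hj, if_false]
        linarith
    refine ⟨q, ?_⟩
    rcases a with rfl | rfl
    · left; simpa [sub_eq_zero] using this
    · right; simpa [add_eq_zero_iff_eq_neg] using this
  · have n1 : q ≠ t := by rintro rfl; simp at c
    have n2 : q ≠ t' := by rintro rfl; rw [e] at c; simp at c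
    have n3 : q' ≠ t := by rintro rfl; rw [d] at c; simp at c
    have n4 : q' ≠ t' := by rintro rfl; rw [← d, e] at c; simp at c
    refine (z2 _ _ (S q t n1) (S q' t' n4) ?_ ?_ ?_).elim
    · rw [map_sub]; linarith
    · rw [map_sub]; linarith
    · rw [S.ip h.pd]; simp [a, n2, n3.symm, b]

end H21.F23
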