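import Cfsg.Agent.H21.F23G
import Cfsg.Agent.S0406
import Cfsg.Agent.S0400
import Cfsg.Agent.S0401

/-!
Feit's theorem on rational groups of degree 23.
-/

set_option autoImplicit false

namespace H21.F23
open Module Matrix Cfsg

theorem to_stab {G : Type*} [Group G] (τ : G →* Equiv.Perm (Fin 24 → ℤ))
    (ε : G →* Multiplicative (ZMod 2)) (f : (Fin 24 → ℤ) ≃+ leechLattice) (b : Fin 24 → ℤ)
    (h1 : ∀ g a a', τ g (a + a') = τ g a + τ g a')
    (h2 : ∀ g a, sqNorm (f (τ g a) : GolayPt → ℤ) = sqNorm (f a : GolayPt → ℤ))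
    (h3 : ∀ g, τ g b = b) (h4 : ∀ g, ε g = 1 → τ g = 1 → g = 1) (u : leechLattice) (k : Co0)
    (hk : k • f b = u) :
    ∃ F : G →* Multiplicative (ZMod 2) ×
      ↥(Co0 ⊓ MulAction.stabilizer (Equiv.Perm leechLattice) u), Function.Injective F := by
  let φ : G →* Equiv.Perm leechLattice := (MulAut.conj (k : Equiv.Perm leechLattice)).toMonoidHom.comp
    ((Equiv.permCongrHom f.toEquiv).toMonoidHom.comp τ)
  refine ⟨ε.prod (φ.codRestrict _ fun g => ⟨?_, ?_⟩), (injective_iff_map_eq_one _).2 fun g hg => ?_⟩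
  · refine Co0.mul_mem (Co0.mul_mem k.2 ⟨fun v w => ?_, fun v => ?_⟩) (Co0.inv_mem k.2)
    · change f (τ g (f.symm (v + w))) = f (τ g (f.symm v)) + f (τ g (f.symm w))
      rw [map_add, h1, map_add]
    · change sqNorm (f (τ g (f.symm v)) : GolayPt → ℤ) = _
      rw [h2, AddEquiv.apply_symm_apply]
  · subst hk
    change k.1 (f (τ g (f.symm (k.1⁻¹ (k.1 (f b)))))) = k.1 (f b)
    rw [Equiv.Perm.coe_inv, Equiv.symm_apply_apply, AddEquiv.symm_apply_apply, h3]
  · refine h4 g (congrArg Prod.fst hg) ?_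
    have : φ g = 1 := congrArg (fun p => (Prod.snd p).1) hg
    exact (map_eq_one_iff _ (Equiv.permCongrHom f.toEquiv).injective).1
      ((map_eq_one_iff _ (MulAut.conj (k : Equiv.Perm leechLattice)).injective).1 this)

theorem main {G : Type*} [Group G] [Finite G]
    (ρ : G →* GL (Fin 23) ℚ) (hρ : Function.Injective ρ)
    (hirr : ∀ W : Submodule ℚ (Fin 23 → ℚ), (∀ g : G, ∀ w ∈ W,
      ((ρ g : GL (Fin 23) ℚ) : Matrix (Fin 23) (Fin 23) ℚ).mulVec w ∈ W) → W = ⊥ ∨ W = ⊤)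
    (hidx : ∀ H : Subgroup G, H.index ≠ 23 ∧ H.index ≠ 24) :
    (∃ f : G →* Multiplicative (ZMod 2) × Spor.Co2, Function.Injective f) ∨
    (∃ f : G →* Multiplicative (ZMod 2) × Spor.Co3, Function.Injective f) := by
  have := Fintype.ofFinite G
  let σ : G →* End ℚ (Fin 23 → ℚ) := (Matrix.toLinAlgEquiv' (R := ℚ) (n := Fin 23)).toMonoidHom.comp
    ((Units.coeHom _).comp ρ)
  let B : LinearMap.BilinForm ℚ (Fin 23 → ℚ) := LinearMap.mk₂ ℚ (fun u v => ∑ g, σ g u ⬝ᵥ σ g v)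
    (fun _ _ _ => by simp [Finset.sum_add_distrib]) (fun _ _ _ => by simp [Finset.mul_sum])
    (fun _ _ _ => by simp [Finset.sum_add_distrib]) (fun _ _ _ => by simp [Finset.mul_sum])
  have hB : ∀ u v, B u v = ∑ g, σ g u ⬝ᵥ σ g v := fun _ _ => rfl
  have h : St σ B := by
    refine ⟨⟨fun u v => ?_, fun v hv => ?_⟩, fun g u v => ?_, hirr, by simp, fun g g' hg => ?_⟩
    · simp only [hB, dotProduct_comm]
    · rw [hB]
      refine Finset.sum_pos' (fun g _ => Finset.sum_nonneg fun i _ => mul_self_nonneg _)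
        ⟨1, Finset.mem_univ _, ?_⟩
      rw [map_one, End.one_apply]
      exact lt_of_le_of_ne (Finset.sum_nonneg fun i _ => mul_self_nonneg _)
        fun h0 => hv (dotProduct_self_eq_zero.1 h0.symm)
    · rw [hB, hB, ← Equiv.sum_comp (Equiv.mulRight g) fun h => σ h u ⬝ᵥ σ h v]
      simp only [s_mul, Equiv.coe_mulRight]
    · exact hρ (Units.ext (Matrix.toLinAlgEquiv'.injective hg))
  obtain ⟨A, τ, b, ε, a1, a2, a3, a4, a5, a6, a7, a8, a9, a10⟩ := exists_glue h hidx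
  obtain ⟨c1, c2, c3⟩ := H1.Th.counts a1 a3 a4 a2 a5
  obtain ⟨f, hf⟩ := Cfsg.Agent.S0406.result A a1 a3 a4 a5 c1 c2 c3
  have h2 : ∀ g a, sqNorm (f (τ g a) : GolayPt → ℤ) = sqNorm (f a : GolayPt → ℤ) := fun g a => by
    rw [hf, hf, a7]
  refine a9.imp (fun h9 => ?_) fun h9 => ?_
  · obtain ⟨k, hk⟩ := Cfsg.Agent.S0400.result (f b) Spor.leechU (by rw [hf, h9]; rfl) (by decide)
    exact to_stab τ ε f b a6 h2 a8 a10 _ k hk
  · obtain ⟨k, hk⟩ := Cfsg.Agent.S0401.result (f b) Spor.leechV (by rw [hf, h9]; rfl) (by decide)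
    exact to_stab τ ε f b a6 h2 a8 a10 _ k hk

end H21.F23
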