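import Cfsg.Agent.H21.DL8

/-! A real character of degree `p + 1` forces short Jordan blocks. -/

open Cfsg MonoidAlgebra
open H5 H7 H8
namespace H21.DL
open Module Finset Subgroup Representation Matrix
open scoped ComplexConjugate

section
variable {k L : Type*} [Field k] [AddCommGroup L] [Module k L] [FiniteDimensional k L] {y : End k L}

theorem finrank_inf_add (f : End k L) (A : Submodule k L) :
    finrank k (A.map f) + finrank k (A ⊓ LinearMap.ker f :) = finrank k A := by
  have h1 := (f ∘ₗ A.subtype).finrank_range_add_finrank_ker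
  rwa [LinearMap.range_comp, Submodule.range_subtype, LinearMap.ker_comp,
    ← Submodule.finrank_map_subtype_eq A (Submodule.comap _ _), Submodule.map_comap_subtype] at h1

theorem ker_pow_le (m : ℕ) : finrank k (LinearMap.ker (y ^ m)) ≤ m * finrank k (LinearMap.ker y) := by
  induction m with
  | zero => simp [End.one_eq_id]
  | succ m ih =>
    have k1 := finrank_inf_add (y ^ m) (LinearMap.ker (y ^ (m + 1)))
    have k2 := Submodule.finrank_mono (show (LinearMap.ker (y ^ (m + 1))).map (y ^ m) ≤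
      LinearMap.ker y by rintro _ ⟨w, hw, rfl⟩; rwa [LinearMap.mem_ker, ← End.mul_apply, ← pow_succ'])
    have k3 := Submodule.finrank_mono (inf_le_right (a := LinearMap.ker (y ^ (m + 1)))
      (b := LinearMap.ker (y ^ m)))
    rw [add_mul]; omega

theorem mul_rank_le {n : ℕ} (hn : y ^ (n + 1) = 0) :
    (n + 1) * finrank k (LinearMap.range (y ^ n)) ≤ finrank k L := by
  have : ∀ i ≤ n + 1, i * finrank k (LinearMap.range (y ^ n)) + finrank k (LinearMap.range (y ^ i)) ≤
      finrank k L := fun i hi => by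
    induction i with
    | zero => simpa using Submodule.finrank_le _
    | succ i ih =>
      have k1 := finrank_inf_add y (LinearMap.range (y ^ i))
      have k2 := Submodule.finrank_mono (show LinearMap.range (y ^ n) ≤
        LinearMap.range (y ^ i) ⊓ LinearMap.ker y by
          rintro _ ⟨w, rfl⟩
          refine ⟨⟨(y ^ (n - i)) w, by rw [← End.mul_apply, ← pow_add, Nat.add_sub_cancel' (by omega)]⟩, ?_⟩
          rw [SetLike.mem_coe, LinearMap.mem_ker, ← End.mul_apply, ← pow_succ', hn]; rfl)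
      rw [← LinearMap.range_comp, ← End.mul_eq_comp, ← pow_succ'] at k1
      have := ih (by omega)
      rw [add_mul]; omega
  exact (Nat.le_add_right _ _).trans (this _ le_rfl)

end

variable {G : Type*} [Group G] [Finite G] {p : ℕ} {x h : G} {a e : ℕ} {M : Ideal AlgInt}
  {ι : Type*} [Fintype ι] [DecidableEq ι]

/-- the dual lattice -/
noncomputable def Lat.dual (A : Lat G ι M) : Lat G ι M :=
  ⟨⟨⟨fun g => (A.R g⁻¹)ᵀ, by simp⟩, fun g g' => by
    simp only [_root_.mul_inv_rev, map_mul, transpose_mul]⟩, fun _ _ _ => A.int _ _ _⟩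

omit [Finite G] in
theorem Lat.dual_k (A : Lat G ι M) (g : G) (u v : ι → kk M) :
    A.dual.k g u ⬝ᵥ v = u ⬝ᵥ A.k g⁻¹ v := by
  rw [mr_apply, mr_apply, dotProduct_mulVec, ← mulVec_transpose]; rfl

theorem Lat.exists_dual (A : Lat G ι M) (hA : IsIrrCharacter G A.c.character)
    (hr : ∀ g, conj (A.c.character g) = A.c.character g) :
    ∃ φ : (ι → kk M) →ₗ[kk M] (ι → kk M), φ ≠ 0 ∧ ∀ g v, A.k g (φ v) = φ (A.dual.k g v) := by
  have := Fintype.ofFinite G
  have h1 := classInner_character_one (A.dual.hom A).c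
  rw [show (A.dual.hom A).c.character = fun g => A.c.character g * conj (A.c.character g) from
    funext fun g => by
      rw [Lat.hom_char, show A.dual.c.character g = A.c.character g⁻¹ by
        rw [mr_char, mr_char]; exact trace_transpose _, hA.apply_inv, Complex.conj_conj, hr],
    ← classInner_eq_mul_conj_one, hA.classInner_self] at h1
  obtain ⟨v, hv, h0⟩ := Submodule.exists_mem_ne_zero_of_ne_bot (p := (A.dual.hom A).c.invariants)
    (by rintro H; rw [H] at h1; simp at h1)
  obtain ⟨γ, -, k1, i, k2⟩ := exists_prim (M := M) h0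
  have k3 := Submodule.smul_mem _ γ hv
  generalize γ • v = s at k1 k2 k3
  refine ⟨vl ι ι _ (rv M s), fun H => ?_, fun g => hom_eq.1 ?_⟩
  · simpa [rv, k2, red_one] using congrFun ((vl ι ι _).map_eq_zero_iff.1 H) i
  · rw [← Lat.vl_k, ← Lat.rv_c g k1, k3 g]

namespace St

section
variable {k L L' : Type*} [Field k] [AddCommGroup L] [Module k L] [FiniteDimensional k L]
  [AddCommGroup L'] [Module k L'] [hp : Fact p.Prime] [CharP k p] (S : St p x h a e)
  {σ : Representation k G L}
include S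

theorem dim_lt (hZ : center G = ⊥) (hirr : ∀ A : Submodule k L, (∀ g, ∀ v ∈ A, σ g v ∈ A) → A = ⊥ ∨ A = ⊤)
    (hs : ∀ φ : End k L, (∀ g, Commute φ (σ g)) → ∃ c : k, φ = c • 1) (h0 : np x σ = 0) :
    finrank k L < p := by
  have he : σ h ^ e = 1 := by rw [← map_pow, show h ^ e = 1 from hZ.le S.hz, map_one]
  have k0 : ∀ v, (σ x - 1) v = 0 ↔ σ x v = v := fun v => by simp [sub_eq_zero]
  have k1 : ∀ v ∈ LinearMap.ker (σ x - 1), ∀ j, ∃ c, Sm σ x h (pr (σ h) (1 * (a : k) ^ (j + 1)) e v) c :=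
    fun v hv j => ⟨_, (k0 _).1 (pr_mem_of (S := LinearMap.ker (σ x - 1)) (fun w hw => by
      simpa using S.ker_stable σ S.h_mem (m := 1) (by simpa using hw)) hv),
      fun z hz => by simp [show z = 1 from hZ.le hz], End.mem_eigenspace_iff.1 (pr_mem
        (mul_ne_zero one_ne_zero (pow_ne_zero _ (S.prim'.ne_zero S.pos.ne'))) (by
          rw [he, one_mul, ← pow_mul, mul_comm, pow_mul, S.prim'.pow_eq_one]; simp) v)⟩
  have k2 : ∀ s t α β, Sm σ x h s α → Sm σ x h t β → t ≠ 0 → s ∈ k ∙ t := fun s t α β h1 h2 t0 => by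
    obtain ⟨j, -, ⟨Y, hY⟩, hj⟩ := exists_level (y := σ x - 1) (t := t) (m := p) (by simpa [S.nil σ])
    have h3 := S.nil_of h0 h2 (fun U hU => (hirr (Submodule.span k (Set.range fun g => σ g t))
      (fun g v hv => Submodule.span_induction (fun _ ⟨g', e⟩ => Submodule.subset_span
        ⟨g * g', by simp [← e]⟩) (by simp) (fun _ _ _ _ a b => map_add (σ g) _ _ ▸ add_mem a b)
        (fun c _ _ a => map_smul (σ g) c _ ▸ Submodule.smul_mem _ c a) hv)).elim
      (fun e => absurd (e.le (Submodule.subset_span ⟨1, by simp⟩)) t0) fun e =>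
        top_le_iff.1 (e.ge.trans (Submodule.span_le.2 (by rintro _ ⟨g, rfl⟩; exact hU g)))) hj
    by_cases H : t ∈ k ∙ s
    · obtain ⟨c, rfl⟩ := Submodule.mem_span_singleton.1 H
      exact Submodule.mem_span_singleton.2 ⟨c⁻¹, inv_smul_smul₀ (left_ne_zero_of_smul t0) s⟩
    obtain ⟨f, f1, f2⟩ := Submodule.exists_dual_map_eq_bot_of_notMem H inferInstance
    obtain ⟨Φ, c1, c2, -⟩ := S.base σ (j := j) (f := f) (fun v => by simp [h3]) hY h2.fx
    obtain ⟨c, rfl⟩ := hs Φ c1
    have c3 := c2 t β (f t • t) h2 fun n _ γ H => by rw [smul_comm, ← map_smul, ← H, apply_inv]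
    have c4 := c2 s α 0 h1 fun n _ γ _ => by
      simp [(Submodule.mem_bot k).1 (f2 ▸ Submodule.mem_map_of_mem (Submodule.mem_span_singleton_self s))]
    rw [h0, LinearMap.range_zero, Submodule.mem_bot, sub_eq_zero] at c3 c4
    rw [← Nat.cast_smul_eq_nsmul k, smul_smul] at c3
    rw [smul_zero, LinearMap.smul_apply, smul_eq_zero] at c4
    rcases c4 with rfl | c4
    · exact absurd (c3.symm.trans (by simp)) (smul_ne_zero (mul_ne_zero S.q_ne f1) t0)
    · simp [show s = 0 from c4]
  have k3 : finrank k (LinearMap.ker (σ x - 1)) ≤ 1 := by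
    by_cases H : ∃ t β, Sm σ x h t β ∧ t ≠ 0
    · obtain ⟨t, β, h1, h2⟩ := H
      refine (Submodule.finrank_mono (t := k ∙ t) fun v hv => ?_).trans (finrank_span_singleton h2).le
      rw [← End.one_apply (R := k) v, ← sum_pr (T := σ h) (c := 1) S.prim' S.e_ne, LinearMap.sum_apply]
      exact sum_mem fun j _ => let ⟨c, hc⟩ := k1 v hv j; k2 _ t c β hc h1 h2
    · refine (Submodule.finrank_mono (t := ⊥) fun v hv => ?_).trans (by simp)
      rw [← End.one_apply (R := k) v, ← sum_pr (T := σ h) (c := 1) S.prim' S.e_ne, LinearMap.sum_apply]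
      exact sum_mem fun j _ => let ⟨c, hc⟩ := k1 v hv j; by_contra fun e => H ⟨_, c, hc, e⟩
  have k4 := ker_pow_le (y := σ x - 1) (p - 1)
  rw [← np_eq S.ord, h0, LinearMap.ker_zero, finrank_top] at k4
  have := Nat.mul_le_mul_left (p - 1) k3
  have := S.prime.pos
  omega

theorem dual_one {τ : Representation k G L'} (B : L' → L → k) (hB0 : ∀ u c v, B u (c • v) = c * B u v)
    (hB : ∀ g u v, B (τ g u) v = B u (σ g⁻¹ v)) (hB1 : ∀ u v, B (np x τ u) v = B u (np x σ v))
    (hB2 : ∀ u u' (c : k), (∀ v, B u v = c * B u' v) → u = c • u') {φ : L' →ₗ[k] L}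
    (hφ : Function.Surjective φ) (hφ' : ∀ g v, σ g (φ v) = φ (τ g v)) (hd : finrank k L < 2 * p)
    (h0 : np x σ ≠ 0) (he : σ h ^ e = 1) (ho : Odd e) :
    ∃ u, np x σ u ≠ 0 ∧ σ h (np x σ u) = np x σ u := by
  obtain ⟨u, hu⟩ := DFunLike.ne_iff.1 h0
  obtain ⟨u, rfl⟩ := hφ u
  have k1 := mul_rank_le (y := σ x - 1) (n := p - 1) (by rw [Nat.sub_add_cancel S.prime.pos, S.nil])
  rw [Nat.sub_add_cancel S.prime.pos, ← np_eq S.ord] at k1
  have k2 : finrank k (LinearMap.range (np x σ)) < 2 := by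
    by_contra! H
    have := Nat.mul_le_mul_left p H
    omega
  have k3 : ∀ v, ∃ c : k, np x σ v = c • np x σ (φ u) := fun v => by
    have := Submodule.eq_of_le_of_finrank_le (S₁ := k ∙ np x σ (φ u)) (S₂ := LinearMap.range (np x σ))
      ((Submodule.span_singleton_le_iff_mem _ _).2 ⟨_, rfl⟩) (by rw [finrank_span_singleton hu]; omega)
    obtain ⟨c, hc⟩ := Submodule.mem_span_singleton.1 (this.ge ⟨v, rfl⟩)
    exact ⟨c, hc.symm⟩
  have k4 : ∀ g ∈ normalizer (SetLike.coe (zpowers x)), ∀ v, np x σ (σ g v) = σ g (np x σ v) :=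
    fun g hg v => (LinearMap.congr_fun (commute_np σ hg).eq v).symm
  obtain ⟨c, hc⟩ := k3 (σ h⁻¹ (φ u))
  rw [k4 _ (inv_mem S.h_mem)] at hc
  have k5 : τ h (np x τ u) = c • np x τ u := hB2 _ _ c fun v => by
    obtain ⟨d, hd⟩ := k3 v
    rw [hB, hB1, hB1, k4 _ (inv_mem S.h_mem), hd, map_smul, hc, hB0, hB0, hB0, mul_left_comm]
  have k6 : φ (np x τ u) = np x σ (φ u) := by simp only [np_apply, map_sum, hφ']
  have k7 : σ h (np x σ (φ u)) = c • np x σ (φ u) := by rw [← k6, hφ', k5, map_smul]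
  have k8 : c * c = 1 := by
    have := congrArg (σ h) hc
    rw [apply_inv, map_smul, k7, smul_smul] at this
    exact smul_left_injective k hu (this.symm.trans (one_smul _ _).symm)
  have k9 : ∀ l : ℕ, (σ h ^ l) (np x σ (φ u)) = c ^ l • np x σ (φ u) := fun l => by
    induction l with
    | zero => simp
    | succ l ih => rw [pow_succ', End.mul_apply, ih, map_smul, k7, smul_smul, pow_succ]
  obtain ⟨m, rfl⟩ := ho
  have := k9 (2 * m + 1)
  rw [he, pow_succ, pow_mul, pow_two, k8, one_pow, one_mul] at this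
  exact ⟨φ u, hu, k7.trans this.symm⟩

end

theorem real_succ [IsSimpleGroup G] (S : St p x h a e) (hM : IsPModular p M) (hZ : center G = ⊥)
    (ho : Odd e) (he : 2 * e < p) (h10 : 2 * e + 1 = p → 10 < p) {η : G → ℂ}
    (hη : IsIrrCharacter G η) (hd : charDegree η = p + 1) (hr : ∀ g, conj (η g) = η g)
    (h1 : nu x h e 1 η = 0) (H : Subgroup G) [Fintype H] (hH : ¬ p ∣ Nat.card H)
    (h2 : ∑ y : H, η y = 0) : ¬ NoSm (kk M) p x := fun hN => by
  have := Fact.mk hM.1
  have := charP_kk hM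
  obtain ⟨W⟩ := exists_wed G M
  obtain ⟨A, rfl⟩ := exists_lat (M := M) hη.isCharacter hd
  have x1 := ne_one_of_orderOf_prime S.prime S.ord
  have hn : ¬ (zpowers x).Normal := fun e => x1 (hZ.le (mem_center_iff.2 fun g => by
    obtain ⟨i, rfl⟩ := (e.eq_bot_or_eq_top.resolve_left (by simpa using x1)).ge (mem_top g)
    exact (Commute.zpow_self x i).eq))
  have hf : ∀ g, A.c.character g = A.c.character 1 → g = 1 := fun g hg =>
    (hη.charKer_eq_bot_of_simple fun e => by
      have := S.prime.pos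
      rw [e, H6.charDegree_eq (n := 1) (by simp)] at hd
      omega).le (hη.mem_charKer_iff.2 hg)
  have kd : ∀ j, Kil W (RingHom.ker A.k.asAlgebraHom) j → W.d ⟨_, hη⟩ j ≠ 0 := fun j h1 =>
    h1.d_ne fun a ha k1 k2 => A.alg_eq_zero ha (LinearMap.IsIdempotentElem.eq_zero_of_trace_eq_zero
      (k1.map _) ((ev_char A.c a).symm.trans k2))
  have hv := (val_natCast_eq_one_iff hM _).2 hH
  have nt : ∀ j, W.d ⟨_, hη⟩ j ≠ 0 → ws W j x ≠ 1 := fun j hj e => by
    have k1 : ∀ g, ws W j g = 1 := fun g => ((MonoidHom.normal_ker (ws W j)).eq_bot_or_eq_top.resolve_left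
      fun e' => x1 (e'.le e)).ge (mem_top g)
    let b : ℂ[G] := (Nat.card H : ℂ)⁻¹ • ∑ y : H, single (y : G) 1
    have k2 : ∑ y : H, single (y : G) (1 : ℂ) ∈ VG M G := sum_mem fun y _ => single_one_mem_VG _
    have k3 : W.Lift b (W.π (redG M b)) := ⟨smul_mem_VG (inv_mem_V_of_val_eq_one hv) k2, by
      have : ∀ v : H, single (v : G) (1 : ℂ) * ∑ y : H, single (y : G) 1 = ∑ y : H, single (y : G) 1 :=
        fun v => by
          rw [mul_sum]
          exact Fintype.sum_equiv (Equiv.mulLeft v) _ _ fun u => by simp [single_mul_single]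
      rw [IsIdempotentElem, smul_mul_smul_comm, sum_mul]
      simp only [this, sum_const, card_univ, ← Nat.card_eq_fintype_card, b,
        ← Nat.cast_smul_eq_nsmul ℂ, smul_smul]
      rw [mul_assoc, inv_mul_cancel₀ (card_ne_zero_complex H), mul_one], rfl⟩
    have k4 := k3.ev_eq_sum hη.isCharacter.isClassFunction
    have k5 : W.π (redG M b) j = 1 := Matrix.toLin'.injective (by
      rw [← wa_eq, redG_smul (inv_mem_V_of_val_eq_one hv) k2, redG_sum _ _ fun _ _ => single_one_mem_VG _,
        red_inv hv, red_natCast]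
      simp only [redG_single, red_one, map_smul, map_sum, asAlgebraHom_single_one, k1, sum_const,
        card_univ, ← Nat.card_eq_fintype_card, ← Nat.cast_smul_eq_nsmul (kk M)]
      rw [inv_smul_smul₀ (mt (CharP.cast_eq_zero_iff _ p _).1 hH), Matrix.toLin'_one]; rfl)
    rw [show ev A.c.character b = 0 by simp [b, h2], sum_congr rfl fun i _ => by
      rw [W.ev_i ⟨_, hη⟩ i], eq_comm] at k4
    norm_cast at k4
    have := sum_eq_zero_iff.1 k4 j (mem_univ j)
    rw [k5, rank_one, Fintype.card_fin] at this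
    exact mul_ne_zero (W.pos j).ne' hj this
  have lb : ∀ j, W.d ⟨_, hη⟩ j ≠ 0 → p ≤ W.n j + e := fun j hj => not_lt.1 fun H => nt j hj
    (hN _ (ws W j) e (S.si (ws_scalar j) (by simpa using pow_finrank (S.nil (ws W j))) H) he)
  have hs := (W.degree_eq hM ⟨_, hη⟩).symm.trans hd
  have big : ∀ j, W.d ⟨_, hη⟩ j ≠ 0 → W.n j = p + 1 := fun j hj => by
    by_contra H
    have k1 : ∃ i, W.d ⟨_, hη⟩ i ≠ 0 ∧ W.n j + W.n i ≤ p + 1 := by
      rw [← add_sum_erase _ _ (mem_univ j)] at hs
      by_cases H' : ∑ i ∈ univ.erase j, W.d ⟨_, hη⟩ i * W.n i = 0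
      · refine ⟨j, hj, ?_⟩
        rw [H', add_zero] at hs
        have : W.d ⟨_, hη⟩ j ≠ 1 := fun e => H (by simpa [e] using hs)
        exact hs ▸ (two_mul _).ge.trans (Nat.mul_le_mul_right _ (by omega))
      · obtain ⟨i, hi, k⟩ := exists_ne_zero_of_sum_ne_zero H'
        have k2 := Nat.le_mul_of_pos_left (W.n j) (Nat.pos_of_ne_zero hj)
        have k3 := Nat.le_mul_of_pos_left (W.n i) (Nat.pos_of_ne_zero (left_ne_zero_of_mul k))
        have := single_le_sum (f := fun i => W.d ⟨_, hη⟩ i * W.n i) (fun _ _ => Nat.zero_le _) hi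
        exact ⟨i, left_ne_zero_of_mul k, by omega⟩
    obtain ⟨i, hi, k1⟩ := k1
    have k2 := lb i hi
    have k3 := lb j hj
    have h6 := pow_finrank (S.nil (ws W j))
    rw [finrank_fintype_fun_eq_card, Fintype.card_fin] at h6
    have h7 : W.n j = e + 1 := by omega
    exact S.two (by omega) (h10 (by omega)) (ws_irr j) ⟨by simpa using h7, h7 ▸ h6,
      fun H => nt j hj (hN _ (ws W j) e H he)⟩ hN
  obtain ⟨j, j1, -⟩ := exists_j hM S.ord S.index hn A (A.faithful hf) W
  have n0 : np x A.k ≠ 0 := fun H => by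
    have := S.dim_lt hZ (ws_irr j) (ws_scalar j) ((alg_npA _).symm.trans
      (j1 (npA _ x) ((alg_npA _).trans H)))
    rw [finrank_fintype_fun_eq_card, Fintype.card_fin, big j (kd j j1)] at this
    omega
  obtain ⟨φ, φ0, φ1⟩ := A.exists_dual hη hr
  have h1' : h ^ e = 1 := hZ.le S.hz
  obtain ⟨u, u1, u2⟩ := S.dual_one (τ := A.dual.k) (· ⬝ᵥ ·) (fun u c v => by simp) A.dual_k
    (fun u v => by
      simp only [np_apply, sum_dotProduct, dotProduct_sum, A.dual_k]
      exact Fintype.sum_equiv (Equiv.inv _) _ _ fun u => rfl)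
    (fun u u' c H => dotProduct_eq _ _ fun v => by simpa using H v) (φ := φ) (by
      obtain ⟨w, hw⟩ := DFunLike.ne_iff.1 φ0
      let T : (kk M)[G] →ₗ[kk M] (Fin (p + 1) → kk M) :=
        LinearMap.applyₗ (φ w) ∘ₗ A.k.asAlgebraHom.toLinearMap
      obtain ⟨i, v, v0, hv⟩ := exists_common_ker (W := W) (I := ⟨(LinearMap.ker T).toAddSubmonoid,
        fun c b hb => by
          change A.k.asAlgebraHom (c * b) (φ w) = 0
          rw [map_mul, End.mul_apply, show A.k.asAlgebraHom b (φ w) = 0 from hb, map_zero]⟩)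
        fun e => hw (by simpa [T] using (e.ge (Submodule.mem_top (x := 1)) : T 1 = 0))
      have k1 := big i (kd i (kil_of v0 fun a ha => hv a (by
        change A.k.asAlgebraHom a (φ w) = 0
        rw [show A.k.asAlgebraHom a = 0 from ha]; rfl)))
      let T' : (kk M)[G] →ₗ[kk M] (Fin (W.n i) → kk M) := LinearMap.applyₗ v ∘ₗ (wa W i).toLinearMap
      have k2 := T.finrank_range_add_finrank_ker
      have k3 := T'.finrank_range_add_finrank_ker
      have k4 := Submodule.finrank_mono (show LinearMap.ker T ≤ LinearMap.ker T' from hv)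
      have k5 := Submodule.finrank_mono (show LinearMap.range T ≤ LinearMap.range φ by
        rintro _ ⟨b, rfl⟩
        induction b using MonoidAlgebra.induction_linear with
        | zero => simp
        | add b b' h1 h2 => exact map_add T b b' ▸ add_mem h1 h2
        | single g c => exact ⟨c • A.dual.k g w, by simp [T, φ1]⟩)
      rw [LinearMap.range_eq_top.2 fun v' => exists_wa_apply v0 v', finrank_top,
        finrank_fintype_fun_eq_card, Fintype.card_fin] at k3
      exact LinearMap.range_eq_top.1 (Submodule.eq_top_of_finrank_eq (le_antisymm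
        (Submodule.finrank_le _) (by rw [finrank_fintype_fun_eq_card, Fintype.card_fin]; omega))))
    φ1 (by have := S.prime.one_lt; simp; omega) n0 (by rw [← map_pow, h1', map_one]) ho
  obtain ⟨k6, k7⟩ := prA_mem (M := M) (h := h) (map_one _) (S.val_e hM)
  have k8 := S.isProj A.c one_ne_zero (by rw [← map_pow, h1']; simp)
  have k9 := S.nu_rank A.c one_ne_zero (by rw [← map_pow, h1']; simp)
  rw [h1, eq_comm, mul_eq_zero, mul_eq_zero, Nat.cast_eq_zero, Nat.cast_eq_zero, Nat.cast_eq_zero,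
    or_iff_right (not_or.2 ⟨S.prime.ne_zero, S.pos.ne'⟩), Submodule.finrank_eq_zero] at k9
  have k10 := A.alg_eq_zero (mul_mem (npA_mem (x := x)) k6) (LinearMap.ext fun v => by
    have := k8.map_mem v
    rw [k9, Submodule.mem_bot, LinearMap.smul_apply, smul_eq_zero,
      or_iff_right (inv_ne_zero (Nat.cast_ne_zero.2 S.prime.ne_zero))] at this
    rw [map_mul, alg_npA, alg_prA, this]; rfl)
  rw [redG_mul npA_mem k6, redG_npA, k7, map_mul, alg_npA, alg_prA, red_one,
    (commute_pr (commute_np _ S.h_mem).symm).eq] at k10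
  have := LinearMap.congr_fun k10 u
  rw [End.mul_apply, pr_apply one_ne_zero S.e_ne (by simpa using u2)] at this
  exact u1 this

end St

end H21.DL
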