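import Cfsg.Agent.H21.KB
import Cfsg.Agent.H7.Real
import Mathlib.RingTheory.ZMod.UnitsCyclic

/-! `p`-conjugate and `p`-rational characters in a block. -/

open Cfsg MonoidAlgebra
open H5 H7 H8

namespace H21
open Finset
open scoped ComplexConjugate

variable {G : Type*} [Group G] [Finite G] {p k : ℕ} {M : Ideal AlgInt} {B : Set (IrrCharacter G)}
  {χ : IrrCharacter G}

set_option quotPrecheck false in
local notation "𝐦" => Nat.card G / p ^ (Nat.card G).factorization p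

theorem pow_ordCompl_eq_one (hp : p.Prime) {g : G} (hg : ¬ p ∣ orderOf g) : g ^ (𝐦) = 1 :=
  orderOf_dvd_iff_pow_eq_one.1 (((hp.coprime_iff_not_dvd.2 hg).symm.pow_right _).dvd_of_dvd_mul_left
    ((Nat.ordProj_mul_ordCompl_eq_self (Nat.card G) p).symm ▸ orderOf_dvd_natCard g))

theorem pow_eq_one_of_ne_zero (hM : IsPModular p M) (hB : IsPBlock M B) (hχ : χ ∈ B) {g : G}
    (h : χ.1 g ≠ 0) : g ^ (p ^ blockDefect p B * (𝐦)) = 1 := by
  have := Fact.mk hM.1
  obtain ⟨x, hx⟩ := exists_isPPart (p := p) g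
  obtain ⟨D, hD, h1⟩ := exists_isDefectGroup_mem hM hB hχ hx h
  have h2 : x ^ p ^ blockDefect p B = 1 := card_isDefectGroup hM hB hD ▸
    orderOf_dvd_iff_pow_eq_one.1 (D.orderOf_dvd_natCard h1)
  rw [← mul_inv_cancel_left x g, ((Commute.refl x).inv_right.mul_right (isPPart_commute hx)).mul_pow,
    pow_mul, h2, one_pow, one_mul, pow_mul', pow_ordCompl_eq_one hM.1 (isPPart_not_dvd hx), one_pow]

/-- number of `p`-conjugates -/
theorem factorization_card_conj (hM : IsPModular p M) (hB : IsPBlock M B) (hχ : χ ∈ B)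
    {S : Finset (IrrCharacter G)} (h0 : S.Nonempty) (hS : ∀ ψ ∈ S, ∃ k, k.Coprime (Nat.card G) ∧
      k ≡ 1 [MOD 𝐦] ∧ ∀ g, ψ.1 g = χ.1 (g ^ k)) :
    (#S).factorization p + blockHeight p B χ.1 ≤ blockDefect p B - 1 := by
  classical
  have := Fintype.ofFinite G
  have hp := hM.1
  have k0 : p ^ (#S).factorization p ≤ #S := Nat.ordProj_le p h0.card_pos.ne'
  obtain ⟨c1, -⟩ := ctr_self_nonneg_le hM hB hχ
  have hp0 : (p : ℂ) ^ blockDefect p B ≠ 0 := pow_ne_zero _ (Nat.cast_ne_zero.2 hp.ne_zero)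
  have k1 : ∀ ψ ∈ S, ψ ∈ B ∧ ctr p B χ ψ = ctr p B χ χ := fun ψ hψ => by
    obtain ⟨k, -, h2, h3⟩ := hS ψ hψ
    have e : classInner (pRegularPart p χ.1) ψ.1 = classInner (pRegularPart p χ.1) χ.1 := by
      rw [← inner_rp_rp, rp_congr (φ := ψ.1) (ψ := χ.1) |>.2 fun g hg => by
        rw [h3, pow_eq_self_of_modEq (pow_ordCompl_eq_one hp hg) h2], inner_rp_rp]
    have e' : ctr p B χ ψ = ctr p B χ χ := Int.cast_injective (α := ℂ) (by
      rw [ctr_cast hM hχ, ctr_cast hM hχ, e])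
    refine ⟨by_contra fun e1 => c1.ne' (Int.cast_injective (α := ℂ) ?_), e'⟩
    rw [← e', ctr_cast hM hχ, inner_rp_eq_zero hM hB hχ e1]; simp
  have k2 : #S * ctr p B χ χ ≤ p ^ blockDefect p B := by
    refine le_of_mul_le_mul_right ?_ c1
    rw [← sum_ctr_mul hM hB hχ χ, mul_assoc, ← nsmul_eq_mul, ← sum_const]
    refine (sum_congr rfl fun ψ hψ => ?_).trans_le (sum_le_sum_of_subset_of_nonneg
      (fun ψ hψ => by simpa using (k1 ψ hψ).1) fun ψ _ _ => ctr_comm χ ψ ▸ mul_self_nonneg _)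
    rw [ctr_comm ψ, (k1 ψ hψ).2]
  have k3 : ∀ j, (p : ℤ) ^ j ∣ ctr p B χ χ → (#S).factorization p + j ≤ blockDefect p B :=
    fun j hj => (Nat.pow_le_pow_iff_right hp.one_lt).1 (by
      have := Int.le_of_dvd c1 hj
      zify at k0 ⊢
      rw [pow_add]
      exact (mul_le_mul k0 this (by positivity) (by positivity)).trans k2)
  by_cases h1 : blockHeight p B χ.1 ≠ 0
  · have := k3 _ ((pow_succ_dvd_ctr_iff hM hB hχ hχ).2 h1); omega
  have k4 := k3 0 (by simp)
  by_cases h2 : blockDefect p B = 0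
  · omega
  choose! f f1 f2 f3 using hS
  have k5 := card_le_card_of_injOn (s := S) (t := (range (p ^ blockDefect p B)).erase 0)
    (fun ψ => f ψ % p ^ blockDefect p B) (fun ψ hψ => by
      simp only [coe_erase, coe_range, Set.mem_sdiff, Set.mem_Iio, Set.mem_singleton_iff]
      refine ⟨Nat.mod_lt _ (pow_pos hp.pos _), fun e => hp.one_lt.ne' (Nat.eq_one_of_dvd_coprimes
        (f1 ψ hψ) ((dvd_pow_self p h2).trans (Nat.dvd_of_mod_eq_zero e)) ?_)⟩
      exact Nat.dvd_of_factorization_pos (by have := blockDefect_le (p := p) (B := B); omega))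
    fun ψ hψ ψ' hψ' e => Subtype.ext (funext fun g => by
      have e1 := (Nat.modEq_and_modEq_iff_modEq_mul ((Nat.coprime_ordCompl hp
        (Nat.card_pos (α := G)).ne').pow_left _)).1 ⟨e, (f2 ψ hψ).trans (f2 ψ' hψ').symm⟩
      have e2 : ∀ φ ∈ S, φ.1 g ≠ 0 → g ^ f ψ = g ^ f ψ' := fun φ hφ h => by
        have := pow_eq_one_of_ne_zero hM hB hχ (f3 φ hφ g ▸ h)
        rw [← pow_mul, ← orderOf_dvd_iff_pow_eq_one] at this
        exact pow_eq_pow_iff_modEq.2 (e1.of_dvd (((f1 φ hφ).coprime_dvd_right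
          (orderOf_dvd_natCard g)).symm.dvd_of_dvd_mul_left this))
      by_contra e3
      by_cases e4 : ψ.1 g = 0
      · exact e3 (by rw [f3 ψ hψ, f3 ψ' hψ', e2 ψ' hψ' fun e => e3 (e4.trans e.symm)])
      · exact e3 (by rw [f3 ψ hψ, f3 ψ' hψ', e2 ψ hψ e4]))
  rw [card_erase_of_mem (mem_range.2 (pow_pos hp.pos _)), card_range] at k5
  have := (Nat.pow_lt_pow_iff_right hp.one_lt).1 (show p ^ (#S).factorization p <
    p ^ blockDefect p B by have := pow_pos hp.pos (blockDefect p B); omega)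
  omega

theorem exists_nat_sum_inner_comp [Fintype G] (hM : IsPModular p M) (hB : IsPBlock M B)
    [DecidablePred (· ∈ B)] (α : G ≃* G) :
    ∃ n : ℕ, ∑ χ with χ ∈ B, classInner (fun g => rp p χ.1 (α g)) χ.1 = n := by
  obtain ⟨W⟩ := exists_wed G M
  have hB' := fB_mem_VG hM hB
  have k : ∀ j, W.Lift (push α.toMonoidHom (W.i j)) (W.π (redG M (push α.toMonoidHom (W.i j)))) :=
    fun j => ⟨push_mem_VG _ (W.lift_i j).mem, (W.lift_i j).idem.map _, rfl⟩
  refine ⟨∑ j ∈ W.blk B, (W.π (redG M (push α.toMonoidHom (W.i j))) j).rank, ?_⟩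
  rw [Nat.cast_sum, sum_congr (s₁ := W.blk B) (g := fun j => ∑ χ with χ ∈ B, (W.d χ j : ℂ) *
    classInner (fun g => W.φ hM j (α g)) χ.1) rfl fun j hj => ?_, sum_comm]
  · refine sum_congr rfl fun χ hχ => ?_
    rw [← rp_eq, Wed.rp_irr_blk (W := W) hM hB' (mem_filter.1 hχ).2]
    simp only [classInner_def, Finset.sum_apply, Pi.smul_apply, smul_eq_mul, sum_mul, mul_sum]
    rw [sum_comm]
    simp only [mul_assoc, mul_left_comm]
  · rw [← (k j).ev_φ hM j, ev_push, W.ev_i_eq_inner (fun x y => by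
      simpa using W.isClassFunction_φ hM j (α x) (α y)), Wed.Φ_eq_blk hB' hj, classInner_sum_right]
    refine sum_congr rfl fun χ _ => ?_
    simp [classInner_def, mul_sum, mul_left_comm]

theorem sum_mul_conj_sec (hM : IsPModular p M) (hB : IsPBlock M B) [DecidablePred (· ∈ B)] {u : G}
    {H : Subgroup G} (h : IsSec p u H) [∀ b : Set (IrrCharacter H), DecidablePred (· ∈ b)]
    {s t : H} (hs : ¬ p ∣ orderOf s) (ht : ¬ p ∣ orderOf t) :
    ∑ χ with χ ∈ B, χ.1 (u * s) * conj (χ.1 (u * t)) =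
      ∑ b ∈ indBlocks M H B, ∑ ξ with ξ ∈ b, ξ.1 s * conj (ξ.1 t) := by
  rw [sum_congr rfl fun χ hχ => by
    rw [h.apply_eq_sum_sec hM hB (mem_filter.1 hχ).2 hs, h.apply_eq_sum_sec hM hB
      (mem_filter.1 hχ).2 ht, map_sum, sum_mul_sum], sum_comm]
  refine sum_congr rfl fun b hb => ?_
  have hb' := mem_indBlocks.1 hb
  rw [sum_filter_of_zero B fun χ hχ => by simp [h.sec_eq_zero_of_notMem hM hb' hχ], sum_comm,
    sum_eq_single_of_mem b hb fun c hc e =>
      h.sum_sec_mul_conj_of_ne hM hb'.1 (mem_indBlocks.1 hc).1 e.symm s t,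
    h.sum_sec_mul_conj hM (fB_mem_VG hM hb'.1) hs ht]

theorem blockRank_le_card_fixed (hM : IsPModular p M) (hB : IsPBlock M B)
    (hk : k.Coprime (Nat.card G)) (h1 : k ≡ 1 [MOD 𝐦]) :
    blockRank p B ≤ Nat.card {χ : IrrCharacter G // χ ∈ B ∧ irrPow hk χ = χ} := by
  classical
  have := Fact.mk hM.1
  have := Fintype.ofFinite G
  obtain ⟨X, hX, hrep⟩ := exists_pelt_reps p G
  have k0 : ∀ {x s : G}, Commute x s → ¬ p ∣ orderOf s → (x * s) ^ k = x ^ k * s := fun hc hs => by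
    rw [hc.mul_pow, pow_eq_self_of_modEq (pow_ordCompl_eq_one hM.1 hs) h1]
  have k1 : ∀ x ∈ X, ∃ n : ℕ, ∑ χ with χ ∈ B, classInner (rp p (tr x (Subgroup.centralizer {x})
      (irrPow hk χ).1)) (tr x _ χ.1) = n ∧ (x = 1 → n = blockRank p B) := fun x hx => by
    have h := isSec_cent (hX x hx)
    by_cases e0 : x = 1
    · subst e0
      refine ⟨_, ?_, fun _ => rfl⟩
      rw [← sum_inner_rp_self hM hB]
      refine sum_congr rfl fun χ _ => ?_
      rw [classInner_def, classInner_def, card_centralizer_one]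
      refine congrArg _ (Fintype.sum_equiv ⟨Subtype.val, fun g => ⟨g, h.mem_iff.2 (.one_left g)⟩,
        fun _ => rfl, fun _ => rfl⟩ _ _ fun s => ?_)
      by_cases hs : p ∣ orderOf s
      · simp [H8.rp_apply, H21.rp_apply, hs]
      · simp [H8.rp_apply, H21.rp_apply, hs, tr_apply, pow_eq_self_of_modEq (pow_ordCompl_eq_one
          hM.1 (g := (s : G)) (by simpa using hs)) h1]
    simp only [e0, false_imp_iff, and_true, classInner_def, ← mul_sum]
    rw [sum_comm]
    by_cases e1 : IsConj x (x ^ k)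
    swap
    · refine ⟨0, ?_⟩
      rw [sum_eq_zero fun s _ => ?_, mul_zero, Nat.cast_zero]
      by_cases hs : p ∣ orderOf s
      · simp [rp_of_sing _ hs]
      simp only [H8.rp_of_reg _ hs, tr_apply, irrPow_apply, ← irr_apply_inv]
      exact block_orth hM hB (by simpa using isPPart_zpow (h.isPPart hs) k) (h.isPPart hs)
        fun e => e1 e.symm
    obtain ⟨n, hn⟩ := isConj_iff.1 e1
    have e2 : n⁻¹ ∈ Subgroup.normalizer (Subgroup.centralizer {x} : Set G) := by
      refine inv_mem (Subgroup.mem_normalizer_iff.2 fun y => ?_)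
      conv_rhs => rw [← centralizer_pow_of_coprime hk, ← hn]
      simp only [Subgroup.mem_centralizer_singleton_iff, conj_mul, mul_left_inj, mul_right_inj]
    choose r hr using fun b : indBlocks M (Subgroup.centralizer {x}) B =>
      exists_nat_sum_inner_comp hM (mem_indBlocks.1 b.2).1
        (Subgroup.normalizerMonoidHom _ ⟨_, e2⟩)
    refine ⟨∑ b, r b, ?_⟩
    simp only [Nat.cast_sum, ← hr, classInner_def, ← mul_sum]
    refine congrArg _ (.trans (sum_congr rfl fun s _ => ?_)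
      (sum_comm.trans (sum_congr rfl fun b _ => sum_comm)))
    by_cases hs : p ∣ orderOf s
    · simp [rp_of_sing _ hs, rp_of_sing _ (show p ∣ orderOf
        (Subgroup.normalizerMonoidHom _ ⟨_, e2⟩ s) by rwa [MulEquiv.orderOf_eq])]
    have hs' : ¬ p ∣ orderOf (Subgroup.normalizerMonoidHom _ ⟨_, e2⟩ s) := by
      rwa [MulEquiv.orderOf_eq]
    simp only [H8.rp_of_reg _ hs, H8.rp_of_reg _ hs', tr_apply, irrPow_apply]
    refine .trans (sum_congr rfl fun χ _ => ?_)
      ((sum_mul_conj_sec hM hB h hs' hs).trans (sum_coe_sort _ _).symm)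
    rw [k0 (h.comm s) (by simpa using hs), ← hn, ← χ.2.isCharacter.isClassFunction _ n⁻¹]
    congr 2
    simp [mul_assoc]
  choose! r hr hr' using k1
  have k2 : (Nat.card {χ : IrrCharacter G // χ ∈ B ∧ irrPow hk χ = χ} : ℂ) = ∑ x ∈ X, r x := by
    rw [Nat.card_eq_fintype_card, Fintype.card_subtype, ← filter_filter, card_filter, Nat.cast_sum,
      Nat.cast_sum, ← sum_congr rfl hr, sum_comm]
    refine sum_congr rfl fun χ _ => ?_
    rw [Nat.cast_ite, Nat.cast_one, Nat.cast_zero, ← classInner_irr, inner_eq_sum_mm hM X hX hrep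
      (irrPow hk χ).2.isCharacter.isClassFunction χ.2.isCharacter.isClassFunction]
    refine sum_congr rfl fun x hx => ?_
    rw [← (isSec_cent (hX x hx)).sum_sec hM (irrPow hk χ).2.isCharacter.isClassFunction,
      classInner_sum_left]
    exact sum_congr rfl fun b hb => mm_eq_tr hM (fB_mem_VG hM (mem_blocks.1 hb)) _ _
  obtain ⟨x, ⟨h2, h3⟩, -⟩ := hrep 1 isPElt_one
  rw [Nat.cast_injective k2, ← hr' x h2 (isConj_one_right.1 h3)]
  exact single_le_sum (fun _ _ => Nat.zero_le _) h2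

theorem exists_gen_modEq (hp : p.Prime) (h2 : p ≠ 2) : ∃ k₀, k₀.Coprime (Nat.card G) ∧
    k₀ ≡ 1 [MOD 𝐦] ∧ ∀ k, k.Coprime (Nat.card G) → k ≡ 1 [MOD 𝐦] →
      ∃ j, k ≡ k₀ ^ j [MOD Nat.card G] := by
  have e := Nat.ordProj_mul_ordCompl_eq_self (Nat.card G) p
  have hc := (Nat.coprime_ordCompl hp (Nat.card_pos (α := G)).ne').pow_left
    ((Nat.card G).factorization p)
  generalize (𝐦) = m at *
  generalize (Nat.card G).factorization p = a at *
  have := NeZero.mk (pow_pos hp.pos a).ne'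
  obtain ⟨u, hu⟩ := (ZMod.isCyclic_units_of_prime_pow p hp h2 a).exists_generator
  obtain ⟨k₀, h3, h4⟩ := Nat.chineseRemainder hc (u : ZMod (p ^ a)).val 1
  have h5 : (k₀ : ZMod (p ^ a)) = u := by
    rw [(ZMod.natCast_eq_natCast_iff _ _ _).2 h3, ZMod.natCast_zmod_val]
  refine ⟨k₀, e ▸ .mul_right ((ZMod.isUnit_iff_coprime _ _).1 (h5 ▸ u.isUnit))
    (Nat.Coprime.symm (by simpa using h4.gcd_eq)).symm, h4, fun k hk hk' => ?_⟩
  obtain ⟨j, hj⟩ := mem_powers_iff_mem_zpowers.2 (hu (ZMod.unitOfCoprime k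
    (hk.coprime_dvd_right ⟨m, e.symm⟩)))
  refine ⟨j, e ▸ (Nat.modEq_and_modEq_iff_modEq_mul hc).1 ⟨(ZMod.natCast_eq_natCast_iff _ _ _).1 ?_,
    hk'.trans (by simpa using (h4.pow j).symm)⟩⟩
  rw [Nat.cast_pow, h5, ← Units.val_pow_eq_pow_val, show u ^ j = _ from hj, ZMod.coe_unitOfCoprime]

end H21
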