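import Cfsg.Agent.H4.SuzF
import Mathlib.FieldTheory.Finite.Extension

/-! Shaw's theorem on Suzuki 2-groups, I: arithmetic and field lemmas for a multiplier of order
`(2^n - 1)/d` with `d ∣ n`. -/

set_option autoImplicit false

namespace H21.Sh
open H4

/-- the numerical data -/
structure Par (n d N : ℕ) : Prop where
  two : 2 ≤ n
  dvd : d ∣ n
  eq : d * N + 1 = 2 ^ n

namespace Par
variable {n d N : ℕ} (h : Par n d N)
include h

theorem d_pos : 0 < d := Nat.pos_of_ne_zero fun e => by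
  have := h.dvd; have := h.two; subst e; simp at *; omega

theorem d_le : d ≤ n := Nat.le_of_dvd (by have := h.two; omega) h.dvd

theorem N_dvd : N ∣ 2 ^ n - 1 := ⟨d, by have := h.eq; rw [mul_comm]; omega⟩

theorem N_pos : 0 < N := Nat.pos_of_ne_zero fun e => by
  have h1 := h.eq
  have : 2 ^ 2 ≤ 2 ^ n := Nat.pow_le_pow_right two_pos h.two
  subst e; simp at h1; omega

theorem odd : Odd N := by
  have h1 := h.eq
  have : Even (2 ^ n) := Nat.even_pow.2 ⟨even_two, by have := h.two; omega⟩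
  rw [← h1, Nat.even_add_one, Nat.not_even_iff_odd, Nat.odd_mul] at this
  exact this.2

theorem dvd_of {j : ℕ} (hj : N ∣ 2 ^ j - 1) : n ∣ j := by
  have h1 : N ∣ 2 ^ n.gcd j - 1 := by
    rw [← Nat.pow_sub_one_gcd_pow_sub_one]; exact Nat.dvd_gcd h.N_dvd hj
  by_contra hn
  have hn2 := h.two
  have hg : n.gcd j < n := lt_of_le_of_ne (Nat.gcd_le_left _ (by omega))
    fun e => hn (e ▸ Nat.gcd_dvd_right n j)
  obtain ⟨c, hc⟩ := Nat.gcd_dvd_left n j
  set g := n.gcd j
  have hg0 : 0 < g := Nat.gcd_pos_of_pos_left _ (by omega)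
  have hc2 : 2 ≤ c := by
    by_contra hc2
    have : c ≤ 1 := by omega
    nlinarith
  obtain ⟨u, hu⟩ : ∃ u, n = g + u := ⟨n - g, by omega⟩
  have hug : g ≤ u := by nlinarith
  have h2 : N ≤ 2 ^ g - 1 := Nat.le_of_dvd (by
    have : 2 ^ 1 ≤ 2 ^ g := Nat.pow_le_pow_right two_pos hg0
    omega) h1
  have h3 : 2 * u ≤ 2 ^ u := by
    have := Nat.lt_two_pow_self (n := u - 1)
    obtain ⟨v, rfl⟩ : ∃ v, u = v + 1 := ⟨u - 1, by omega⟩
    simp only [Nat.add_sub_cancel] at this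
    rw [pow_succ]; omega
  have h4 := h.eq
  have h5 := h.d_le
  have h6 : 1 ≤ 2 ^ g := Nat.one_le_two_pow
  have h7 : d * N ≤ 2 ^ u * (2 ^ g - 1) := Nat.mul_le_mul (by omega) h2
  rw [hu, pow_add] at h4
  obtain ⟨w, hw⟩ : ∃ w, 2 ^ g = w + 1 := ⟨2 ^ g - 1, by omega⟩
  rw [hw] at h4 h7
  simp only [Nat.add_sub_cancel] at h7
  nlinarith

theorem lt : n < N := by
  have h1 := h.eq
  have h2 := h.d_le
  have h3 := h.two
  have h4 := h.dvd
  by_contra hn
  have h5 : d * N ≤ n * n := Nat.mul_le_mul h2 (by omega)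
  by_cases h6 : n ≤ 4
  · interval_cases n <;> interval_cases d <;> omega
  · have : ∀ m, 5 ≤ m → m * m + 1 < 2 ^ m := fun m hm => by
      induction m, hm using Nat.le_induction with
      | base => norm_num
      | succ k hk ih => rw [pow_succ]; nlinarith
    have := this n (by omega)
    omega

end Par

theorem exists_rot {n g : ℕ} (s : Finset ℕ) (hs : s.card * g < n) :
    ∃ c, ∀ x ∈ s, (x + c) % n + g < n := by
  classical
  have hn : 0 < n := by omega
  by_contra hc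
  push Not at hc
  have h1 : Finset.range n ⊆ s.biUnion fun x => (Finset.range n).filter fun c =>
      n ≤ (x + c) % n + g := fun c hc' => by
    obtain ⟨x, hx, e⟩ := hc c
    exact Finset.mem_biUnion.2 ⟨x, hx, Finset.mem_filter.2 ⟨hc', e⟩⟩
  have h2 : ∀ x ∈ s, ((Finset.range n).filter fun c => n ≤ (x + c) % n + g).card ≤ g :=
    fun x _ => by
      have := Finset.card_le_card_of_injOn (s := (Finset.range n).filter fun c =>
        n ≤ (x + c) % n + g) (t := Finset.Ico (n - g) n) (fun c => (x + c) % n) (fun c hc => by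
          simp only [Finset.coe_filter, Set.mem_ofPred_eq, Finset.coe_Ico, Set.mem_Ico] at hc ⊢
          exact ⟨by omega, Nat.mod_lt _ hn⟩) (fun a ha b hb e => by
          simp only [Finset.coe_filter, Set.mem_ofPred_eq, Finset.mem_range] at ha hb
          exact Nat.ModEq.eq_of_lt_of_lt (Nat.ModEq.add_left_cancel' x e) ha.1 hb.1)
      rw [Nat.card_Ico] at this
      omega
  have := (Finset.card_le_card h1).trans (Finset.card_biUnion_le_card_mul _ _ _ h2)
  rw [Finset.card_range] at this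
  omega

theorem two_pow_mod (n x : ℕ) : 2 ^ x ≡ 2 ^ (x % n) [MOD 2 ^ n - 1] := by
  have h1 : 2 ^ n ≡ 1 [MOD 2 ^ n - 1] :=
    ((Nat.modEq_iff_dvd' Nat.one_le_two_pow).2 dvd_rfl).symm
  conv_lhs => rw [← Nat.div_add_mod x n, pow_add, pow_mul]
  simpa using (h1.pow (x / n)).mul_right (2 ^ (x % n))

theorem Par.lift {n d N : ℕ} (h : Par n d N) (hd : 3 * d < 2 ^ ((n - 1) / 5 + 1)) {a b c e f : ℕ}
    (hm : 2 ^ a + 2 ^ b + 2 ^ c ≡ 2 ^ e + 2 ^ f [MOD N]) :
    2 ^ a + 2 ^ b + 2 ^ c ≡ 2 ^ e + 2 ^ f [MOD 2 ^ n - 1] := by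
  have h2 := h.two
  set g := (n - 1) / 5 with hg
  obtain ⟨r, hr⟩ := exists_rot (n := n) (g := g) {a, b, c, e, f} (by
    have : ({a, b, c, e, f} : Finset ℕ).card ≤ 5 := Finset.card_le_five
    have : ({a, b, c, e, f} : Finset ℕ).card * g ≤ 5 * g := Nat.mul_le_mul_right _ this
    omega)
  obtain ⟨u, hu⟩ : ∃ u, n = u + (g + 1) := ⟨n - (g + 1), by omega⟩
  have hb : ∀ x ∈ ({a, b, c, e, f} : Finset ℕ), 1 ≤ 2 ^ ((x + r) % n) ∧ 2 ^ ((x + r) % n) ≤ 2 ^ u :=
    fun x hx => ⟨Nat.one_le_two_pow, Nat.pow_le_pow_right two_pos (by have := hr x hx; omega)⟩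
  have hN : 3 * 2 ^ u ≤ N := by
    have h1 := h.eq
    have h3 := h.d_pos
    rw [hu, pow_add] at h1
    have h4 : 1 ≤ 2 ^ u := Nat.one_le_two_pow
    by_contra hn
    have : d * N < d * (3 * 2 ^ u) := Nat.mul_lt_mul_of_pos_left (by omega) h3
    nlinarith
  have k1 : ∀ x, 2 ^ x * 2 ^ r ≡ 2 ^ ((x + r) % n) [MOD 2 ^ n - 1] := fun x => by
    rw [← pow_add]; exact two_pow_mod n _
  have e1 : (2 ^ a + 2 ^ b + 2 ^ c) * 2 ^ r ≡
      2 ^ ((a + r) % n) + 2 ^ ((b + r) % n) + 2 ^ ((c + r) % n) [MOD 2 ^ n - 1] := by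
    rw [add_mul, add_mul]; exact ((k1 a).add (k1 b)).add (k1 c)
  have e2 : (2 ^ e + 2 ^ f) * 2 ^ r ≡ 2 ^ ((e + r) % n) + 2 ^ ((f + r) % n) [MOD 2 ^ n - 1] := by
    rw [add_mul]; exact (k1 e).add (k1 f)
  have e3 := ((e1.of_dvd h.N_dvd).symm.trans (hm.mul_right (2 ^ r))).trans (e2.of_dvd h.N_dvd)
  have ba := hb a (by simp)
  have bb := hb b (by simp)
  have bc := hb c (by simp)
  have be := hb e (by simp)
  have bf := hb f (by simp)
  have e4 := e3.eq_of_abs_lt (by rw [abs_lt]; constructor <;> omega)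
  refine Nat.ModEq.cancel_right_of_coprime (c := 2 ^ r) ?_ ((e1.trans (e4 ▸ .refl _)).trans e2.symm)
  refine Nat.Coprime.pow_right _ (Odd.coprime_two_right ?_)
  exact Nat.Even.sub_odd Nat.one_le_two_pow (Nat.even_pow.2 ⟨even_two, by omega⟩) odd_one

theorem Par.cases {n d N : ℕ} (h : Par n d N) : d = 1 ∨ 3 * d < 2 ^ ((n - 1) / 5 + 1) ∨
    (n = 6 ∧ N = 21) ∨ (n = 12 ∧ N = 1365) ∨ (n = 18 ∧ N = 29127) := by
  by_cases hn : n ≤ 30
  · have key : ∀ n ∈ List.range 31, ∀ d ∈ List.range 31, (n % d = 0 ∧ (2 ^ n - 1) % d = 0 ∧ 2 ≤ n) → (d = 1 ∨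
        3 * d < 2 ^ ((n - 1) / 5 + 1) ∨
        (n = 6 ∧ d = 3) ∨ (n = 12 ∧ d = 3) ∨ (n = 18 ∧ d = 9)) := by decide +kernel
    have h1 := h.eq
    have h2 := h.d_le
    rcases key n (List.mem_range.2 (by omega)) d (List.mem_range.2 (by omega)) ⟨Nat.mod_eq_zero_of_dvd h.dvd,
      Nat.mod_eq_zero_of_dvd ⟨N, by omega⟩, h.two⟩ with e | e | ⟨rfl, rfl⟩ | ⟨rfl, rfl⟩ | ⟨rfl, rfl⟩
    · exact Or.inl e
    · exact Or.inr (Or.inl e)
    all_goals (norm_num at h1; omega)
  · refine Or.inr (Or.inl ?_)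
    have : ∀ g, 6 ≤ g → 15 * g + 15 < 2 ^ (g + 1) := fun g hg => by
      induction g, hg using Nat.le_induction with
      | base => norm_num
      | succ k hk ih => rw [pow_succ]; omega
    have := this ((n - 1) / 5) (by omega)
    have := h.d_le
    omega

/-- brute force check of the uniqueness of the monomial in the three small cases -/
def chk (n N : ℕ) : Bool :=
  (List.range n).all fun t => decide ((((List.range n).product (List.range n)).filter fun p =>
    (2 ^ p.1 + 2 ^ (p.1 + t) + 2 ^ p.2) % N == (2 ^ 0 + 2 ^ t) % N).length ≤ 1)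

theorem chk_uniq {n N : ℕ} (h : chk n N = true) {t a b a' b' : ℕ} (ht : t < n) (ha : a < n)
    (hb : b < n) (ha' : a' < n) (hb' : b' < n)
    (e : 2 ^ a + 2 ^ (a + t) + 2 ^ b ≡ 2 ^ 0 + 2 ^ t [MOD N])
    (e' : 2 ^ a' + 2 ^ (a' + t) + 2 ^ b' ≡ 2 ^ 0 + 2 ^ t [MOD N]) : a = a' ∧ b = b' := by
  have h1 := List.all_eq_true.1 h t (List.mem_range.2 ht)
  rw [decide_eq_true_eq] at h1
  have m1 : (a, b) ∈ (((List.range n).product (List.range n)).filter fun p =>
      (2 ^ p.1 + 2 ^ (p.1 + t) + 2 ^ p.2) % N == (2 ^ 0 + 2 ^ t) % N) :=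
    List.mem_filter.2 ⟨List.pair_mem_product.2 ⟨List.mem_range.2 ha, List.mem_range.2 hb⟩,
      beq_iff_eq.2 e⟩
  have m2 : (a', b') ∈ (((List.range n).product (List.range n)).filter fun p =>
      (2 ^ p.1 + 2 ^ (p.1 + t) + 2 ^ p.2) % N == (2 ^ 0 + 2 ^ t) % N) :=
    List.mem_filter.2 ⟨List.pair_mem_product.2 ⟨List.mem_range.2 ha', List.mem_range.2 hb'⟩,
      beq_iff_eq.2 e'⟩
  generalize (((List.range n).product (List.range n)).filter fun p =>
      (2 ^ p.1 + 2 ^ (p.1 + t) + 2 ^ p.2) % N == (2 ^ 0 + 2 ^ t) % N) = L at h1 m1 m2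
  match L, h1, m1, m2 with
  | [x], _, m1, m2 =>
    have := (List.mem_singleton.1 m1).trans (List.mem_singleton.1 m2).symm
    exact Prod.mk.inj this
  | _ :: _ :: _, h1, _, _ => simp at h1

theorem chk6 : chk 6 21 = true := by decide +kernel
theorem chk12 : chk 12 1365 = true := by decide +kernel
theorem chk18 : chk 18 29127 = true := by decide +kernel

/-! ### field lemmas -/

variable {F : Type*} [Field F] [Finite F] [CharP F 2] {n d N : ℕ}

omit [CharP F 2] in
theorem pow_two_pow_mod (hF : Nat.card F = 2 ^ n) (x : F) (i : ℕ) : x ^ 2 ^ i = x ^ 2 ^ (i % n) := by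
  have := Fintype.ofFinite F
  have h1 : ∀ j y : _, (y : F) ^ 2 ^ (n * j) = y := fun j y => by
    rw [pow_mul, ← hF, Nat.card_eq_fintype_card, FiniteField.pow_card_pow]
  conv_lhs => rw [← Nat.div_add_mod i n, pow_add, pow_mul, h1]

theorem aut_pow (hF : Nat.card F = 2 ^ n) (hn : 0 < n) (σ : F ≃+* F) :
    ∃ i < n, ∀ x, σ x = x ^ 2 ^ i := by
  let _ : Algebra (ZMod 2) F := ZMod.algebra F 2
  obtain ⟨i, hi⟩ := FiniteField.exists_forall_apply_eq_pow (ZMod 2) 2 F
    (AlgEquiv.ofRingEquiv (f := σ) fun c => by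
      have := RingHom.ext_zmod ((σ : F →+* F).comp (algebraMap (ZMod 2) F)) (algebraMap (ZMod 2) F)
      exact DFunLike.congr_fun this c)
  refine ⟨i % n, Nat.mod_lt _ hn, fun x => ?_⟩
  have := hi x
  rw [Nat.card_zmod, pow_two_pow_mod hF] at this
  exact this

omit [Finite F] in
theorem frob_not_sq [Finite F] (hF : Nat.card F = 2 ^ n) (hn : 0 < n) (h4 : ∃ x : F, x * x ≠ x)
    {θ : F ≃+* F} (e1 : frob F = θ * θ) (e2 : θ ^ 4 = 1) : False := by
  obtain ⟨i, -, hi⟩ := aut_pow hF hn θ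
  have h2 : ∀ x : F, x ^ 4 = x := fun x => by
    have : (frob F * frob F) x = x := by
      rw [e1, show θ * θ * (θ * θ) = θ ^ 4 by simp only [pow_succ, pow_zero, one_mul, mul_assoc],
        e2]; rfl
    rw [RingAut.mul_apply, frob_apply, frob_apply] at this
    linear_combination this
  have h3 : ∀ (j : ℕ) (x : F), x ^ 4 ^ j = x := fun j x => by
    induction j with
    | zero => simp
    | succ j ih => rw [pow_succ, pow_mul, ih, h2]
  obtain ⟨x, hx⟩ := h4
  refine hx ?_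
  rw [← frob_apply, e1, RingAut.mul_apply, hi, hi, ← pow_mul, ← mul_pow]
  exact h3 i x

theorem T_uniq' (hF : Nat.card F = 2 ^ n) (hn : 0 < n) {θ α β α' β' : F ≃+* F}
    (h4 : ∃ x : F, x * x ≠ x) (h : ∀ x, α x * α (θ x) * β x = x * θ x)
    (h' : ∀ x, α' x * α' (θ x) * β' x = x * θ x) : α = α' ∧ β = β' := by
  have hφ := frob_ne_one h4
  have key : ∀ {γ δ : F ≃+* F}, γ * θ = 1 → frob F * γ = θ → δ = θ → frob F * (δ * θ) = 1 →
      False := fun {γ δ} a1 a2 a3 a4 => by
    have e1 : frob F = θ * θ := by rw [← mul_one (frob F), ← a1, ← mul_assoc, a2]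
    have e2 : θ ^ 4 = 1 := by rw [← a4, e1, a3]; simp only [pow_succ, pow_zero, one_mul, mul_assoc]
    exact frob_not_sq hF hn h4 e1 e2
  have k2 : ∀ {γ : F ≃+* F}, θ = 1 → (γ * θ = 1 ∧ frob F * γ = θ) ∨
      (γ = θ ∧ frob F * (γ * θ) = 1) → False := fun {γ} a1 a2 => by
    subst a1
    rcases a2 with ⟨a2, a3⟩ | ⟨a2, a3⟩
    · rw [mul_one] at a2
      exact hφ (by simpa [a2] using a3)
    · exact hφ (by simpa [a2] using a3)
  have hα : α = α' := by
    rcases T_cases h4 h with ⟨a1, a2⟩ | a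
    · rcases T_cases h4 h' with ⟨-, b2⟩ | b
      · exact mul_left_cancel (a2.trans b2.symm)
      · exact (k2 a1 b).elim
    · rcases T_cases h4 h' with ⟨b1, -⟩ | b
      · exact (k2 b1 a).elim
      · rcases a with ⟨a1, a2⟩ | ⟨a1, a2⟩ <;> rcases b with ⟨b1, b2⟩ | ⟨b1, b2⟩
        · exact mul_right_cancel (a1.trans b1.symm)
        · exact (key a1 a2 b1 b2).elim
        · exact (key b1 b2 a1 a2).elim
        · exact a1.trans b1.symm
  subst hα
  refine ⟨rfl, RingEquiv.ext fun x => ?_⟩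
  by_cases hx : x = 0
  · simp [hx]
  · exact mul_left_cancel₀ (by simpa using hx) ((h x).trans (h' x).symm)

omit [CharP F 2] in
theorem exists_sq_ne (hF : Nat.card F = 2 ^ n) (hn : 2 ≤ n) : ∃ x : F, x * x ≠ x := by
  by_contra hc
  push Not at hc
  have h4 : 2 ^ 2 ≤ 2 ^ n := Nat.pow_le_pow_right two_pos hn
  have : (Set.univ : Set F) ⊆ {0, 1} := fun x _ => by
    by_cases hx : x = 0
    · simp [hx]
    · simp [(mul_eq_left₀ hx).1 (hc x)]
  have h2 := (Set.ncard_le_ncard this).trans (Set.ncard_insert_le _ _)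
  rw [Set.ncard_univ, Set.ncard_singleton] at h2
  omega

omit [Finite F] [CharP F 2] in
theorem Par.ne_zero (h : Par n d N) {m : F} (hm : orderOf m = N) : m ≠ 0 := fun e => by
  have h1 := pow_orderOf_eq_one m
  rw [hm, e, zero_pow h.N_pos.ne'] at h1
  exact zero_ne_one h1

/-- uniqueness of the monomial -/
theorem Par.uniq (h : Par n d N) (hF : Nat.card F = 2 ^ n) {m : F} (hm : orderOf m = N)
    {θ α β α' β' : F ≃+* F} (e : α (m * θ m) * β m = m * θ m)
    (e' : α' (m * θ m) * β' m = m * θ m) : α = α' ∧ β = β' := by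
  have hn : 0 < n := by have := h.two; omega
  obtain ⟨t, ht, hθ⟩ := aut_pow hF hn θ
  have fin : IsOfFinOrder m := orderOf_pos_iff.1 (hm ▸ h.N_pos)
  have key : ∀ {γ δ : F ≃+* F} {a b : ℕ}, (∀ x, γ x = x ^ 2 ^ a) → (∀ x, δ x = x ^ 2 ^ b) →
      ∀ x : F, γ x * γ (θ x) * δ x = x ^ (2 ^ a + 2 ^ (a + t) + 2 ^ b) := fun ha hb x => by
    rw [ha, ha, hb, hθ, ← pow_mul, ← pow_add, ← pow_add, ← pow_add, add_comm t]
  have k0 : ∀ x : F, x * θ x = x ^ (2 ^ 0 + 2 ^ t) := fun x => by rw [hθ, pow_add]; simp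
  have cong : ∀ {γ δ : F ≃+* F} {a b : ℕ}, (∀ x, γ x = x ^ 2 ^ a) → (∀ x, δ x = x ^ 2 ^ b) →
      γ (m * θ m) * δ m = m * θ m → 2 ^ a + 2 ^ (a + t) + 2 ^ b ≡ 2 ^ 0 + 2 ^ t [MOD N] :=
    fun ha hb e => by
      rw [← hm, ← fin.pow_eq_pow_iff_modEq, ← key ha hb, ← k0, ← map_mul, e]
  obtain ⟨a, ha, hα⟩ := aut_pow hF hn α
  obtain ⟨b, hb, hβ⟩ := aut_pow hF hn β
  obtain ⟨a', ha', hα'⟩ := aut_pow hF hn α'
  obtain ⟨b', hb', hβ'⟩ := aut_pow hF hn β'
  have c1 := cong hα hβ e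
  have c2 := cong hα' hβ' e'
  have fin2 : a = a' ∧ b = b' → α = α' ∧ β = β' := fun ⟨e1, e2⟩ =>
    ⟨RingEquiv.ext fun x => by rw [hα, hα', e1], RingEquiv.ext fun x => by rw [hβ, hβ', e2]⟩
  have all : ∀ {γ δ : F ≃+* F} {a b : ℕ}, (∀ x, γ x = x ^ 2 ^ a) → (∀ x, δ x = x ^ 2 ^ b) →
      2 ^ a + 2 ^ (a + t) + 2 ^ b ≡ 2 ^ 0 + 2 ^ t [MOD 2 ^ n - 1] →
      ∀ x, γ x * γ (θ x) * δ x = x * θ x := fun ha hb c x => by
    by_cases hx : x = 0
    · simp [hx]
    have := Fintype.ofFinite F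
    have h1 : x ^ (2 ^ n - 1) = 1 := by
      rw [← hF, Nat.card_eq_fintype_card]; exact FiniteField.pow_card_sub_one_eq_one x hx
    rw [key ha hb, k0]
    exact pow_eq_pow_of_modEq c h1
  have h4 := exists_sq_ne hF h.two
  rcases h.cases with e | e | ⟨rfl, rfl⟩ | ⟨rfl, rfl⟩ | ⟨rfl, rfl⟩
  · have hN : N = 2 ^ n - 1 := by have := h.eq; subst e; omega
    exact T_uniq' hF hn h4 (all hα hβ (hN ▸ c1)) (all hα' hβ' (hN ▸ c2))
  · exact T_uniq' hF hn h4 (all hα hβ (h.lift e c1)) (all hα' hβ' (h.lift e c2))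
  · exact fin2 (chk_uniq chk6 ht ha hb ha' hb' c1 c2)
  · exact fin2 (chk_uniq chk12 ht ha hb ha' hb' c1 c2)
  · exact fin2 (chk_uniq chk18 ht ha hb ha' hb' c1 c2)

/-- the multiplier acts irreducibly -/
theorem Par.irr (h : Par n d N) (hF : Nat.card F = 2 ^ n) {m : F} (hm : orderOf m = N)
    (S : AddSubgroup F) (hS : ∀ x ∈ S, m * x ∈ S) {x : F} (hx : x ∈ S) (hx0 : x ≠ 0) (y : F) :
    y ∈ S := by
  have := Fintype.ofFinite F
  let L : Subfield F :=
    { carrier := {a | ∀ x ∈ S, a * x ∈ S}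
      mul_mem' := fun {a b} ha hb x hx => by rw [mul_assoc]; exact ha _ (hb x hx)
      one_mem' := fun x hx => by simpa using hx
      add_mem' := fun {a b} ha hb x hx => by rw [add_mul]; exact S.add_mem (ha x hx) (hb x hx)
      zero_mem' := fun x _ => by simp
      neg_mem' := fun {a} ha x hx => by rw [neg_mul]; exact S.neg_mem (ha x hx)
      inv_mem' := fun a ha x hx => by
        by_cases h0 : a = 0
        · simp [h0]
        have hi : Function.Injective fun s : S => (⟨a * s, ha s s.2⟩ : S) := fun s t e =>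
          Subtype.ext (mul_left_cancel₀ h0 (congrArg Subtype.val e))
        obtain ⟨s, e⟩ := Finite.injective_iff_surjective.1 hi ⟨x, hx⟩
        have e1 : a * s = x := congrArg Subtype.val e
        rw [← e1, inv_mul_cancel_left₀ h0]; exact s.2 }
  have hmL : m ∈ L := hS
  classical
  obtain ⟨j, -, hj⟩ := FiniteField.card L 2
  have h1 : m ^ (2 ^ (j : ℕ) - 1) = 1 := by
    have := FiniteField.pow_card_sub_one_eq_one (⟨m, hmL⟩ : L)
      (fun e => h.ne_zero hm (congrArg Subtype.val e))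
    rw [hj] at this
    exact congrArg Subtype.val this
  have h2 := Nat.le_of_dvd j.pos (h.dvd_of (hm ▸ orderOf_dvd_of_pow_eq_one h1))
  have h3 : L = ⊤ := by
    apply SetLike.coe_injective
    refine Set.eq_of_subset_of_ncard_le (Set.subset_univ _) ?_
    rw [Subfield.coe_top, Set.ncard_univ, hF, ← Nat.card_coe_set_eq, SetLike.coe_sort_coe,
      Nat.card_eq_fintype_card, hj]
    exact Nat.pow_le_pow_right two_pos h2
  have : y / x ∈ L := h3 ▸ Subfield.mem_top _
  simpa [hx0] using this x hx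

theorem T_nondeg (h : Par n d N) (hF : Nat.card F = 2 ^ n) (T : F →+ F →+ F) {m l : F}
    (hm : orderOf m = N) {σ τ : F ≃+* F} (e : σ m * τ m = l)
    (hT : ∀ a u, T (l * a) (m * u) = l * T a u) {a u : F} (ha : a ≠ 0) (hu : u ≠ 0) (h0 : T a u = 0)
    (b v : F) : T b v = 0 := by
  subst e
  obtain ⟨S, c, hS, e⟩ := biadd_expand T hT
  have hm' : orderOf (σ m) = N := by rw [← hm]; exact σ.toMulEquiv.orderOf_eq m
  have hp : ∀ p ∈ S, p.1 (σ m * (τ * σ⁻¹) (σ m)) * (p.2 * σ⁻¹) (σ m) = σ m * (τ * σ⁻¹) (σ m) :=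
    fun p hp => by
      simp only [RingAut.mul_apply, RingAut.inv_apply, RingEquiv.symm_apply_apply]
      exact hS p hp
  rcases S.eq_empty_or_nonempty with rfl | ⟨p, hpS⟩
  · simp [e]
  have hs : S = {p} := Finset.eq_singleton_iff_unique_mem.2 ⟨hpS, fun q hq => by
    obtain ⟨e1, e2⟩ := h.uniq hF hm' (hp q hq) (hp p hpS)
    exact Prod.ext e1 (mul_right_cancel e2)⟩
  subst hs
  simp only [Finset.sum_singleton] at e
  rw [e] at h0 ⊢
  have : c p = 0 := by simpa [ha, hu] using h0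
  simp [this]

theorem alt_eq_zero (h : Par n d N) (hF : Nat.card F = 2 ^ n) (B : F →+ F →+ F) {l : F}
    (hl : orderOf l = N) (hB : ∀ a u, B (l * a) (l * u) = l * B a u) (h0 : ∀ x, B x x = 0)
    (x y : F) : B x y = 0 :=
  T_nondeg h hF B hl (σ := (frob F)⁻¹) (τ := (frob F)⁻¹) (by
    rw [← frob_apply]; simp) hB one_ne_zero one_ne_zero (h0 1) x y

theorem exists_weight {Q : F → F} (B : F →+ F →+ F) (hQ : ∀ x y, Q (x + y) = Q x + Q y + B x y)
    {m l : F} (h : ∀ x, Q (m * x) = l * Q x) {x : F} (h0 : Q x ≠ 0) :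
    ∃ σ τ : F ≃+* F, σ m * τ m = l := by
  by_cases hB : ∃ x y, B x y ≠ 0
  · obtain ⟨x, y, hB⟩ := hB
    refine exists_pair B (fun a u => ?_) hB
    have e1 := hQ (m * a) (m * u)
    rw [← mul_add, h, h, h, hQ] at e1
    linear_combination -e1
  · push Not at hB
    obtain ⟨β, e⟩ := exists_single (AddMonoidHom.mk' Q fun x y => by simpa [hB] using hQ x y)
      (m := m) (r := l) h h0
    refine ⟨(frob F)⁻¹ * β, (frob F)⁻¹ * β, ?_⟩
    rw [← frob_apply]
    simpa using e

theorem not_fix (h : Par n d N) (hF : Nat.card F = 2 ^ n) (T : F →+ F →+ F) {l m : F} (hl : l ≠ 0)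
    (hm : orderOf m = N) (hT : ∀ a u, T (l * a) (m * u) = l * T a u) {v : F} : ¬ ∀ a, T a v = a :=
  fun hv => by
  have hv0 : v ≠ 0 := fun e => one_ne_zero (α := F) (by simpa [e] using (hv 1).symm)
  have e0 : ∀ a w, T a (m * w) = l * T (l⁻¹ * a) w := fun a w => by
    rw [← hT, mul_inv_cancel_left₀ hl]
  let S0 : AddSubgroup F :=
    { carrier := {w | ∀ a, T a w = 0}
      add_mem' := fun {x y} hx hy a => by rw [map_add, hx, hy, add_zero]
      zero_mem' := fun a => map_zero _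
      neg_mem' := fun {x} hx a => by rw [map_neg, hx, neg_zero] }
  let S1 : AddSubgroup F :=
    { carrier := {w | (∀ a, T a w = 0) ∨ ∀ a, T a w = a}
      add_mem' := fun {x y} hx hy => by
        rcases hx with hx | hx <;> rcases hy with hy | hy
        · exact Or.inl fun a => by rw [map_add, hx, hy, add_zero]
        · exact Or.inr fun a => by rw [map_add, hx, hy, zero_add]
        · exact Or.inr fun a => by rw [map_add, hx, hy, add_zero]
        · exact Or.inl fun a => by rw [map_add, hx, hy, CharTwo.add_self_eq_zero]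
      zero_mem' := Or.inl fun a => map_zero _
      neg_mem' := fun {x} hx => by rwa [CharTwo.neg_eq] }
  have a1 := h.irr hF hm S1 (fun w hw => hw.imp (fun e a => by rw [e0, e, mul_zero])
    fun e a => by rw [e0, e, mul_inv_cancel_left₀ hl]) (Or.inr hv) hv0
  have h1 : ∀ w, w ≠ 0 → T 1 w = 1 := fun w hw => (a1 w).elim (fun e => absurd
    ((h.irr hF hm S0 (fun w hw a => by rw [e0, hw, mul_zero]) e hw v 1).symm.trans (hv 1))
    zero_ne_one) fun e => e 1
  obtain ⟨x, hx⟩ := exists_sq_ne hF h.two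
  have e := h1 (x + 1) fun e0 => hx (by simp [CharTwo.add_eq_zero.1 e0])
  rw [map_add, h1 x fun e0 => hx (by simp [e0]), h1 1 one_ne_zero] at e
  exact one_ne_zero (α := F) (by linear_combination e)

theorem indep_eigen {K V ι U : Type*} [Field K] [AddCommGroup V] [Module K V] (f : U → V →ₗ[K] V)
    (v : ι → V) (χ : ι → U → K) (hχ : Function.Injective χ) (hv : ∀ i, v i ≠ 0)
    (h : ∀ i u, f u (v i) = χ i u • v i) : LinearIndependent K v := by
  classical
  rw [linearIndependent_iff']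
  intro s
  induction s using Finset.induction_on with
  | empty => simp
  | insert i s hi ih =>
    intro g hg
    rw [Finset.sum_insert hi] at hg
    have h1 : ∀ j ∈ s, g j = 0 := fun j hj => by
      obtain ⟨u, hu⟩ := Function.ne_iff.1 (hχ.ne (fun e : j = i => hi (e ▸ hj)))
      have := ih (fun j => g j * (χ j u - χ i u)) (by
        have e1 := congrArg (f u) hg
        have e2 := congrArg (χ i u • ·) hg
        simp only [map_add, map_sum, map_smul, h, map_zero, smul_add, smul_zero, Finset.smul_sum,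
          smul_smul] at e1 e2
        simp only [mul_sub, sub_smul, Finset.sum_sub_distrib]
        rw [eq_neg_of_add_eq_zero_right e1, mul_comm (g i), neg_eq_of_add_eq_zero_right e2]
        simp only [mul_comm, sub_self]) j hj
      exact (mul_eq_zero.1 this).resolve_right (sub_ne_zero.2 hu)
    rw [Finset.sum_eq_zero fun j hj => by rw [h1 j hj, zero_smul], add_zero] at hg
    intro j hj
    rcases Finset.mem_insert.1 hj with rfl | hj
    · exact (smul_eq_zero.1 hg).resolve_right (hv _)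
    · exact h1 j hj

theorem idem_zero (h : Par n d N) (hF : Nat.card F = 2 ^ n) (T : F →+ F →+ F) {l m : F}
    (hl : orderOf l = N) (hm : orderOf m = N) (hT : ∀ a u, T (l * a) (m * u) = l * T a u)
    (hi : ∀ a u, T (T a u) u = T a u) (b w : F) : T b w = 0 := by
  classical
  have hl0 := h.ne_zero hl
  have hm0 := h.ne_zero hm
  have hc : ∀ a u v, T (T a u) v = T (T a v) u := fun a u v => by
    have := hi a (u + v)
    simp only [map_add, AddMonoidHom.add_apply, hi] at this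
    have e : T (T a u) v + T (T a v) u = 0 := by linear_combination this
    exact CharTwo.add_eq_zero.1 e
  obtain ⟨a, ha, hmax⟩ := Set.Finite.exists_maximalFor
    (fun a : F => {u | T a u = 0 ∨ T a u = a}) {a | a ≠ 0} (Set.toFinite _) ⟨1, one_ne_zero⟩
  have h1 : ∀ u, T a u = 0 ∨ T a u = a := fun w => by
    by_contra hn
    have hle : {u | T a u = 0 ∨ T a u = a} ≤ {u | T (T a w) u = 0 ∨ T (T a w) u = T a w} :=
      fun u hu => by
        rcases hu with hu | hu
        · exact Or.inl (by rw [hc, hu]; simp)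
        · exact Or.inr (by rw [hc, hu])
    exact hn (hmax (fun e => hn (Or.inl e)) hle (Or.inr (hi a w)))
  by_cases h0 : ∀ u, T a u = 0
  · let S : AddSubgroup F :=
      { carrier := {a | ∀ u, T a u = 0}
        add_mem' := fun {x y} hx hy u => by rw [map_add, AddMonoidHom.add_apply, hx, hy, add_zero]
        zero_mem' := fun u => by simp
        neg_mem' := fun {x} hx => by rwa [CharTwo.neg_eq] }
    exact h.irr hF hl S (fun x hx u => by
      rw [← mul_inv_cancel_left₀ hm0 u, hT, hx, mul_zero]) h0 ha b w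
  exfalso
  push Not at h0
  obtain ⟨u₀, hu₀⟩ := h0
  let _ : Algebra (ZMod 2) F := ZMod.algebra F 2
  have e : ∀ (j : ℕ) u, T (l ^ j * a) u = l ^ j * T a (u / m ^ j) := fun j u => by
    rw [← equiv_pow₂ (T := fun a u => T a u) hT j a (u / m ^ j),
      mul_div_cancel₀ _ (pow_ne_zero _ hm0)]
  have hli := indep_eigen (K := ZMod 2) (ι := Fin (n + 1)) (fun u => (T.flip u).toZModLinearMap 2)
    (fun j => l ^ (j : ℕ) * a) (fun j u => if T a (u / m ^ (j : ℕ)) = 0 then 0 else 1)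
    (fun i j e1 => by
      have e2 : ∀ u, T a (u / m ^ (i : ℕ)) = T a (u / m ^ (j : ℕ)) := fun u => by
        have := congrFun e1 u
        rcases h1 (u / m ^ (i : ℕ)) with a1 | a1 <;> rcases h1 (u / m ^ (j : ℕ)) with a2 | a2 <;>
          simp_all
      have e3 : (m ^ (i : ℕ))⁻¹ - (m ^ (j : ℕ))⁻¹ = 0 := by
        by_contra hn
        have := e2 (u₀ / ((m ^ (i : ℕ))⁻¹ - (m ^ (j : ℕ))⁻¹))
        rw [← sub_eq_zero, ← map_sub, div_eq_mul_inv _ (m ^ (i : ℕ)),
          div_eq_mul_inv _ (m ^ (j : ℕ)), ← mul_sub, div_mul_cancel₀ _ hn] at this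
        exact hu₀ this
      have := h.lt
      exact Fin.ext (pow_injOn_Iio_orderOf (x := m) (by rw [hm]; simp; omega)
        (by rw [hm]; simp; omega) (inv_injective (sub_eq_zero.1 e3))))
    (fun j => mul_ne_zero (pow_ne_zero _ hl0) ha) fun j u => by
      show T (l ^ (j : ℕ) * a) u = _
      rw [e]
      rcases h1 (u / m ^ (j : ℕ)) with a1 | a1
      · simp [a1]
      · have : a ≠ 0 := ha
        simp [a1, this]
  have h5 := hli.fintype_card_le_finrank
  have h6 := Module.natCard_eq_pow_finrank (K := ZMod 2) (V := F)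
  rw [hF, Nat.card_zmod] at h6
  have := Nat.pow_right_injective le_rfl h6
  simp at h5
  omega

end H21.Sh
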