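import Cfsg.Agent.H21.Sh1
import Cfsg.Agent.H4.SuzM

/-! Shaw's theorem on Suzuki 2-groups, II: Higman's argument for an automorphism of order
`(2^n - 1)/d`, `d ∣ n`, acting freely on the involutions (adapted from `H4.Suz*`). -/

set_option autoImplicit false
set_option linter.unusedSectionVars false
set_option linter.unusedVariables false

namespace H21.Sh
open Subgroup Module
open H4 hiding Coord comm_pairing sq_map T_nondeg alt_eq_zero idem_zero not_fix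
open scoped commutatorElement

variable {P : Type*} [Group P] {k : MulAut P} {A B C N U V W X D : Subgroup P}
  {F : Type*} [Field F] {c : P → F} {m l : F} {n d : ℕ}

/-- a finite 2-group with central involutions and an automorphism of order `(2^n - 1)/d` acting
freely on the involutions -/
structure Sz (k : MulAut P) (n d : ℕ) : Prop where
  pg : IsPGroup 2 P
  central : ∀ {x : P}, x * x = 1 → x ∈ center P
  card : Nat.card (Om P) = 2 ^ n
  par : Par n d (orderOf k)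
  free : ∀ j : ℕ, ∀ x : P, x ≠ 1 → x * x = 1 → (k ^ j) x = x → k ^ j = 1

namespace Sz
variable [Finite P] (h : Sz k n d)
include h

theorem Om_le : Om P ≤ center P := (closure_le _).2 fun _ hx => h.central hx

theorem mem_Om {x : P} : x ∈ Om P ↔ x * x = 1 := by
  refine ⟨fun hx => ?_, fun hx => subset_closure hx⟩
  induction hx using closure_induction with
  | mem x hx => exact hx
  | one => simp
  | mul x y hx' _ hx hy =>
    rw [mul_assoc, ← mul_assoc y, mem_center_iff.1 (h.Om_le hx') y, mul_assoc, hy, mul_one, hx]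
  | inv x _ hx => rw [← mul_inv_rev, hx, inv_one]

theorem Om_comm {z : P} (hz : z ∈ Om P) (g : P) : ⁅z, g⁆ = 1 :=
  commutatorElement_eq_one_iff_mul_comm.2 (mem_center_iff.1 (h.Om_le hz) g).symm

theorem cm_Om : Cm (Om P) := fun _ ha b _ => (mem_center_iff.1 (h.Om_le ha) b).symm

theorem mho_Om : Mho (Om P) = ⊥ := le_bot_iff.1 (mho_le_iff.2 fun _ ha => h.mem_Om.1 ha)

theorem free' (j : ℕ) {x : P} (hx : x ≠ 1) (e : (k ^ j) x = x) : k ^ j = 1 := by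
  obtain ⟨i, h1, h2⟩ := exists_inv_pow h.pg hx
  exact h.free j _ h1 h2 (by rw [map_pow, e])

theorem dvd_card_pred (hU : Inv k U) : orderOf k ∣ Nat.card U - 1 := by
  have := orderOf_dvd_ncard (g := k) (S := (U : Set P) \ {1})
    (fun x hx => ⟨hU x hx.1, by simpa using hx.2⟩) fun j x hx e => h.free' j hx.2 e
  rwa [Set.ncard_sdiff_singleton_of_mem U.one_mem, ← Nat.card_coe_set_eq] at this

theorem four_le : 4 ≤ Nat.card (Om P) := by
  rw [h.card]; exact Nat.pow_le_pow_right (n := 2) two_pos h.par.two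

theorem odd : Odd (orderOf k) := h.par.odd

theorem dvd_relIndex (hle : W ≤ U) (hU : Inv k U) (hW : Inv k W) :
    orderOf k ∣ W.relIndex U - 1 := by
  have h1 := h.dvd_card_pred hU
  have h2 := h.dvd_card_pred hW
  rw [← card_mul_relIndex hle] at h1
  have p1 : 1 ≤ Nat.card W := Nat.card_pos
  have p2 : 1 ≤ W.relIndex U := Nat.pos_of_ne_zero index_ne_zero_of_finite
  rw [← Nat.modEq_iff_dvd' (Nat.mul_pos p1 p2)] at h1
  rw [← Nat.modEq_iff_dvd' p1] at h2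
  rw [← Nat.modEq_iff_dvd' p2]
  exact h1.trans (by simpa using (h2.symm.mul_right (W.relIndex U)))

theorem le_relIndex (hlt : W < U) (hU : Inv k U) (hW : Inv k W) :
    Nat.card (Om P) ≤ W.relIndex U := by
  have h1 : W.relIndex U ≠ 1 := fun e => hlt.not_ge (relIndex_eq_one.1 e)
  obtain ⟨j, hj⟩ := (h.pg.to_subgroup U).index (W.subgroupOf U)
  have h2 := h.dvd_relIndex hlt.le hU hW
  rw [relIndex, hj] at h1 h2 ⊢
  rw [h.card]
  exact Nat.pow_le_pow_right two_pos (Nat.le_of_dvd (Nat.pos_of_ne_zero fun e => h1 (by simp [e]))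
    (h.par.dvd_of h2))

theorem Om_ne_bot : Om P ≠ ⊥ := fun e => by
  have := h.four_le
  rw [e, card_bot] at this
  omega

theorem Om_le_of (hA : Inv k A) (h1 : A ≠ ⊥) : Om P ≤ A := by
  obtain ⟨⟨x, hx⟩, hx1⟩ := ne_bot_iff_exists_ne_one.1 h1
  obtain ⟨i, h2, h3⟩ := exists_inv_pow h.pg (x := x) (by simpa using hx1)
  have h4 := h.le_relIndex (W := ⊥) (U := A ⊓ Om P) (bot_lt_iff_ne_bot.2 fun e => h2
    (mem_bot.1 (e ▸ ⟨A.pow_mem hx i, h.mem_Om.2 h3⟩))) (hA.inf inv_Om) inv_bot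
  rw [relIndex_bot_left] at h4
  exact (eq_of_le_of_card_ge inf_le_right h4).ge.trans inf_le_left

theorem eq_Om (hA : Inv k A) (h1 : A ≠ ⊥) (h2 : Mho A = ⊥) : A = Om P :=
  le_antisymm (fun _ ha => h.mem_Om.2 (mem_bot.1 (h2 ▸ sq_mem_mho ha))) (h.Om_le_of hA h1)

/-- sections of order `q` are irreducible -/
theorem irr (hU : Inv k U) (hW : Inv k W) (e : W.relIndex U = Nat.card (Om P)) (hX : Inv k X)
    (h1 : W ≤ X) (h2 : X ≤ U) : X = W ∨ X = U := by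
  by_contra hn
  push Not at hn
  have a1 := h.le_relIndex (lt_of_le_of_ne h1 hn.1.symm) hX hW
  have a2 := h.le_relIndex (lt_of_le_of_ne h2 hn.2) hU hX
  have a3 := relIndex_mul_relIndex W X U h1 h2
  have := h.four_le
  nlinarith

theorem free_mod (hlt : W < U) (hW : Inv k W) {j : ℕ} {u : P} (hu : u ∉ W)
    (e : (k ^ j) u * u⁻¹ ∈ W) : k ^ j = 1 := by
  have hd := orderOf_dvd_ncard (g := k ^ j) (S := (fun w => w * u) '' W) (by
    rintro _ ⟨w, hw, rfl⟩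
    exact ⟨_, W.mul_mem (hW.pow j w hw) e, by simp [mul_assoc]⟩) (by
    rintro i _ ⟨w, hw, rfl⟩ e
    rw [← pow_mul] at e ⊢
    exact h.free' _ (fun e1 => hu (by
      rw [eq_inv_of_mul_eq_one_right e1]; exact W.inv_mem hw)) e)
  rw [Set.ncard_image_of_injective _ (mul_left_injective u), ← Nat.card_coe_set_eq] at hd
  obtain ⟨n, hn⟩ := (h.pg.to_subgroup W).exists_card_eq
  have h2 : Odd (orderOf (k ^ j)) := h.odd.of_dvd_nat (orderOf_pow_dvd j)
  rw [SetLike.coe_sort_coe, hn] at hd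
  exact orderOf_eq_one_iff.1 (Nat.eq_one_of_dvd_coprimes (h2.coprime_two_right.pow_right n) dvd_rfl hd)

end Sz

/-- `c` identifies `U / W` with the additive group of `F`, and `k` acts as multiplication by
`m` -/
structure Coord (k : MulAut P) (U W : Subgroup P) (c : P → F) (m : F) : Prop where
  le : W ≤ U
  inv : Inv k U
  add : ∀ x ∈ U, ∀ y ∈ U, c (x * y) = c x + c y
  ker : ∀ x ∈ U, c x = 0 ↔ x ∈ W
  surj : ∀ e, ∃ x ∈ U, c x = e
  equi : ∀ x ∈ U, c (k x) = m * c x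
  gen : orderOf m = orderOf k

namespace Coord
variable (h : Coord k U W c m)
include h

theorem one : c 1 = 0 := (h.ker 1 U.one_mem).2 W.one_mem
theorem zero {x : P} (hx : x ∈ W) : c x = 0 := (h.ker x (h.le hx)).2 hx

theorem neg {x : P} (hx : x ∈ U) : c x⁻¹ = -c x := by
  have := h.add x hx x⁻¹ (U.inv_mem hx)
  rw [mul_inv_cancel, h.one] at this
  exact (neg_eq_of_add_eq_zero_right this.symm).symm

theorem inv' [CharP F 2] {x : P} (hx : x ∈ U) : c x⁻¹ = c x := by rw [h.neg hx, CharTwo.neg_eq]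

theorem eq_iff {x y : P} (hx : x ∈ U) (hy : y ∈ U) : c x = c y ↔ x * y⁻¹ ∈ W := by
  rw [← h.ker _ (U.mul_mem hx (U.inv_mem hy)), h.add _ hx _ (U.inv_mem hy), h.neg hy,
    ← sub_eq_add_neg, sub_eq_zero]

theorem exists_notMem : ∃ x ∈ U, x ∉ W := by
  obtain ⟨x, hx, e⟩ := h.surj 1
  exact ⟨x, hx, fun hw => one_ne_zero (e.symm.trans (h.zero hw))⟩

theorem conj (hc : ∀ d ∈ U, ∀ g, ⁅d, g⁆ ∈ W) {d : P} (hd : d ∈ U) (g : P) :
    g * d * g⁻¹ ∈ U ∧ c (g * d * g⁻¹) = c d := by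
  have e : g * d * g⁻¹ = d * ⁅d⁻¹, g⁆ := by simp only [commutatorElement_def]; group
  have h1 := hc _ (U.inv_mem hd) g
  rw [e, h.add _ hd _ (h.le h1), h.zero h1, add_zero]
  exact ⟨U.mul_mem hd (h.le h1), rfl⟩

theorem comm_left (hc : ∀ d ∈ U, ∀ g, ⁅d, g⁆ ∈ W) {x x' y : P} (h1 : ⁅x, y⁆ ∈ U)
    (h2 : ⁅x', y⁆ ∈ U) : c ⁅x * x', y⁆ = c ⁅x, y⁆ + c ⁅x', y⁆ := by
  have e : ⁅x * x', y⁆ = x * ⁅x', y⁆ * x⁻¹ * ⁅x, y⁆ := by simp only [commutatorElement_def]; group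
  rw [e, h.add _ (h.conj hc h2 x).1 _ h1, (h.conj hc h2 x).2, add_comm]

theorem comm_right (hc : ∀ d ∈ U, ∀ g, ⁅d, g⁆ ∈ W) {x y y' : P} (h1 : ⁅x, y⁆ ∈ U)
    (h2 : ⁅x, y'⁆ ∈ U) : c ⁅x, y * y'⁆ = c ⁅x, y⁆ + c ⁅x, y'⁆ := by
  have e : ⁅x, y * y'⁆ = ⁅x, y⁆ * (y * ⁅x, y'⁆ * y⁻¹) := by simp only [commutatorElement_def]; group
  rw [e, h.add _ h1 _ (h.conj hc h2 y).1, (h.conj hc h2 y).2]

theorem comm_symm [CharP F 2] {x y : P} (h1 : ⁅x, y⁆ ∈ U) : c ⁅y, x⁆ = c ⁅x, y⁆ := by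
  rw [← commutatorElement_inv, h.inv' h1]

theorem lift {g : P → F} (hg : ∀ x ∈ U, ∀ w ∈ W, g (w * x) = g x) :
    ∃ G : F → F, ∀ x ∈ U, G (c x) = g x := by
  choose s hs1 hs2 using h.surj
  refine ⟨fun e => g (s e), fun x hx => ?_⟩
  have := hg x hx _ ((h.eq_iff (hs1 _) hx).1 (hs2 _))
  simpa using this

theorem map (σ : F ≃+* F) : Coord k U W (fun x => σ (c x)) (σ m) where
  le := h.le
  inv := h.inv
  add x hx y hy := by rw [h.add x hx y hy, map_add]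
  ker x hx := by rw [map_eq_zero, h.ker x hx]
  surj e := by
    obtain ⟨x, hx, e1⟩ := h.surj (σ.symm e)
    exact ⟨x, hx, by simp [e1]⟩
  equi x hx := by rw [h.equi x hx, map_mul]
  gen := (σ.toMulEquiv.orderOf_eq m).trans h.gen

theorem smul {t : F} (ht : t ≠ 0) : Coord k U W (fun x => t * c x) m where
  le := h.le
  inv := h.inv
  add x hx y hy := by rw [h.add x hx y hy, mul_add]
  ker x hx := by rw [mul_eq_zero, h.ker x hx]; simp [ht]
  surj e := by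
    obtain ⟨x, hx, e1⟩ := h.surj (t⁻¹ * e)
    exact ⟨x, hx, by simp [e1, ht]⟩
  equi x hx := by rw [h.equi x hx]; ring
  gen := h.gen

/-- restriction to an invariant supplement -/
theorem restrict [W.Normal] (hB : Inv k B) (hle : B ≤ U) (hs : W ⊔ B = U) :
    Coord k B (W ⊓ B) c m where
  le := inf_le_right
  inv := hB
  add x hx y hy := h.add x (hle hx) y (hle hy)
  ker x hx := by rw [h.ker x (hle hx), mem_inf]; simp [hx]
  surj e := by
    obtain ⟨x, hx, rfl⟩ := h.surj e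
    obtain ⟨w, hw, b, hb, rfl⟩ := mem_sup_of_normal_left.1 (hs ▸ hx)
    exact ⟨b, hb, by rw [h.add _ (h.le hw) _ (hle hb), h.zero hw, zero_add]⟩
  equi x hx := h.equi x (hle hx)
  gen := h.gen

theorem relIndex_eq : W.relIndex U = Nat.card F := by
  let f : U →* Multiplicative F :=
    { toFun := fun x => Multiplicative.ofAdd (c x)
      map_one' := congrArg Multiplicative.ofAdd h.one
      map_mul' := fun x y => congrArg Multiplicative.ofAdd (h.add x x.2 y y.2) }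
  have hk : W.subgroupOf U = f.ker := by
    ext x
    rw [mem_subgroupOf, MonoidHom.mem_ker, ← h.ker x x.2]
    rfl
  have hs : f.range = ⊤ := MonoidHom.range_eq_top.2 fun e => by
    obtain ⟨x, hx, e1⟩ := h.surj (Multiplicative.toAdd e)
    exact ⟨⟨x, hx⟩, congrArg Multiplicative.ofAdd e1⟩
  rw [relIndex, hk, index_ker, hs, card_top]
  rfl

end Coord

/-- the commutator pairing of two sections -/
theorem comm_pairing {U₁ W₁ U₂ W₂ : Subgroup P} {c₁ c₂ : P → F} {m₁ m₂ : F}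
    (h₁ : Coord k U₁ W₁ c₁ m₁) (h₂ : Coord k U₂ W₂ c₂ m₂) (h : Coord k D W c l)
    (ha : ∀ x ∈ U₁, ∀ y ∈ U₂, ⁅x, y⁆ ∈ D) (hc : ∀ d ∈ D, ∀ g, ⁅d, g⁆ ∈ W)
    (z₁ : ∀ x ∈ W₁, ∀ y ∈ U₂, ⁅x, y⁆ ∈ W) (z₂ : ∀ x ∈ U₁, ∀ y ∈ W₂, ⁅x, y⁆ ∈ W) :
    ∃ T : F →+ F →+ F, (∀ x ∈ U₁, ∀ y ∈ U₂, T (c₁ x) (c₂ y) = c ⁅x, y⁆) ∧
      ∀ a u, T (m₁ * a) (m₂ * u) = l * T a u := by
  choose s₁ hs₁ hs₁' using h₁.surj
  choose s₂ hs₂ hs₂' using h₂.surj
  have k₁ : ∀ x ∈ U₁, ∀ y ∈ U₂, c ⁅s₁ (c₁ x), y⁆ = c ⁅x, y⁆ := fun x hx y hy => by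
    have hw := (h₁.eq_iff (hs₁ _) hx).1 (hs₁' _)
    have := h.comm_left hc (ha _ (h₁.le hw) y hy) (ha x hx y hy)
    rwa [inv_mul_cancel_right, h.zero (z₁ _ hw y hy), zero_add] at this
  have k₂ : ∀ x ∈ U₁, ∀ y ∈ U₂, c ⁅x, s₂ (c₂ y)⁆ = c ⁅x, y⁆ := fun x hx y hy => by
    have hw := (h₂.eq_iff (hs₂ _) hy).1 (hs₂' _)
    have := h.comm_right hc (ha x hx _ (h₂.le hw)) (ha x hx y hy)
    rwa [inv_mul_cancel_right, h.zero (z₂ x hx _ hw), zero_add] at this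
  have key : ∀ x ∈ U₁, ∀ y ∈ U₂, c ⁅s₁ (c₁ x), s₂ (c₂ y)⁆ = c ⁅x, y⁆ := fun x hx y hy => by
    rw [k₁ x hx _ (hs₂ _), k₂ x hx y hy]
  refine ⟨AddMonoidHom.mk' (fun a => AddMonoidHom.mk' (fun u => c ⁅s₁ a, s₂ u⁆) fun u v => ?_)
    fun a b => AddMonoidHom.ext fun u => ?_, key, fun a u => ?_⟩
  · have := k₂ _ (hs₁ a) _ (U₂.mul_mem (hs₂ u) (hs₂ v))
    rwa [h₂.add _ (hs₂ u) _ (hs₂ v), hs₂', hs₂', h.comm_right hc (ha _ (hs₁ a) _ (hs₂ u))
      (ha _ (hs₁ a) _ (hs₂ v))] at this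
  · have := k₁ _ (U₁.mul_mem (hs₁ a) (hs₁ b)) _ (hs₂ u)
    rwa [h₁.add _ (hs₁ a) _ (hs₁ b), hs₁', hs₁', h.comm_left hc (ha _ (hs₁ a) _ (hs₂ u))
      (ha _ (hs₁ b) _ (hs₂ u))] at this
  · have := key _ (h₁.inv _ (hs₁ a)) _ (h₂.inv _ (hs₂ u))
    rwa [h₁.equi _ (hs₁ a), h₂.equi _ (hs₂ u), hs₁', hs₂', ← map_commutatorElement,
      h.equi _ (ha _ (hs₁ a) _ (hs₂ u))] at this

/-- the squaring map of a section -/
theorem sq_map [CharP F 2] {W' : Subgroup P} {c' : P → F} (h : Coord k U W c m)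
    (h' : Coord k D W' c' l) (hs : ∀ x ∈ U, x * x ∈ D) (hc : ∀ d ∈ D, ∀ g, ⁅d, g⁆ ∈ W')
    (z₀ : ∀ x ∈ W, x * x ∈ W') (z : ∀ x ∈ W, ∀ y ∈ U, ⁅x, y⁆ ∈ W') :
    ∃ (Q : F → F) (B : F →+ F →+ F), (∀ x ∈ U, Q (c x) = c' (x * x)) ∧
      (∀ x ∈ U, ∀ y ∈ U, B (c x) (c y) = c' ⁅x, y⁆) ∧ (∀ x y, Q (x + y) = Q x + Q y + B x y) ∧
      ∀ x, Q (m * x) = l * Q x := by
  have ha : ∀ x ∈ U, ∀ y ∈ U, ⁅x, y⁆ ∈ D := fun x hx y hy => comm_mem_of_sq hs hx hy
  obtain ⟨B, hB, -⟩ := comm_pairing h h h' ha hc z fun x hx y hy => by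
    rw [← commutatorElement_inv]; exact W'.inv_mem (z y hy x hx)
  have key : ∀ x ∈ U, ∀ y ∈ U, c' (x * y * (x * y)) = c' (x * x) + c' (y * y) + c' ⁅x, y⁆ :=
    fun x hx y hy => by
      have e : x * y * (x * y) = x * ⁅y, x⁆ * x⁻¹ * (x * x) * (y * y) := by
        simp only [commutatorElement_def]; group
      have h1 := h'.conj hc (ha y hy x hx) x
      rw [e, h'.add _ (D.mul_mem h1.1 (hs x hx)) _ (hs y hy), h'.add _ h1.1 _ (hs x hx), h1.2,
        h'.comm_symm (ha x hx y hy)]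
      ring
  obtain ⟨Q, hQ⟩ := h.lift (g := fun x => c' (x * x)) fun x hx w hw => by
    simp only [key w (h.le hw) x hx, h'.zero (z₀ w hw), h'.zero (z w hw x hx), zero_add, add_zero]
  refine ⟨Q, B, hQ, hB, fun a b => ?_, fun a => ?_⟩
  · obtain ⟨x, hx, rfl⟩ := h.surj a
    obtain ⟨y, hy, rfl⟩ := h.surj b
    rw [← h.add x hx y hy, hQ _ (U.mul_mem hx hy), hQ x hx, hQ y hy, hB x hx y hy, key x hx y hy]
  · obtain ⟨x, hx, rfl⟩ := h.surj a
    rw [← h.equi x hx, hQ _ (h.inv x hx), hQ x hx, ← map_mul, h'.equi _ (hs x hx)]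

namespace Sz
variable [Finite P] (h : Sz k n d)
include h

theorem exists_coord' (hlt : W < U) (hU : Inv k U) (hW : Inv k W) (hsq : ∀ x ∈ U, x * x ∈ W)
    (hirr : ∀ X, Inv k X → W ≤ X → X ≤ U → X = W ∨ X = U) :
    ∃ (F : Type) (_ : Field F) (_ : Fintype F) (_ : CharP F 2) (c : P → F) (m : F),
      Nat.card F = Nat.card (Om P) ∧ Coord k U W c m := by
  obtain ⟨E, _, _, π, ρ, T, hs, hT⟩ := exists_secT hlt.le hU hW hsq
  have := hs.finite
  obtain ⟨u, hu, huW⟩ := SetLike.exists_of_lt hlt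
  have hirr' : ∀ S : Submodule (ZMod 2) E, (∀ a ∈ ({T} : Set (End (ZMod 2) E)), ∀ v ∈ S, a v ∈ S) →
      S = ⊥ ∨ S = ⊤ := fun S hS => by
    refine (hirr (hs.grp S) (fun x hx => ⟨hU x hx.1, ?_⟩) (hs.le_grp S) (hs.grp_le S)).imp
      (fun e => hs.grp_inj (e.trans hs.grp_bot.symm)) fun e => hs.grp_inj (e.trans hs.grp_top.symm)
    rw [hT x hx.1]; exact hS T rfl _ hx.2
  obtain ⟨F, _, _, _, f, hf1, hf⟩ := H0.exists_field_model {T} (by rintro _ rfl _ rfl; rfl) hirr'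
    (v₀ := π u) (fun e => huW ((hs.ker u hu).1 e))
  have h2 : CharP F 2 := charP_of_injective_algebraMap (algebraMap (ZMod 2) F).injective 2
  set μ := f (T (π u))
  have e1 : ∀ x ∈ U, f (π (k x)) = μ * f (π x) := fun x hx => by rw [hT x hx, hf T rfl]
  have e2 : ∀ j : ℕ, f (π ((k ^ j) u)) = μ ^ j := fun j => by
    induction j with
    | zero => exact hf1.trans (pow_zero _).symm
    | succ j ih => rw [pow_succ', pow_succ', MulAut.mul_apply, e1 _ (hU.pow j u hu), ih]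
  have ho : orderOf μ = orderOf k := by
    refine orderOf_eq_orderOf_iff.2 fun j => ⟨fun e => ?_, fun e => by rw [← e2, e]; exact hf1⟩
    rw [← e2, ← hf1, f.injective.eq_iff, hs.eq_iff (hU.pow j u hu) hu] at e
    exact h.free_mod hlt hW huW e
  have hμ : μ ^ 2 ^ n = μ := by
    rw [← h.par.eq, ← ho, pow_succ, mul_comm d, pow_mul, pow_orderOf_eq_one, one_pow, one_mul]
  let S : AddSubgroup E :=
    { carrier := {v | f v ^ 2 ^ n = f v}
      zero_mem' := by simp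
      add_mem' := fun {a b} ha hb => by
        simp only [Set.mem_ofPred_eq, map_add, add_pow_char_pow] at *
        rw [ha, hb]
      neg_mem' := fun {a} ha => by simpa only [Set.mem_ofPred_eq, map_neg, CharTwo.neg_eq] using ha }
  have hS : ∀ x : F, x ^ 2 ^ n = x := fun x => by
    rcases hirr' (AddSubgroup.toZModSubmodule 2 S) (by
      rintro _ rfl v (hv : f v ^ 2 ^ n = f v)
      show f (_) ^ 2 ^ n = f _
      rw [hf _ rfl, mul_pow, hμ, hv]) with e | e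
    · have : π u ∈ AddSubgroup.toZModSubmodule 2 S := show f _ ^ _ = f _ by rw [hf1, one_pow]
      rw [e] at this
      exact absurd ((hs.ker u hu).1 this) huW
    · have : f.symm x ∈ AddSubgroup.toZModSubmodule 2 S := e ▸ Submodule.mem_top
      simpa using (show f (f.symm x) ^ _ = f (f.symm x) from this)
  have hc : Coord k U W (fun x => f (π x)) μ :=
    ⟨hlt.le, hU, fun x hx y hy => by rw [hs.add x hx y hy, map_add],
      fun x hx => by rw [map_eq_zero_iff f f.injective, hs.ker x hx],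
      fun e => by
        obtain ⟨x, hx, e1⟩ := hs.surj (f.symm e)
        exact ⟨x, hx, by simp [e1]⟩, e1, ho⟩
  refine ⟨F, inferInstance, inferInstance, h2, _, μ, le_antisymm ?_ ?_, hc⟩
  · classical
    have hn := h.par.two
    have h1 : 1 < 2 ^ n := Nat.one_lt_two_pow (by omega)
    rw [h.card, Nat.card_eq_fintype_card, ← Finset.card_univ]
    have hd := FiniteField.X_pow_card_sub_X_natDegree_eq F h1
    have hne := FiniteField.X_pow_card_sub_X_ne_zero F h1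
    rw [← hd]
    refine le_trans (Finset.card_le_card fun x _ => ?_)
      ((Multiset.toFinset_card_le _).trans (Polynomial.card_roots' _))
    simp [hne, hS]
  · rw [← hc.relIndex_eq]; exact h.le_relIndex hlt hU hW

theorem exists_coord [Finite F] (hF : Nat.card F = Nat.card (Om P)) (hlt : W < U) (hU : Inv k U)
    (hW : Inv k W) (hsq : ∀ x ∈ U, x * x ∈ W)
    (hirr : ∀ X, Inv k X → W ≤ X → X ≤ U → X = W ∨ X = U) :
    ∃ (c : P → F) (m : F), Coord k U W c m := by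
  obtain ⟨F', _, _, _, c, m, hF', hc⟩ := h.exists_coord' hlt hU hW hsq hirr
  have := Fintype.ofFinite F
  let σ : F' ≃+* F := FiniteField.ringEquivOfCardEq (by
    rw [← Nat.card_eq_fintype_card, ← Nat.card_eq_fintype_card, hF, hF'])
  refine ⟨fun x => σ (c x), σ m, hc.le, hc.inv, fun x hx y hy => by rw [hc.add x hx y hy, map_add],
    fun x hx => by rw [map_eq_zero, hc.ker x hx], fun e => ?_,
    fun x hx => by rw [hc.equi x hx, map_mul], (σ.toMulEquiv.orderOf_eq m).trans hc.gen⟩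
  obtain ⟨x, hx, e1⟩ := hc.surj (σ.symm e)
  exact ⟨x, hx, by simp [e1]⟩

theorem exists_coord_Om : ∃ (F : Type) (_ : Field F) (_ : Fintype F) (_ : CharP F 2) (c : P → F)
    (l : F), Nat.card F = Nat.card (Om P) ∧ Coord k (Om P) ⊥ c l :=
  h.exists_coord' (bot_lt_iff_ne_bot.2 h.Om_ne_bot) inv_Om inv_bot (fun _ hx => h.mem_Om.1 hx)
    fun _ hX _ h2 => (eq_or_ne _ _).imp id fun e => le_antisymm h2 (h.Om_le_of hX e)

/-! ### invariant abelian subgroups -/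

theorem mem_mho_of_sq (hA : Cm A) (hi : Inv k A) (h1 : Mho A ≠ ⊥) {a : P} (ha : a ∈ A)
    (h2 : a * a ∈ Mho (Mho A)) : a ∈ Mho A := by
  obtain ⟨b, hb, e⟩ := hA.mho.mem_mho.1 h2
  have : a * b⁻¹ ∈ Mho A := h.Om_le_of hi.mho h1 (h.mem_Om.2 (by
    rw [mul_assoc, ← mul_assoc b⁻¹, hA _ (A.inv_mem (mho_le hb)) a ha, mul_assoc, ← mul_assoc, e]
    group))
  simpa using mul_mem this hb

theorem coord_sq (hA : Cm A) (hi : Inv k A) (hc : Coord k (Mho A) (Mho (Mho A)) c l) :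
    Coord k A (Mho A) (fun a => c (a * a)) l where
  le := mho_le
  inv := hi
  add x hx y hy := by
    rw [← hc.add _ (sq_mem_mho hx) _ (sq_mem_mho hy), mul_assoc, mul_assoc, ← mul_assoc y x,
      ← mul_assoc x y, hA x hx y hy]
  ker x hx := by
    obtain ⟨y, hy, hy'⟩ := hc.exists_notMem
    rw [hc.ker _ (sq_mem_mho hx)]
    exact ⟨h.mem_mho_of_sq hA hi (fun e => hy' (by rw [e] at hy; exact hy ▸ one_mem _)) hx,
      sq_mem_mho⟩
  surj e := by
    obtain ⟨x, hx, rfl⟩ := hc.surj e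
    obtain ⟨a, ha, rfl⟩ := hA.mem_mho.1 hx
    exact ⟨a, ha, rfl⟩
  equi x hx := by rw [← map_mul, hc.equi _ (sq_mem_mho hx)]
  gen := hc.gen

theorem mho_lt (hA : Cm A) (h1 : A ≠ ⊥) : Mho A < A := by
  refine lt_of_le_of_ne mho_le fun e => h1 (eq_bot_iff.2 fun x hx => ?_)
  have : ∀ i : ℕ, ∃ a ∈ A, x = a ^ 2 ^ i := fun i => by
    induction i with
    | zero => exact ⟨x, hx, by simp⟩
    | succ i ih =>
      obtain ⟨a, ha, rfl⟩ := ih
      obtain ⟨b, hb, rfl⟩ := hA.mem_mho.1 (e.ge ha)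
      exact ⟨b, hb, by rw [← sq, ← pow_mul, pow_succ']⟩
  obtain ⟨n, hn⟩ := h.pg.exists_card_eq
  obtain ⟨a, -, rfl⟩ := this n
  rw [← hn, pow_card_eq_one']; exact one_mem _

theorem exists_coord_ab (hZ : Coord k (Om P) ⊥ c l) (hA : Cm A) (hi : Inv k A) (h1 : A ≠ ⊥) :
    ∃ c' : P → F, Coord k A (Mho A) c' l := by
  induction A using WellFoundedLT.induction with | ind A ih =>
  by_cases h2 : Mho A = ⊥
  · rw [h2, h.eq_Om hi h1 h2]; exact ⟨c, hZ⟩
  · obtain ⟨c', hc'⟩ := ih _ (h.mho_lt hA h1) hA.mho hi.mho h2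
    exact ⟨_, h.coord_sq hA hi hc'⟩

theorem relIndex_mho (hA : Cm A) (hi : Inv k A) (h1 : A ≠ ⊥) :
    (Mho A).relIndex A = Nat.card (Om P) := by
  obtain ⟨F, _, _, _, c, l, hF, hZ⟩ := h.exists_coord_Om
  obtain ⟨c', hc'⟩ := h.exists_coord_ab hZ hA hi h1
  rw [hc'.relIndex_eq, hF]

theorem comm_mem_mho [A.Normal] (hA : Cm A) (hi : Inv k A) {a : P} (ha : a ∈ A) (g : P) :
    ⁅a, g⁆ ∈ Mho A := by
  by_cases h1 : A = ⊥
  · subst h1; simp [mem_bot.1 ha]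
  rcases h.irr hi hi.mho (h.relIndex_mho hA hi h1) (hi.inf hi.mho.cmod) (le_inf mho_le le_cmod)
    inf_le_left with e | e
  · exact absurd e.le (exists_mem_cmod h.pg (h.mho_lt hA h1).not_ge)
  · exact (e.ge ha).2.2 g

/-- Higman's Lemma 2 -/
theorem mem_of_sq (hA : Cm A) (hi : Inv k A) (h1 : A ≠ ⊥) {u : P} (hu : u * u ∈ Mho A)
    (hc : ∀ a ∈ A, ⁅a, u⁆ ∈ Mho (Mho A)) : u ∈ A := by
  have key : ∀ i : ℕ, ∃ b ∈ A, ∃ a ∈ A, b * u * (b * u) = a ^ (2 ^ i * 2) := fun i => by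
    induction i with
    | zero =>
      obtain ⟨a, ha, e⟩ := hA.mem_mho.1 hu
      exact ⟨1, A.one_mem, a, ha, by simpa [sq] using e⟩
    | succ i ih =>
      obtain ⟨b, hb, a, ha, e⟩ := ih
      obtain ⟨d', hd', e1⟩ := hA.mho.mem_mho.1 (hc a ha)
      obtain ⟨d, hd, rfl⟩ := hA.mem_mho.1 hd'
      refine ⟨a⁻¹ ^ 2 ^ i * b, A.mul_mem (A.pow_mem (A.inv_mem ha) _) hb, d, hd, ?_⟩
      have hm : a⁻¹ * d ^ 4 ∈ A := A.mul_mem (A.inv_mem ha) (A.pow_mem hd _)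
      have e2 : b * u * a⁻¹ * (b * u)⁻¹ = a⁻¹ * d ^ 4 := by
        have : u * a⁻¹ * u⁻¹ = a⁻¹ * d ^ 4 := by
          rw [show d ^ 4 = d * d * (d * d) by simp only [pow_succ, pow_zero, one_mul, mul_assoc],
            ← e1, commutatorElement_def]; group
        calc _ = b * (u * a⁻¹ * u⁻¹) * b⁻¹ := by group
          _ = _ := by rw [this, hA b hb _ hm, mul_inv_cancel_right]
      have c1 : Commute a⁻¹ (d ^ 4) := hA _ (A.inv_mem ha) _ (A.pow_mem hd _)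
      calc _ = a⁻¹ ^ 2 ^ i * (b * u * a⁻¹ * (b * u)⁻¹) ^ 2 ^ i * (b * u * (b * u)) := by
            rw [conj_pow]; group
        _ = a⁻¹ ^ 2 ^ i * a⁻¹ ^ 2 ^ i * ((d ^ 4) ^ 2 ^ i * a ^ (2 ^ i * 2)) := by
            rw [e2, e, c1.mul_pow]; group
        _ = _ := by
            rw [hA _ (A.pow_mem (A.pow_mem hd _) _) _ (A.pow_mem ha _)]; group
  obtain ⟨n, hn⟩ := h.pg.exists_card_eq
  obtain ⟨b, hb, a, -, e⟩ := key n
  rw [pow_mul, ← hn, pow_card_eq_one', one_pow] at e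
  simpa using A.mul_mem (A.inv_mem hb) (h.Om_le_of hi h1 (h.mem_Om.2 e))

end Sz

namespace Sz
variable [Finite P] (h : Sz k n d)
include h

theorem ne_bot (hA : MaxAb k A) : A ≠ ⊥ := fun e =>
  h.Om_ne_bot (le_bot_iff.1 (e ▸ hA.max _ om_normal inv_Om h.cm_Om (e ▸ bot_le)))

theorem Om_le_maxAb (hA : MaxAb k A) : Om P ≤ A := h.Om_le_of hA.inv (h.ne_bot hA)

theorem chief_coord {F : Type*} [Field F] [Finite F] (hF : Nat.card F = Nat.card (Om P))
    (hA : Inv k A) (hC : Chief k A C) : ∃ (c : P → F) (m : F), Coord k C A c m :=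
  h.exists_coord hF hC.lt hC.inv hA hC.sq hC.irr

/-- Case I: all squares of `C` lie in `℧¹(A)`; then `A` has exponent 4 -/
theorem caseI (hA : MaxAb k A) (hC : Chief k A C) (hs : ∀ u ∈ C, u * u ∈ Mho A) :
    Mho A = Om P := by
  have := hA.normal
  obtain ⟨F, _, _, _, cZ, l, hF, hZ⟩ := h.exists_coord_Om
  obtain ⟨c, m, hc⟩ := h.chief_coord hF hA.inv hC
  have L2 : ∀ u ∈ C, (∀ a ∈ A, ⁅a, u⁆ ∈ Mho (Mho A)) → u ∈ A := fun u hu =>
    h.mem_of_sq hA.cm hA.inv (h.ne_bot hA) (hs u hu)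
  have hcm : ∀ a ∈ A, ∀ g, ⁅a, g⁆ ∈ Mho A := fun a ha => h.comm_mem_mho hA.cm hA.inv ha
  have h1 : Mho A ≠ ⊥ := fun e => by
    obtain ⟨u, hu, hu'⟩ := hc.exists_notMem
    exact hu' (L2 u hu fun a ha => by simpa [e, mho_bot] using hcm a ha u)
  by_contra hn
  have h2 : Mho (Mho A) ≠ ⊥ := fun e => hn (h.eq_Om hA.inv.mho h1 e)
  obtain ⟨c₂, hc₂⟩ := h.exists_coord_ab hZ hA.cm.mho hA.inv.mho h1
  have hc₁ := h.coord_sq hA.cm hA.inv hc₂
  have hcm₂ : ∀ a ∈ Mho A, ∀ g, ⁅a, g⁆ ∈ Mho (Mho A) := fun a ha =>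
    h.comm_mem_mho hA.cm.mho hA.inv.mho ha
  obtain ⟨T, hT, hTe⟩ := comm_pairing hc₁ hc hc₂ (fun x hx y _ => hcm x hx y) hcm₂
    (fun x hx y _ => hcm₂ x hx y) fun x hx y hy => by rw [hA.cm.comm hx hy]; exact one_mem _
  have hx0 := idem_zero h.par (hF.trans h.card) T hZ.gen hc.gen hTe fun a x => by
    obtain ⟨a, ha, rfl⟩ := hc₁.surj a
    obtain ⟨u, hu, rfl⟩ := hc.surj x
    obtain ⟨b, hb, e1⟩ := hA.cm.mem_mho.1 (hcm a ha u)
    obtain ⟨d, hd, e2⟩ := hA.cm.mem_mho.1 (hcm b hb u)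
    rw [hT a ha u hu, e1, hT b hb u hu, e2]
    symm
    have hbd := A.mul_mem hb (A.inv_mem hd)
    rw [hc₁.eq_iff hb hd]
    refine h.mem_mho_of_sq hA.cm hA.inv h1 hbd (h.Om_le_of hA.inv.mho.mho h2 (h.mem_Om.2 ?_))
    have f1 : u * a⁻¹ * u⁻¹ = a⁻¹ * (b * b) := by rw [← e1, commutatorElement_def]; group
    have f2 : u * b * u⁻¹ = d⁻¹ * d⁻¹ * b := by
      rw [← mul_inv_rev, ← e2, commutatorElement_def]; group
    have f3 : u * u * a⁻¹ * (u * u)⁻¹ = a⁻¹ := by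
      rw [hA.cm _ (hC.sq u hu) _ (A.inv_mem ha), mul_inv_cancel_right]
    have f4 : a⁻¹ * (b * b) * (d⁻¹ * d⁻¹ * b * (d⁻¹ * d⁻¹ * b)) = a⁻¹ := by
      rw [← f2, ← f1]
      calc _ = u * (a⁻¹ * (b * b)) * u⁻¹ := by group
        _ = u * u * a⁻¹ * (u * u)⁻¹ := by rw [← f1]; group
        _ = _ := f3
    have c1 : Commute b d⁻¹ := hA.cm _ hb _ (A.inv_mem hd)
    have f5 : (b * d⁻¹) ^ 4 = b * b * (d⁻¹ * d⁻¹ * b * (d⁻¹ * d⁻¹ * b)) := by
      rw [← sq, ← sq, ← sq, c1.mul_pow, (c1.symm.pow_left 2).mul_pow,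
        ((c1.symm.pow_left 2).pow_left 2).pow_right 2]
      group
    rw [mul_assoc, mul_eq_left, ← f5] at f4
    rw [← f4]
    simp only [pow_succ, pow_zero, one_mul, mul_assoc]
  obtain ⟨u, hu, hu'⟩ := hc.exists_notMem
  exact hu' (L2 u hu fun a ha => (hc₂.ker _ (hcm a ha u)).1 (by rw [← hT a ha u hu, hx0]))

/-- Case II: some square of `C` lies outside `℧¹(A)`; then `A` is elementary abelian -/
theorem caseII (hA : MaxAb k A) (hC : Chief k A C) {u₀ : P} (hu₀ : u₀ ∈ C)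
    (hs : u₀ * u₀ ∉ Mho A) : A = Om P := by
  have := hA.normal
  have := hC.normal
  obtain ⟨F, _, _, _, cZ, l, hF, hZ⟩ := h.exists_coord_Om
  obtain ⟨c, m, hc⟩ := h.chief_coord hF hA.inv hC
  have hcm : ∀ a ∈ A, ∀ g, ⁅a, g⁆ ∈ Mho A := fun a ha => h.comm_mem_mho hA.cm hA.inv ha
  by_contra hn
  have h1 : Mho A ≠ ⊥ := fun e => hn (h.eq_Om hA.inv (h.ne_bot hA) e)
  obtain ⟨c₂, hc₂⟩ := h.exists_coord_ab hZ hA.cm.mho hA.inv.mho h1
  have hc₁ := h.coord_sq hA.cm hA.inv hc₂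
  have hcm₂ : ∀ a ∈ Mho A, ∀ g, ⁅a, g⁆ ∈ Mho (Mho A) := fun a ha =>
    h.comm_mem_mho hA.cm.mho hA.inv.mho ha
  obtain ⟨T, hT, hTe⟩ := comm_pairing hc₁ hc hc₂ (fun x hx y _ => hcm x hx y) hcm₂
    (fun x hx y _ => hcm₂ x hx y) fun x hx y hy => by rw [hA.cm.comm hx hy]; exact one_mem _
  obtain ⟨Q, B, hQ, hB, hQa, hQe⟩ := sq_map hc hc₁ hC.sq hcm (fun x hx => sq_mem_mho hx)
    fun x hx y _ => hcm x hx y
  have hQ0 : Q (c u₀) ≠ 0 := fun e => hs ((hc₁.ker _ (hC.sq _ hu₀)).1 ((hQ _ hu₀).symm.trans e))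
  obtain ⟨σ, τ, hl⟩ := exists_weight B hQa hQe hQ0
  have hT0 := T_nondeg h.par (hF.trans h.card) T hc.gen hl hTe hQ0
    (u := c u₀) (fun e => hs (sq_mem_mho ((hc.ker _ hu₀).1 e))) (by
      rw [hQ _ hu₀, hT _ (hC.sq _ hu₀) _ hu₀, commutatorElement_eq_one_iff_mul_comm.2
        (mul_assoc _ _ _), hc₂.one])
  have h4 : ∀ a ∈ A, ∀ u ∈ C, ⁅a, u⁆ ∈ Mho (Mho A) := fun a ha u hu =>
    (hc₂.ker _ (hcm a ha u)).1 (by rw [← hT a ha u hu, hT0])
  have hB0 : ∀ x ∈ C, ∀ y ∈ C, ⁅x, y⁆ ∈ Mho A := fun x hx y hy => by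
    have he := hC.comm x hx y
    refine h.mem_mho_of_sq hA.cm hA.inv h1 he ?_
    have := mul_mem (h4 _ he x hx) (h4 _ (hC.sq x hx) y hy)
    convert this using 1
    simp only [commutatorElement_def]; group
  -- squaring identifies `C / A` with `A / ℧¹(A)`
  have hQadd : ∀ x y, Q (x + y) = Q x + Q y := fun x y => by
    obtain ⟨u, hu, rfl⟩ := hc.surj x
    obtain ⟨v, hv, rfl⟩ := hc.surj y
    rw [hQa, hB u hu v hv, hc₁.zero (hB0 u hu v hv), add_zero]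
  have hi : Function.Injective Q := (injective_iff_map_eq_zero (AddMonoidHom.mk' Q hQadd)).2
    fun x hx => by_contra fun hx0 => hQ0 (h.par.irr (hF.trans h.card) hc.gen
      (AddMonoidHom.mk' Q hQadd).ker (fun y (hy : Q y = 0) => show Q _ = 0 by
        rw [hQe, hy, mul_zero]) hx hx0 _)
  have hc' : Coord k C A (fun u => Q (c u)) l :=
    { le := hc.le
      inv := hc.inv
      add := fun x hx y hy => by
        rw [hc.add x hx y hy, hQa, hB x hx y hy, hc₁.zero (hB0 x hx y hy), add_zero]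
      ker := fun x hx => by
        rw [← hc.ker x hx]; exact map_eq_zero_iff (AddMonoidHom.mk' Q hQadd) hi
      surj := fun e => by
        obtain ⟨x, rfl⟩ := Finite.injective_iff_surjective.1 hi e
        obtain ⟨u, hu, rfl⟩ := hc.surj x
        exact ⟨u, hu, rfl⟩
      equi := fun x hx => by rw [hc.equi x hx, hQe]
      gen := hZ.gen }
  have hD : ⁅C, C⁆ ≤ A := commutator_le.2 fun x hx y _ => hC.comm x hx y
  have hDc := hA.cm.mono hD
  have hDi := hC.inv.comm hC.inv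
  have hD1 : ⁅C, C⁆ ≠ ⊥ := fun e => hA.not_cm hC fun x hx y hy =>
    commutatorElement_eq_one_iff_mul_comm.1 (mem_bot.1 (e ▸ commutator_mem_commutator hx hy))
  obtain ⟨cD, hcD⟩ := h.exists_coord_ab hZ hDc hDi hD1
  have hcmD : ∀ a ∈ ⁅C, C⁆, ∀ g, ⁅a, g⁆ ∈ Mho ⁅C, C⁆ := fun a ha => h.comm_mem_mho hDc hDi ha
  have z : ∀ x ∈ A, ∀ y ∈ C, ⁅x, y⁆ ∈ Mho ⁅C, C⁆ := fun x hx y hy => by
    have sq : ∀ u ∈ C, cD ⁅u * u, y⁆ = 0 := fun u hu => by
      rw [hcD.comm_left hcmD (commutator_mem_commutator hu hy) (commutator_mem_commutator hu hy),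
        CharTwo.add_self_eq_zero]
    obtain ⟨u, hu, e⟩ := hc'.surj (c₂ (x * x))
    rw [hQ u hu] at e
    obtain ⟨b, hb, e⟩ := hA.cm.mem_mho.1 ((hc₁.eq_iff hx (hC.sq u hu)).1 e.symm)
    rw [← hcD.ker _ (commutator_mem_commutator (hc.le hx) hy), eq_mul_of_mul_inv_eq e,
      hcD.comm_left hcmD (commutator_mem_commutator (C.mul_mem (hc.le hb) (hc.le hb)) hy)
        (commutator_mem_commutator (C.mul_mem hu hu) hy), sq b (hc.le hb), sq u hu, add_zero]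
  obtain ⟨B', hB', hB'e⟩ := comm_pairing hc' hc' hcD (fun x hx y hy =>
    commutator_mem_commutator hx hy) hcmD z fun x hx y hy => by
      rw [← commutatorElement_inv]; exact inv_mem (z y hy x hx)
  have := alt_eq_zero h.par (hF.trans h.card) B' hZ.gen hB'e fun x => by
    obtain ⟨u, hu, rfl⟩ := hc'.surj x
    rw [hB' u hu u hu, commutatorElement_self, hcD.one]
  exact (h.mho_lt hDc hD1).not_ge (commutator_le.2 fun x hx y hy =>
    (hcD.ker _ (commutator_mem_commutator hx hy)).1 (by rw [← hB' x hx y hy, this]))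

theorem chief_sq (hA : MaxAb k A) (hC : Chief k A C) :
    (∀ u ∈ C, u * u ∈ Om P) ∧ (A = Om P ∨ Mho A = Om P) := by
  by_cases hs : ∀ u ∈ C, u * u ∈ Mho A
  · have := h.caseI hA hC hs
    exact ⟨this ▸ hs, Or.inr this⟩
  · push Not at hs
    obtain ⟨u, hu, hs⟩ := hs
    have := h.caseII hA hC hu hs
    exact ⟨this ▸ hC.sq, Or.inl this⟩

theorem comm_mho_top {x : P} (hx : ∀ g, ⁅x, g⁆ ∈ Om P) : Mho ⊤ ≤ centralizer {x} :=
  mho_le_iff.2 fun g _ => mem_centralizer_singleton_iff.2 (by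
    have e : ⁅x, g * g⁆ = ⁅x, g⁆ * (g * ⁅x, g⁆ * g⁻¹) := by
      simp only [commutatorElement_def]; group
    symm
    rw [← commutatorElement_eq_one_iff_mul_comm, e, mem_center_iff.1 (h.Om_le (hx g)) g,
      mul_inv_cancel_right, h.mem_Om.1 (hx g)])

/-- `Φ(P) ≤ A` -/
theorem sq_mem_maxAb (hA : MaxAb k A) (x : P) : x * x ∈ A := by
  have := hA.normal
  by_contra hn
  obtain ⟨C, hC, hle⟩ := exists_chief h.pg (N := A ⊔ Mho ⊤) hA.inv (hA.inv.sup inv_top.mho)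
    (lt_of_le_not_ge le_sup_left fun e => hn (e (mem_sup_right (sq_mem_mho (mem_top x)))))
  obtain ⟨hs, e | e⟩ := h.chief_sq hA hC
  · refine hA.not_cm hC fun u hu v hv => ?_
    have : A ⊔ Mho ⊤ ≤ centralizer {u} := sup_le (e ▸ h.Om_le.trans (center_le_centralizer _))
      (h.comm_mho_top fun g => e ▸ hC.comm u hu g)
    exact (mem_centralizer_singleton_iff.1 (this (hle hv))).symm
  · obtain ⟨u, hu, hu'⟩ := SetLike.exists_of_lt hC.lt
    refine hu' (h.mem_of_sq hA.cm hA.inv (h.ne_bot hA) (e ▸ hs u hu) fun a ha => ?_)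
    have : A ⊔ Mho ⊤ ≤ centralizer {a} :=
      sup_le (fun b hb => mem_centralizer_singleton_iff.2 (hA.cm b hb a ha))
      (h.comm_mho_top fun g => e ▸ h.comm_mem_mho hA.cm hA.inv ha g)
    rw [commutatorElement_eq_one_iff_mul_comm.2
      (mem_centralizer_singleton_iff.1 (this (hle hu))).symm]
    exact one_mem _

theorem eq_top_of_chief [A.Normal] (hA : Inv k A) (hs : ∀ x, x * x ∈ A) (hN : Inv k N) (hle : A ≤ N)
    (hc : ∀ C, Chief k A C → C ≤ N) : N = ⊤ := by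
  obtain ⟨Y, hY, -, h1, h2⟩ := exists_compl h.odd hle le_top inv_top hA hN fun x _ => hs x
  have hAY : A ≤ Y := h1 ▸ inf_le_right
  have : Y.Normal := normal_of_comm hAY fun x _ g =>
    comm_mem_of_sq (V := ⊤) (fun x _ => hs x) trivial trivial
  rcases eq_or_lt_of_le hAY with e | e
  · rw [← h2, ← e, sup_of_le_left hle]
  · obtain ⟨C, hC, hle⟩ := exists_chief h.pg hA hY e
    exact absurd (h1 ▸ le_inf (hc C hC) hle) hC.lt.not_ge

/-- in the exponent 4 case the weight of `Z` is a product of two conjugates of the weight of `C/A` -/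
theorem chief_weight (hA : MaxAb k A) (hC : Chief k A C) (e : Mho A = Om P) {F : Type*} [Field F]
    [Finite F] [CharP F 2] {c cZ : P → F} {m l : F} (hZ : Coord k (Om P) ⊥ cZ l)
    (hc : Coord k C A c m) : ∃ σ τ : F ≃+* F, σ m * τ m = l := by
  have := hA.normal
  have hs := (h.chief_sq hA hC).1
  obtain ⟨B, hB, hBC, h1, h2⟩ := exists_compl h.odd (h.Om_le_maxAb hA) hC.lt.le hC.inv inv_Om
    hA.inv hs
  have hc' := hc.restrict hB hBC h2
  rw [h1] at hc'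
  obtain ⟨Q, B', hQ, -, hQa, hQe⟩ := sq_map hc' hZ (fun x hx => hs x (hBC hx))
    (fun d hd g => h.Om_comm hd g) (fun x hx => h.mem_Om.1 hx) fun d hd g _ => h.Om_comm hd g
  obtain ⟨u, hu, hu'⟩ := hc'.exists_notMem
  exact exists_weight B' hQa hQe (x := c u) fun e0 => hu' (h.mem_Om.2
    ((hZ.ker _ (hs u (hBC hu))).1 ((hQ u hu).symm.trans e0)))

theorem comm_chief (hA : MaxAb k A) (e : Mho A = Om P) {C₁ C₂ : Subgroup P} (h₁ : Chief k A C₁)
    (h₂ : Chief k A C₂) {u v : P} (hu : u ∈ C₁) (hv : v ∈ C₂) : ⁅u, v⁆ ∈ Om P := by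
  have := hA.normal
  obtain ⟨F, _, _, _, cZ, l, hF, hZ⟩ := h.exists_coord_Om
  have hcm : ∀ a ∈ A, ∀ g, ⁅a, g⁆ ∈ Om P := fun a ha => e ▸ h.comm_mem_mho hA.cm hA.inv ha
  have hcA : Coord k A (Om P) (fun a => cZ (a * a)) l := by
    have := h.coord_sq hA.cm hA.inv (c := cZ) (l := l) (by rwa [e, h.mho_Om])
    rwa [e] at this
  have key : ∀ {C : Subgroup P} {c : P → F} {m : F}, Chief k A C → Coord k C A c m →
      ∃ T : F →+ F →+ F, (∀ x ∈ A, ∀ y ∈ C, T (cZ (x * x)) (c y) = cZ ⁅x, y⁆) ∧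
      (∀ a u, T (l * a) (m * u) = l * T a u) ∧ ∀ u ∈ C, ∀ g, ⁅u, g⁆ ∈ A →
        T (cZ (⁅u, g⁆ * ⁅u, g⁆)) (c u) = cZ (⁅u, g⁆ * ⁅u, g⁆) := fun {C c m} hC hc => by
    obtain ⟨T, hT, hTe⟩ := comm_pairing hcA hc hZ (fun x hx y _ => hcm x hx y)
      (fun d hd g => h.Om_comm hd g) (fun d hd g _ => h.Om_comm hd g) fun x hx y hy =>
        hA.cm.comm hx hy
    refine ⟨T, hT, hTe, fun u hu g hg => ?_⟩
    have e1 : ⁅⁅u, g⁆, u⁆ = ⁅u, g⁆ * ⁅u, g⁆ * ⁅u * u, g⁆⁻¹ := by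
      simp only [commutatorElement_def]; group
    rw [hT _ hg u hu, e1, h.Om_comm ((h.chief_sq hA hC).1 u hu) g, inv_one, mul_one]
  obtain ⟨c₁, m₁, hc₁⟩ := h.chief_coord hF hA.inv h₁
  obtain ⟨c₂, m₂, hc₂⟩ := h.chief_coord hF hA.inv h₂
  obtain ⟨T₁, hT₁, hT₁e, hT₁f⟩ := key h₁ hc₁
  obtain ⟨T₂, -, hT₂e, hT₂f⟩ := key h₂ hc₂
  obtain ⟨f, hf, -⟩ := comm_pairing hc₁ hc₂ hcA (fun x hx y _ => h₁.comm x hx y) hcm
    (fun x hx y _ => hcm x hx y) fun x _ y hy => by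
      rw [← commutatorElement_inv]; exact inv_mem (hcm y hy x)
  have f1 : ∀ x y, T₁ (f x y) x = f x y := fun x y => by
    obtain ⟨u, hu, rfl⟩ := hc₁.surj x
    obtain ⟨v, hv, rfl⟩ := hc₂.surj y
    rw [hf u hu v hv, hT₁f u hu v (h₁.comm u hu v)]
  have f2 : ∀ x y, T₂ (f x y) y = f x y := fun x y => by
    obtain ⟨u, hu, rfl⟩ := hc₁.surj x
    obtain ⟨v, hv, rfl⟩ := hc₂.surj y
    rw [hf u hu v hv, hcA.comm_symm (h₂.comm v hv u), hT₂f v hv u (h₂.comm v hv u)]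
  obtain ⟨σ, τ, hl⟩ := h.chief_weight hA h₁ e hZ hc₁
  have nd : ∀ a x, a ≠ 0 → x ≠ 0 → T₁ a x ≠ 0 := fun a x ha hx e0 => by
    obtain ⟨w, hw, hw'⟩ := hc₁.exists_notMem
    refine hw' (h.mem_of_sq hA.cm hA.inv (h.ne_bot hA) (e ▸ (h.chief_sq hA h₁).1 w hw)
      fun b hb => ?_)
    rw [e, h.mho_Om, ← hZ.ker _ (hcm b hb w), ← hT₁ b hb w hw]
    exact T_nondeg h.par (hF.trans h.card) T₁ hc₁.gen hl hT₁e ha hx e0 _ _
  rw [← hcA.ker _ (h₁.comm u hu v), ← hf u hu v hv]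
  by_contra hn
  have hi : Function.Injective (f.flip (c₂ v)) := (injective_iff_map_eq_zero _).2 fun x hx => by
    by_contra hx0
    have := f1 (c₁ u + x) (c₂ v)
    rw [AddMonoidHom.flip_apply] at hx
    rw [map_add f, AddMonoidHom.add_apply, hx, add_zero, map_add, f1, add_eq_left] at this
    exact nd _ _ hn hx0 this
  refine not_fix h.par (hF.trans h.card) T₂ (h.par.ne_zero hZ.gen) hc₂.gen hT₂e (v := c₂ v) fun a => ?_
  obtain ⟨x, rfl⟩ := Finite.injective_iff_surjective.1 hi a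
  exact f2 x _

/-- Higman: all squares are central involutions or trivial -/
theorem sq_mem_Om (hna : ¬ Cm (⊤ : Subgroup P)) (x : P) : x * x ∈ Om P := by
  obtain ⟨A, hA⟩ := exists_maxAb k
  have := hA.normal
  obtain ⟨C, hC, -⟩ := exists_chief h.pg (N := ⊤) hA.inv inv_top
    (lt_top_iff_ne_top.2 fun e => hna (e ▸ hA.cm))
  rcases (h.chief_sq hA hC).2 with e | e
  · exact e ▸ h.sq_mem_maxAb hA x
  have hcm : ∀ a ∈ A, ∀ g, ⁅a, g⁆ ∈ Om P := fun a ha => e ▸ h.comm_mem_mho hA.cm hA.inv ha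
  have := h.eq_top_of_chief hA.inv (h.sq_mem_maxAb hA) inv_Om.cmod
    (fun a ha => ⟨e ▸ sq_mem_mho ha, hcm a ha⟩) fun C hC u hu => ⟨(h.chief_sq hA hC).1 u hu, ?_⟩
  · exact (this.ge (mem_top x)).1
  let N : Subgroup P :=
    { carrier := {g | ∀ u ∈ C, ⁅u, g⁆ ∈ Om P}
      one_mem' := fun u _ => by simp
      mul_mem' := fun {a b} ha hb u hu => by
        have := mul_mem (ha u hu) (om_normal.conj_mem _ (hb u hu) a)
        convert this using 1
        simp only [commutatorElement_def]; group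
      inv_mem' := fun {a} ha u hu => by
        have := om_normal.conj_mem _ (inv_mem (ha u hu)) a⁻¹
        convert this using 1
        simp only [commutatorElement_def]; group }
  have := h.eq_top_of_chief (N := N) hA.inv (h.sq_mem_maxAb hA) (fun g hg u hu => by
      obtain ⟨w, rfl⟩ := k.surjective u
      rw [← map_commutatorElement]
      exact inv_Om _ (hg w (hC.inv.symm hu)))
    (fun a ha u _ => by rw [← commutatorElement_inv]; exact inv_mem (hcm a ha u))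
    fun C' hC' v hv u hu => h.comm_chief hA e hC hC' hu hv
  exact fun g => this.ge (mem_top g) u hu

theorem comm_mem_Om (hna : ¬ Cm (⊤ : Subgroup P)) (x y : P) : ⁅x, y⁆ ∈ Om P :=
  comm_mem_of_sq (V := ⊤) (fun x _ => h.sq_mem_Om hna x) trivial trivial

theorem center_eq (hna : ¬ Cm (⊤ : Subgroup P)) : center P = Om P := by
  have hc : Cm (center P) := fun a _ b hb => mem_center_iff.1 hb a
  have h1 : center P ≠ ⊥ := fun e => h.Om_ne_bot (le_bot_iff.1 (e ▸ h.Om_le))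
  refine h.eq_Om inv_center h1 (by_contra fun h2 => hna fun u _ v _ => mem_center_iff.1 ?_ u)
  refine h.mem_of_sq hc inv_center h1 (h.Om_le_of inv_center.mho h2 (h.sq_mem_Om hna v))
    fun a ha => ?_
  rw [commutatorElement_eq_one_iff_mul_comm.2 (mem_center_iff.1 ha v).symm]
  exact one_mem _

end Sz

end H21.Sh
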