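/-
Four-dimensional symplectic groups, part 1: the Clifford relations and the non-central involutions.
-/
import Cfsg.Agent.H27.Asch25

set_option autoImplicit false
set_option linter.unusedSectionVars false

namespace H21.Sp
open Matrix Cfsg Cfsg.Geo H27.Asch

abbrev I4 := Fin 2 ⊕ Fin 2
abbrev M4 (F : Type*) := Matrix I4 I4 F
abbrev G4 (F : Type*) [Field F] := GL I4 F
abbrev S4 (F : Type*) [Field F] : Subgroup (G4 F) := spGL 2 F

variable {F : Type*} [Field F]

/-- the symplectic adjoint -/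
def ad (m : M4 F) : M4 F := (spΦ 2 F).adj m
/-- the symplectic form -/
def fm (u v : I4 → F) : F := (spΦ 2 F).f u v

section
variable (a b : M4 F) (u v w : I4 → F) (c : F)
theorem ad_mul : ad (a * b) = ad b * ad a := Frm.adj_mul ..
theorem ad_add : ad (a + b) = ad a + ad b := Frm.adj_add ..
theorem ad_sub : ad (a - b) = ad a - ad b := Frm.adj_sub ..
theorem ad_neg : ad (-a) = -ad a := Frm.adj_neg ..
@[simp] theorem ad_ad : ad (ad a) = a := Frm.adj_adj ..
@[simp] theorem ad_one : ad (1 : M4 F) = 1 := Frm.adj_one ..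
@[simp] theorem ad_zero : ad (0 : M4 F) = 0 := Frm.adj_zero ..
theorem ad_cA {g : G4 F} (hg : g ∈ S4 F) : ad (cA g a) = cA g (ad a) := Frm.adj_cA _ ((spΦ 2 F).iso_le_sim hg) _
theorem fm_ad : fm (a *ᵥ u) v = fm u (ad a *ᵥ v) := Frm.f_adj ..
theorem fm_add_left : fm (u + v) w = fm u w + fm v w := Frm.add_left ..
theorem fm_add_right : fm w (u + v) = fm w u + fm w v := Frm.add_right ..
theorem fm_sub_left : fm (u - v) w = fm u w - fm v w := Frm.sub_left ..
theorem fm_sub_right : fm w (u - v) = fm w u - fm w v := Frm.sub_right ..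
theorem fm_smul_left : fm (c • u) w = c * fm u w := Frm.smul_left ..
theorem fm_smul_right : fm w (c • u) = c * fm w u := Frm.smul_right ..
theorem fm_neg_left : fm (-u) w = -fm u w := Frm.neg_left ..
theorem fm_neg_right : fm w (-u) = -fm w u := Frm.neg_right ..
@[simp] theorem fm_self : fm u u = 0 := spΦ_alt u
@[simp] theorem fm_zero_left : fm 0 u = 0 := Frm.zero_left ..
@[simp] theorem fm_zero_right : fm u 0 = 0 := Frm.zero_right ..
theorem fm_nondeg {v : I4 → F} (h : ∀ u, fm u v = 0) : v = 0 := Frm.eq_zero_right _ h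
end

theorem ad_blocks (A B C D : Matrix (Fin 2) (Fin 2) F) :
    ad (fromBlocks A B C D) = fromBlocks Dᵀ (-Bᵀ) (-Cᵀ) Aᵀ := by
  change ((-J (Fin 2) F) * _ * J (Fin 2) F).map (RingHom.id F) = _
  simp [J, fromBlocks_transpose, fromBlocks_multiply, fromBlocks_neg]

theorem fm_eq (u v : I4 → F) : fm u v =
    u (.inr 0) * v (.inl 0) + u (.inr 1) * v (.inl 1) - u (.inl 0) * v (.inr 0) - u (.inl 1) * v (.inr 1) := by
  simp [fm, spΦ_f, sympForm, J, fromBlocks_mulVec, dotProduct, neg_mulVec]; ring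

theorem fm_swap (u v : I4 → F) : fm u v = -fm v u := by simp only [fm_eq]; ring

theorem mem_S4 {g : G4 F} : g ∈ S4 F ↔ ad g.val = (g⁻¹).val := (spΦ 2 F).mem_iso_iff

theorem fm_iso {g : G4 F} (h : g ∈ S4 F) (u v : I4 → F) : fm (g.val *ᵥ u) (g.val *ᵥ v) = fm u v :=
  (spΦ 2 F).mem_iso.1 h u v

theorem ad_smul (c : F) (a : M4 F) : ad (c • a) = c • ad a := (spΦ 2 F).adj_smul c a

theorem tr_ad (a : M4 F) : (ad a).trace = a.trace := (spΦ 2 F).trace_adj a

theorem tr_inv {g : G4 F} (h : g ∈ S4 F) : (g⁻¹).val.trace = g.val.trace := by rw [← mem_S4.1 h, tr_ad]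

theorem neg_mem_S4 {g : G4 F} (h : g ∈ S4 F) : -g ∈ S4 F := by
  rw [mem_S4] at h ⊢
  rw [Units.val_neg, ad_neg, h, inv_neg, Units.val_neg]

theorem neg_one_mem_S4 : -1 ∈ S4 F := neg_mem_S4 (one_mem _)

theorem tr_one : (1 : M4 F).trace = 4 := by simp

/-- the general self-adjoint matrix -/
def mk6 (a b c d β γ : F) : M4 F :=
  fromBlocks !![a, b; c, d] !![0, β; -β, 0] !![0, γ; -γ, 0] !![a, c; b, d]

theorem ad_mk6 (a b c d β γ : F) : ad (mk6 a b c d β γ) = mk6 a b c d β γ := by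
  rw [mk6, ad_blocks]
  ext (i | i) (j | j) <;> fin_cases i <;> fin_cases j <;> simp

theorem tr_mk6 (a b c d β γ : F) : (mk6 a b c d β γ).trace = 2 * (a + d) := by
  simp [mk6, trace, Fintype.sum_sum_type]; ring

/-- self-adjoint matrices of trace zero -/
def V5 (m : M4 F) : Prop := ad m = m ∧ m.trace = 0

/-- the polar form on `V5` -/
def bf (x y : M4 F) : F := (x * y).trace / 2

theorem bf_comm (x y : M4 F) : bf x y = bf y x := by rw [bf, bf, trace_mul_comm]
theorem bf_add_left (x y z : M4 F) : bf (x + y) z = bf x z + bf y z := by simp [bf, add_mul, add_div]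
theorem bf_add_right (x y z : M4 F) : bf z (x + y) = bf z x + bf z y := by simp [bf, mul_add, add_div]
theorem bf_sub_left (x y z : M4 F) : bf (x - y) z = bf x z - bf y z := by simp [bf, sub_mul, sub_div]
theorem bf_sub_right (x y z : M4 F) : bf z (x - y) = bf z x - bf z y := by simp [bf, mul_sub, sub_div]
theorem bf_smul_left (c : F) (x y : M4 F) : bf (c • x) y = c * bf x y := by simp [bf, mul_div_assoc]
theorem bf_smul_right (c : F) (x y : M4 F) : bf x (c • y) = c * bf x y := by simp [bf, mul_div_assoc]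
theorem bf_neg_left (x y : M4 F) : bf (-x) y = -bf x y := by simp [bf, neg_div]
theorem bf_neg_right (x y : M4 F) : bf x (-y) = -bf x y := by simp [bf, neg_div]
theorem bf_cA (g : G4 F) (x y : M4 F) : bf (cA g x) (cA g y) = bf x y := by rw [bf, bf, ← map_mul, trace_cA]

namespace V5
variable {x y : M4 F}
theorem zero : V5 (0 : M4 F) := ⟨ad_zero, trace_zero _ _⟩
theorem add (h : V5 x) (h' : V5 y) : V5 (x + y) := ⟨by rw [ad_add, h.1, h'.1], by simp [h.2, h'.2]⟩
theorem neg (h : V5 x) : V5 (-x) := ⟨by rw [ad_neg, h.1], by simp [h.2]⟩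
theorem sub (h : V5 x) (h' : V5 y) : V5 (x - y) := sub_eq_add_neg x y ▸ h.add h'.neg
theorem smul (h : V5 x) (c : F) : V5 (c • x) := ⟨by rw [ad_smul, h.1], by simp [h.2]⟩
theorem cA (h : V5 x) {g : G4 F} (hg : g ∈ S4 F) : V5 (cA g x) :=
  ⟨by rw [ad_cA _ hg, h.1], by rw [trace_cA, h.2]⟩
end V5

theorem v5_mk (a b c β γ : F) : V5 (mk6 a b c (-a) β γ) := ⟨ad_mk6 .., by simp [tr_mk6]⟩

theorem smul_one_inj {c d : F} (h : c • (1 : M4 F) = d • 1) : c = d := by
  simpa using congrFun (congrFun h (.inl 0)) (.inl 0)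

theorem smul_one_eq_zero {c : F} (h : c • (1 : M4 F) = 0) : c = 0 := smul_one_inj (by rw [h, zero_smul])

variable [h2 : NeZero (2 : F)]

theorem four_ne : (4 : F) ≠ 0 := by
  have := mul_ne_zero h2.1 h2.1
  norm_num at this ⊢; exact this

theorem eq_zero_of_neg {V : Type*} [AddCommGroup V] [Module F V] {x : V} (h : x = -x) : x = 0 := by
  have : (2 : F) • x = 0 := by rw [two_smul]; nth_rw 2 [h]; simp
  exact (smul_eq_zero.1 this).resolve_left h2.1

theorem exists_mk6 {m : M4 F} (h : ad m = m) : ∃ a b c d β γ, m = mk6 a b c d β γ := by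
  rw [← fromBlocks_toBlocks m, ad_blocks, fromBlocks_inj] at h
  obtain ⟨h1, h3, h4, -⟩ := h
  have e1 := fun i j => congrFun (congrFun h1 i) j
  have e3 : ∀ i j, -m (.inl j) (.inr i) = m (.inl i) (.inr j) := fun i j => congrFun (congrFun h3 i) j
  have e4 : ∀ i j, -m (.inr j) (.inl i) = m (.inr i) (.inl j) := fun i j => congrFun (congrFun h4 i) j
  simp only [toBlocks₁₁, toBlocks₂₂, transpose_apply, of_apply] at e1
  refine ⟨m (.inl 0) (.inl 0), m (.inl 0) (.inl 1), m (.inl 1) (.inl 0), m (.inl 1) (.inl 1), m (.inl 0) (.inr 1),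
    m (.inr 0) (.inl 1), ?_⟩
  have k3 := fun i => eq_zero_of_neg (F := F) (e3 i i).symm
  have k4 := fun i => eq_zero_of_neg (F := F) (e4 i i).symm
  ext (i | i) (j | j) <;> fin_cases i <;> fin_cases j <;> simp [mk6, k3, k4, ← e1, e3, e4]

theorem V5.ex {m : M4 F} (h : V5 m) : ∃ a b c β γ, m = mk6 a b c (-a) β γ := by
  obtain ⟨a, b, c, d, β, γ, rfl⟩ := exists_mk6 h.1
  have := h.2
  rw [tr_mk6, mul_eq_zero, or_iff_right h2.1, add_eq_zero_iff_neg_eq] at this
  exact ⟨a, b, c, β, γ, this ▸ rfl⟩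

theorem bf_mk (a b c β γ a' b' c' β' γ' : F) : bf (mk6 a b c (-a) β γ) (mk6 a' b' c' (-a') β' γ') =
    2 * a * a' + b * c' + c * b' - β * γ' - γ * β' := by
  rw [bf, div_eq_iff h2.1]
  simp [mk6, trace, Fintype.sum_sum_type, fromBlocks_multiply]; ring

/-- the Clifford relation -/
theorem cliff {x y : M4 F} (hx : V5 x) (hy : V5 y) : x * y + y * x = bf x y • (1 : M4 F) := by
  obtain ⟨a, b, c, β, γ, rfl⟩ := hx.ex
  obtain ⟨a', b', c', β', γ', rfl⟩ := hy.ex
  rw [bf_mk]
  simp only [mk6, fromBlocks_multiply, fromBlocks_add, ← fromBlocks_one, fromBlocks_smul, fromBlocks_inj]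
  refine ⟨?_, ?_, ?_, ?_⟩ <;> ext i j <;> fin_cases i <;> fin_cases j <;> simp <;> ring

theorem V5.sq {x : M4 F} (hx : V5 x) : x * x = (bf x x / 2) • (1 : M4 F) := by
  have := congrArg ((2 : F)⁻¹ • ·) (cliff hx hx)
  simp only [← two_smul F, smul_smul, inv_mul_cancel₀ h2.1, one_smul] at this
  rw [this, div_eq_inv_mul]

theorem V5.bf_of_sq {x : M4 F} {c : F} (h : x * x = c • 1) : bf x x = 2 * c := by
  rw [bf, h, div_eq_iff h2.1]; simp; ring

theorem V5.anti {x y : M4 F} (hx : V5 x) (hy : V5 y) : x * y = -(y * x) ↔ bf x y = 0 := by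
  rw [← add_eq_zero_iff_eq_neg, cliff hx hy]
  exact ⟨smul_one_eq_zero, fun h => by rw [h, zero_smul]⟩

theorem V5.nondeg {x : M4 F} (hx : V5 x) (h : ∀ y, V5 y → bf x y = 0) : x = 0 := by
  obtain ⟨a, b, c, β, γ, rfl⟩ := hx.ex
  have h1 := h _ (v5_mk 1 0 0 0 0)
  have h3 := h _ (v5_mk 0 1 0 0 0)
  have h4 := h _ (v5_mk 0 0 1 0 0)
  have h5 := h _ (v5_mk 0 0 0 1 0)
  have h6 := h _ (v5_mk 0 0 0 0 1)
  simp only [bf_mk, mul_zero, mul_one, add_zero, sub_zero, zero_add, zero_sub, neg_eq_zero, mul_eq_zero, h2.1,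
    false_or] at h1 h3 h4 h5 h6
  subst h1 h3 h4 h5 h6
  ext (i | i) (j | j) <;> fin_cases i <;> fin_cases j <;> simp [mk6]

theorem V5.dual {x : M4 F} (hx : V5 x) (h : x ≠ 0) : ∃ w, V5 w ∧ x * w + w * x = 1 := by
  obtain ⟨y, hy, e⟩ : ∃ y, V5 y ∧ bf x y ≠ 0 := by
    by_contra k
    exact h (hx.nondeg fun y hy => by_contra fun e => k ⟨y, hy, e⟩)
  exact ⟨_, hy.smul (bf x y)⁻¹, by rw [cliff hx (hy.smul _), bf_smul_right, inv_mul_cancel₀ e, one_smul]⟩

/-- the traceless part -/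
def tl (m : M4 F) : M4 F := m - (m.trace / 4) • 1

theorem v5_tl {m : M4 F} (h : ad m = m) : V5 (tl m) :=
  ⟨by rw [tl, ad_sub, h, ad_smul, ad_one], by
    rw [tl, trace_sub, trace_smul, tr_one, smul_eq_mul, div_mul_cancel₀ _ four_ne, sub_self]⟩

theorem tl_cA (g : G4 F) (m : M4 F) : cA g (tl m) = tl (cA g m) := by simp [tl, trace_cA]

theorem V5.not_smul {m : M4 F} (h : V5 m) {c : F} (e : m = c • 1) : m = 0 := by
  have := h.2
  rw [e, trace_smul, tr_one, smul_eq_mul, mul_eq_zero, or_iff_left four_ne] at this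
  rw [e, this, zero_smul]

/-- a self-adjoint matrix is quadratic -/
theorem sa_quad {m : M4 F} (h : ad m = m) : ∃ s : F, m * m = (m.trace / 2) • m + s • 1 := by
  have := (v5_tl h).sq
  refine ⟨bf (tl m) (tl m) / 2 - (m.trace / 4) ^ 2, ?_⟩
  have e : m.trace / 2 = 2 * (m.trace / 4) := by have := four_ne (F := F); have := h2.1; field_simp; norm_num
  rw [sub_smul, ← this, e, tl]
  simp only [mul_sub, sub_mul, mul_smul_comm, smul_mul_assoc, mul_one, one_mul, smul_smul]
  module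

theorem sa_cases {m : M4 F} (h : ad m = m) {s t : F} (e : m * m = t • m + s • 1) :
    (∃ c : F, m = c • 1) ∨ m.trace = 2 * t := by
  obtain ⟨s', e'⟩ := sa_quad h
  by_cases k : m.trace / 2 - t = 0
  · exact .inr (by rw [sub_eq_zero, div_eq_iff h2.1] at k; rw [k, mul_comm])
  refine .inl ⟨(m.trace / 2 - t)⁻¹ * (s - s'), ?_⟩
  rw [mul_smul, eq_inv_smul_iff₀ k]
  linear_combination (norm := module) e - e'

theorem skew_cube {s : M4 F} (h : ad s = -s) (h3 : s * s * s = 0) : s * s = 0 := by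
  by_contra h0
  have a1 : ad (s * s) = s * s := by rw [ad_mul, h, neg_mul_neg]
  have a2 : s * s * (s * s) = 0 := by rw [← mul_assoc, h3, zero_mul]
  have a3 : V5 (s * s) := by
    refine ⟨a1, ?_⟩
    rcases sa_cases a1 (s := 0) (t := 0) (by simp [a2]) with ⟨c, e⟩ | e
    · rw [e, smul_mul_smul, one_mul] at a2
      rw [e, mul_self_eq_zero.1 (smul_one_eq_zero a2), zero_smul, trace_zero]
    · simpa using e
  obtain ⟨w, -, hw⟩ := a3.dual h0
  have e1 : s = s * w * (s * s) := by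
    have := congrArg (s * ·) hw
    simp only [mul_add, ← mul_assoc, h3, zero_mul, zero_add, mul_one] at this ⊢
    exact this.symm
  have e2 : s = s * s * (w * s) := by
    have := congrArg (· * s) hw
    simp only [add_mul, mul_assoc w, h3, mul_zero, add_zero, one_mul] at this
    rw [← mul_assoc]; exact this.symm
  apply h0
  nth_rw 1 [e1]; nth_rw 4 [e2]
  rw [mul_assoc (s * w), ← mul_assoc (s * s), a2, zero_mul, mul_zero]

theorem V5.dep {e x : M4 F} (he : V5 e) (hx : V5 x) (h0 : e ≠ 0) (h : x * e = 0) : ∃ c : F, x = c • e := by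
  obtain ⟨w, hw, k⟩ := he.dual h0
  refine ⟨bf x w, ?_⟩
  have := congrArg (x * ·) k
  simp only [mul_add, ← mul_assoc, h, zero_mul, zero_add, mul_one] at this
  rw [eq_sub_of_add_eq (cliff hx hw), sub_mul, mul_assoc, h, mul_zero, sub_zero, smul_mul_assoc, one_mul] at this
  exact this.symm

/-! ### roots -/

/-- equality up to sign -/
def pm {G : Type*} [Neg G] (x y : G) : Prop := x = y ∨ x = -y

section pm
variable {G : Type*} [Group G] [HasDistribNeg G] {x y z u v : G}
omit h2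
@[refl] theorem pm.refl (x : G) : pm x x := .inl rfl
theorem pm.symm (h : pm x y) : pm y x := h.imp Eq.symm fun e => by rw [e, neg_neg]
theorem pm.trans (h : pm x y) (h' : pm y z) : pm x z := by
  rcases h with rfl | rfl <;> rcases h' with rfl | rfl <;> simp [pm]
theorem pm.mul (h : pm x y) (h' : pm u v) : pm (x * u) (y * v) := by
  rcases h with rfl | rfl <;> rcases h' with rfl | rfl <;> simp [pm]
theorem pm.inv (h : pm x y) : pm x⁻¹ y⁻¹ := by rcases h with rfl | rfl <;> simp [pm]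
theorem pm.conj (h : pm x y) (g : G) : pm (g * x * g⁻¹) (g * y * g⁻¹) := ((pm.refl g).mul h).mul (.refl _)
theorem pm.neg_left (h : pm x y) : pm (-x) y := by rcases h with rfl | rfl <;> simp [pm]
theorem pm.neg_right (h : pm x y) : pm x (-y) := h.symm.neg_left.symm
theorem pm_neg (x : G) : pm (-x) x := .inr rfl
theorem pm.sq (h : pm x y) : x * x = y * y := by rcases h with rfl | rfl <;> simp
theorem pm.mem {H : Subgroup G} (h : pm x y) (h1 : -1 ∈ H) (hy : y ∈ H) : x ∈ H := by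
  rcases h with rfl | rfl
  · exact hy
  · simpa using mul_mem h1 hy
theorem pm.of_conj {g : G} (h : pm (g * x * g⁻¹) (g * y * g⁻¹)) : pm x y := by
  simpa [mul_assoc] using h.conj g⁻¹
theorem pm_conj_iff {g : G} : pm (g * x * g⁻¹) y ↔ pm (g * x) (y * g) :=
  ⟨fun h => by simpa using h.mul (.refl g), fun h => by simpa using h.mul (.refl g⁻¹)⟩

/-- the stabiliser of `±y` -/
def Np (y : G) : Subgroup G where
  carrier := {g | pm (g * y * g⁻¹) y}
  one_mem' := by simp [pm]
  mul_mem' {a b} ha hb := by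
    have := (pm.conj hb a).trans ha
    simpa [mul_assoc] using this
  inv_mem' {a} ha := by
    have := (pm.conj ha a⁻¹).symm
    simpa [mul_assoc] using this

theorem mem_Np {g : G} : g ∈ Np y ↔ pm (g * y) (y * g) := pm_conj_iff
theorem Np_comm (h : x ∈ Np y) : y ∈ Np x := mem_Np.2 (mem_Np.1 h).symm
theorem Np_of_comm (h : x * y = y * x) : x ∈ Np y := mem_Np.2 (.inl h)
theorem pm.Np (h : pm x y) : Np x = Np y := by
  ext g
  exact ⟨fun e => ((h.symm.conj g).trans e).trans h, fun e => ((h.conj g).trans e).trans h.symm⟩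
theorem conj_mem_Np {g : G} (h : x ∈ Np y) : g * x * g⁻¹ ∈ Np (g * y * g⁻¹) := by
  have := pm.conj h g
  change pm _ _
  simpa [mul_assoc] using this

/-- anticommuting elements -/
def Pp (x y : G) : Prop := x * y = -(y * x)

theorem Pp.symm (h : Pp x y) : Pp y x := by rw [Pp, h, neg_neg]
theorem Pp.np (h : Pp x y) : x ∈ Np y := mem_Np.2 (.inr h)
theorem Pp.conj (h : Pp x y) (g : G) : Pp (g * x * g⁻¹) (g * y * g⁻¹) := by
  have := congrArg (fun z => g * z * g⁻¹) h
  simpa [Pp, mul_assoc] using this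
theorem Pp.of_conj {g : G} (h : Pp (g * x * g⁻¹) (g * y * g⁻¹)) : Pp x y := by simpa [mul_assoc] using h.conj g⁻¹
theorem Pp.pm (h : Pp x y) (h1 : pm u x) (h3 : pm v y) : Pp u v := by
  rcases h1 with rfl | rfl <;> rcases h3 with rfl | rfl <;> simpa [Pp, neg_eq_iff_eq_neg] using h
theorem Pp.mul_mul (h : Pp x y) (h' : Pp x z) : x * (y * z) = y * z * x := by
  rw [← mul_assoc, h, neg_mul, mul_assoc, h', mul_neg, neg_neg, mul_assoc]
theorem Pp.mul_comm (h : Pp x y) (h' : x * z = z * x) : Pp x (y * z) := by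
  rw [Pp, ← mul_assoc, h, neg_mul, mul_assoc, h', mul_assoc]
theorem Pp.comm_mul (h : x * y = y * x) (h' : Pp x z) : Pp x (y * z) := by
  rw [Pp, ← mul_assoc, h, mul_assoc, h', mul_neg, mul_assoc]
theorem Pp.cj (h : Pp x y) : x * y * x⁻¹ = -y := by rw [h]; simp
theorem Np.cases (h : x ∈ Np y) : x * y = y * x ∨ Pp x y := mem_Np.1 h
end pm

theorem ne_neg (x : G4 F) : x ≠ -x := fun h => by
  have := congrArg (fun z : G4 F => (z * x⁻¹).val) h
  simp only [mul_inv_cancel, neg_mul, Units.val_neg, Units.val_one] at this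
  exact one_ne_zero (eq_zero_of_neg (F := F) this)

theorem Pp.not_comm {x y : G4 F} (h : Pp x y) : x * y ≠ y * x := fun e => ne_neg (y * x) (e.symm.trans h)

theorem Pp.not_pm {x y : G4 F} (h : Pp x y) : ¬ Sp.pm x y := fun e => (h.pm e.symm (.refl _)).not_comm rfl

/-- non-central involutions -/
structure Rt (a : G4 F) : Prop where
  sp : a ∈ S4 F
  sq : a * a = 1
  ne : ¬ pm a 1

theorem pm_of_smul {x y : G4 F} {c : F} (h : x.val = c • y.val) (e : x * x = y * y) : pm x y := by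
  have := congrArg (fun z : G4 F => (z * (y * y)⁻¹).val) e
  simp only [mul_inv_cancel] at this
  rw [Units.val_mul, Units.val_mul, h, smul_mul_smul, smul_mul_assoc, ← Units.val_mul, ← Units.val_mul,
    mul_inv_cancel] at this
  rcases mul_self_eq_one_iff.1 (smul_one_inj (this.trans (one_smul F 1).symm)) with rfl | rfl
  · exact .inl (Units.ext (by simpa using h))
  · exact .inr (Units.ext (by simpa using h))

theorem pm_one_of_scalar {g : G4 F} (h : g ∈ S4 F) {c : F} (e : g.val = c • 1) : pm g 1 := by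
  refine pm_of_smul (c := c) e ?_
  have := mem_S4.1 h
  rw [e, ad_smul, ad_one, ← e] at this
  rw [one_mul]
  nth_rw 2 [Units.ext this]
  simp

namespace Rt
variable {a b c d e g w : G4 F}
omit h2 in
theorem inv (h : Rt a) : a⁻¹ = a := inv_eq_of_mul_eq_one_right h.sq
omit h2 in
theorem sq' (h : Rt a) : a.val * a.val = 1 := by rw [← Units.val_mul, h.sq, Units.val_one]
omit h2 in
theorem mul_mul (h : Rt a) (x : G4 F) : a * (a * x) = x := by rw [← mul_assoc, h.sq, one_mul]
theorem v5 (h : Rt a) : V5 a.val := by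
  have k : ad a.val = a.val := by rw [mem_S4.1 h.sp, h.inv]
  refine ⟨k, ?_⟩
  rcases sa_cases k (s := 1) (t := 0) (by simp [h.sq']) with ⟨c, e⟩ | e
  · exact absurd (pm_one_of_scalar h.sp e) h.ne
  · simpa using e
theorem bf (h : Rt a) : bf a.val a.val = 2 := by rw [V5.bf_of_sq (c := 1) (by simp [h.sq']), mul_one]
omit h2 in
theorem conj (h : Rt a) (hg : g ∈ S4 F) : Rt (g * a * g⁻¹) :=
  ⟨mul_mem (mul_mem hg h.sp) (inv_mem hg), by simp [mul_assoc, h.mul_mul], fun e => h.ne (pm.of_conj (g := g)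
    (by simpa using e))⟩
omit h2 in
theorem pm (h : Rt a) (e : pm b a) : Rt b :=
  ⟨e.mem neg_one_mem_S4 h.sp, e.sq.trans h.sq, fun k => h.ne (e.symm.trans k)⟩
omit h2 in
theorem neg (h : Rt a) : Rt (-a) := h.pm (pm_neg a)
theorem perp_iff (h : Rt a) (h' : Rt b) : Pp a b ↔ Sp.bf a.val b.val = 0 := by
  rw [← h.v5.anti h'.v5, Pp, Units.ext_iff]; rfl
theorem of_v5 {m : M4 F} (h : V5 m) (e : m * m = 1) : ∃ a, Rt a ∧ a.val = m := by
  refine ⟨⟨m, m, e, e⟩, ⟨mem_S4.2 h.1, Units.ext e, fun k => ?_⟩, rfl⟩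
  have : m = 0 := by
    rcases k with k | k
    · exact h.not_smul (c := 1) (by simpa using congrArg Units.val k)
    · exact h.not_smul (c := -1) (by simpa using congrArg Units.val k)
  simp [this] at e

/-- commuting roots agree up to sign -/
theorem pm_of_comm (h : Rt a) (h' : Rt b) (e : a * b = b * a) : Sp.pm a b := by
  have k := congrArg (· * b.val) (cliff h.v5 h'.v5)
  simp only [← Units.val_mul, ← e, ← two_smul F, smul_mul_assoc, mul_assoc, h'.sq, mul_one, one_mul] at k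
  exact pm_of_smul (c := 2⁻¹ * Sp.bf a.val b.val) (by rw [mul_smul, ← k, inv_smul_smul₀ h2.1]) (h.sq.trans h'.sq.symm)

theorem cases (h : Rt a) (h' : Rt b) (e : a ∈ Np b) : Sp.pm a b ∨ Pp a b := (Np.cases e).imp_left (h.pm_of_comm h')

/-- a root commuting with a product of two roots is orthogonal to both -/
theorem perp_of_comm (h : Rt w) (hd : Rt d) (he : Rt e) (k : ¬ Sp.pm d e) (c : w * (d * e) = d * e * w) : Pp w d := by
  have e1 := eq_sub_of_add_eq (cliff h.v5 hd.v5)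
  have e2 := eq_sub_of_add_eq' (cliff h.v5 he.v5)
  have c' := congrArg Units.val c
  simp only [Units.val_mul] at c'
  rw [← mul_assoc, e1, mul_assoc d.val, e2] at c'
  simp only [sub_mul, mul_sub, smul_mul_assoc, mul_smul_comm, one_mul, mul_one, mul_assoc, sub_left_inj] at c'
  refine (h.perp_iff hd).2 (by_contra fun h0 => k (pm_of_smul (c := (Sp.bf w.val d.val)⁻¹ * Sp.bf w.val e.val)
    ?_ (he.sq.trans hd.sq.symm)).symm)
  rw [mul_smul, ← c', inv_smul_smul₀ h0]

theorem four (ha : Rt a) (hb : Rt b) (hc : Rt c) (hd : Rt d) (ab : Pp a b) (ac : Pp a c) (ad : Pp a d) (bc : Pp b c)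
    (bd : Pp b d) (cd : Pp c d) : Rt (a * b * (c * d)) ∧ Pp a (a * b * (c * d)) ∧ Pp b (a * b * (c * d)) ∧
      Pp c (a * b * (c * d)) ∧ Pp d (a * b * (c * d)) := by
  have k1 : Pp a (a * b * (c * d)) := (Pp.comm_mul rfl ab).mul_comm (ac.mul_mul ad)
  refine ⟨⟨mul_mem (mul_mem ha.sp hb.sp) (mul_mem hc.sp hd.sp), ?_, fun e => (k1.pm (.refl _) e.symm).not_comm
    (by simp)⟩, k1, (ab.symm.mul_comm rfl).mul_comm (bc.mul_mul bd),
    Pp.comm_mul (ac.symm.mul_mul bc.symm) (Pp.comm_mul rfl cd), Pp.comm_mul (ad.symm.mul_mul bd.symm) (cd.symm.mul_comm rfl)⟩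
  have s : ∀ {x y : G4 F}, Rt x → Rt y → Pp x y → x * y * (x * y) = -1 := fun {x y} hx hy h => by
    nth_rw 2 [h]; simp [mul_assoc, hx.mul_mul, hy.mul_mul, hx.sq]
  have : c * d * (a * b) = a * b * (c * d) := by
    rw [mul_assoc, ad.symm.mul_mul bd.symm, ← mul_assoc, ac.symm.mul_mul bc.symm, mul_assoc]
  rw [mul_assoc, ← mul_assoc (c * d), this, mul_assoc (a * b), s hc hd cd, ← mul_assoc, s ha hb ab]; simp

omit h2 in
theorem sq_mul (ha : Rt a) (hb : Rt b) (h : Pp a b) : a * b * (a * b) = -1 := by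
  nth_rw 2 [h]; simp [mul_assoc, ha.mul_mul, hb.mul_mul, ha.sq]

/-- the fifth root of a frame is unique up to sign -/
theorem fifth (ha : Rt a) (hb : Rt b) (hc : Rt c) (hd : Rt d) (ab : Pp a b) (ac : Pp a c) (ad : Pp a d) (bc : Pp b c)
    (bd : Pp b d) (cd : Pp c d) (he : Rt e) (ea : Pp e a) (eb : Pp e b) (ec : Pp e c) (ed : Pp e d) :
    Sp.pm e (a * b * (c * d)) :=
  he.pm_of_comm (four ha hb hc hd ab ac ad bc bd cd).1 (by
    rw [← mul_assoc, ea.mul_mul eb, mul_assoc, ec.mul_mul ed, mul_assoc (a * b)])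

end Rt

end H21.Sp
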