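/-
Finite checks in `A₅`, `A₆`, `A₇`, and an outer automorphism of `S₆`.
-/
import Mathlib

set_option autoImplicit false
set_option maxRecDepth 100000
set_option synthInstance.maxSize 2000
set_option synthInstance.maxHeartbeats 200000

namespace H21.Sp
open Equiv Equiv.Perm

theorem ct_cases {α : Type*} [Fintype α] [DecidableEq α] (hα : Fintype.card α ≤ 7) {g : Perm α} (he : sign g = 1) :
    g = 1 ∨ g.cycleType = {3} ∨ g.cycleType = {5} ∨ g.cycleType = {7} ∨ g.cycleType = {2, 2} ∨ g.cycleType = {3, 3} ∨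
      g.cycleType = {2, 4} ∨ g.cycleType = {2, 2, 3} := by
  have hs := (sum_cycleType_le g).trans hα
  have h2 := fun n => two_le_of_mem_cycleType (σ := g) (n := n)
  rw [sign_of_cycleType] at he
  have h3 := Multiset.card_nsmul_le_sum h2
  obtain h | h | h | h : g.cycleType.card = 0 ∨ g.cycleType.card = 1 ∨ g.cycleType.card = 2 ∨
      g.cycleType.card = 3 := by rw [smul_eq_mul] at h3; omega
  · exact .inl (by simpa using h)
  · obtain ⟨a, e⟩ := Multiset.card_eq_one.1 h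
    rw [e] at hs he h2 ⊢
    have := h2 a (by simp)
    simp only [Multiset.sum_singleton] at hs
    interval_cases a <;> first | exact absurd he (by decide) | exact .inr (by decide)
  · obtain ⟨a, b, e⟩ := Multiset.card_eq_two.1 h
    rw [e] at hs he h2 ⊢
    have := h2 a (by simp)
    have := h2 b (by simp)
    simp only [Multiset.insert_eq_cons, Multiset.sum_cons, Multiset.sum_singleton] at hs
    have : a ≤ 5 := by omega
    have : b ≤ 5 := by omega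
    interval_cases a <;> interval_cases b <;> first | omega | exact absurd he (by decide) | exact .inr (by decide)
  · obtain ⟨a, b, c, e⟩ := Multiset.card_eq_three.1 h
    rw [e] at hs he h2 ⊢
    have := h2 a (by simp)
    have := h2 b (by simp)
    have := h2 c (by simp)
    simp only [Multiset.insert_eq_cons, Multiset.sum_cons, Multiset.sum_singleton] at hs
    have : a ≤ 3 := by omega
    have : b ≤ 3 := by omega
    have : c ≤ 3 := by omega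
    interval_cases a <;> interval_cases b <;> interval_cases c <;>
      first | omega | exact absurd he (by decide) | exact .inr (by decide)

/-- three-cycles -/
def c3 {α : Type*} [DecidableEq α] (i j k : α) : Perm α := swap i j * swap j k

theorem c3_ct {α : Type*} [DecidableEq α] [Fintype α] {i j k : α} (h1 : i ≠ j) (h2 : i ≠ k) (h3 : j ≠ k) :
    (c3 i j k).cycleType = {3} := by
  rw [c3, swap_comm]; exact isThreeCycle_swap_mul_swap_same h1.symm h3 h2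

/-! ### `A₅` -/

def x5 : Perm (Fin 5) := c3 0 1 2 * c3 2 3 4
def y5 : Perm (Fin 5) := c3 2 3 4 * c3 0 1 2
def X5 : Fin 6 → Perm (Fin 5) := ![x5, y5, y5 * x5 * y5⁻¹, y5⁻¹ * x5 * y5, y5 * y5 * x5 * (y5 * y5)⁻¹,
  (y5 * y5)⁻¹ * x5 * (y5 * y5)]

theorem a5_gen : ∀ σ : Perm (Fin 5), sign σ = 1 → ∃ a b c d : Fin 5, σ = x5 ^ a.1 * y5 ^ b.1 * (x5 ^ c.1 * y5 ^ d.1) := by
  decide +kernel
theorem a5_X : ∀ i, X5 i ^ 5 = 1 ∧ sign (X5 i) = 1 := by decide +kernel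
theorem a5_act : ∀ g : Perm (Fin 5), sign g = 1 → ∀ i, ∃ j, g * X5 i * g⁻¹ = X5 j ∨ g * X5 i * g⁻¹ = (X5 j)⁻¹ := by
  decide +kernel
theorem a5_two : ∀ i j, i ≠ j → ∃ g : Perm (Fin 5), sign g = 1 ∧ (g * X5 0 * g⁻¹ = X5 i ∨ g * X5 0 * g⁻¹ = (X5 i)⁻¹) ∧
    (g * X5 1 * g⁻¹ = X5 j ∨ g * X5 1 * g⁻¹ = (X5 j)⁻¹) := by decide +kernel
theorem a5_five : ∀ g : Perm (Fin 5), g ^ 5 = 1 → g ≠ 1 →
    ∃ i, (g = X5 i ∨ g = (X5 i)⁻¹) ∨ g = X5 i * X5 i ∨ g = (X5 i * X5 i)⁻¹ := by decide +kernel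

/-! ### `A₆` -/

abbrev S6 := Perm (Fin 6)
def x6 : S6 := c3 0 1 2 * c3 2 3 4
def f6 : S6 := swap 0 1 * swap 1 2 * swap 2 3 * swap 4 5
def t6 : S6 := c3 0 1 2 * c3 3 4 5
def γ6 : Fin 6 → S6 := ![c3 5 0 1, c3 5 1 0, c3 5 2 0, c3 5 3 0, c3 5 4 0, 1]

theorem a6_ct : x6.cycleType = {5} ∧ f6.cycleType = {2, 4} ∧ t6.cycleType = {3, 3} ∧
    (c3 0 1 2 * (c3 3 4 5)⁻¹ : S6).cycleType = {3, 3} ∧ (f6 * c3 3 4 5).cycleType = {5} ∧
    (f6⁻¹ * c3 3 4 5).cycleType = {5} ∧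
    (x6 * (swap 1 2 * swap 4 5 * (x6 * x6) * (swap 1 2 * swap 4 5)⁻¹)).cycleType = {3, 3} := by decide +kernel
theorem a6_rel : x6 ^ 5 = 1 ∧ x6 ≠ 1 ∧ c3 0 1 2 * (c3 2 3 4)⁻¹ = c3 0 1 3 * (x6 * x6) * (c3 0 1 3)⁻¹ ∧
    x6⁻¹ * (swap 1 2 * swap 4 5 * (x6 * x6) * (swap 1 2 * swap 4 5)⁻¹) = swap 1 5 * swap 3 4 ∧
    (swap 1 5 * swap 3 4 * (swap 1 5 * swap 3 4) : S6) = 1 ∧ (swap 1 5 * swap 3 4 : S6) ≠ 1 ∧
    f6 * f6 * (f6 * f6) = 1 ∧ f6 * f6 ≠ 1 ∧ t6 ^ 3 = 1 ∧ (c3 0 1 2 * c3 3 4 5 : S6) = c3 3 4 5 * c3 0 1 2 ∧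
    (swap 0 1 * swap 2 3 * (swap 0 1 * swap 2 3) : S6) = 1 ∧ (swap 0 1 * swap 2 3 : S6) ≠ 1 ∧
    (swap 0 1 * swap 2 3 : S6).cycleType = {2, 2} := by decide +kernel
theorem a6_γ : ∀ i, γ6 i 5 = i ∧ sign (γ6 i) = 1 := by decide +kernel
theorem a6_st1 : ∀ i j k : Fin 6, i ≠ j → i ≠ k → j ≠ k → c3 i j k 5 = 5 → ∃ l m n : Fin 6, l ≠ m ∧ l ≠ n ∧ m ≠ n ∧
    ((c3 i j k * c3 l m n = x6 ∨ c3 i j k * c3 l m n = x6⁻¹) ∨ c3 i j k * c3 l m n = x6 * x6 ∨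
      c3 i j k * c3 l m n = (x6 * x6)⁻¹) := by decide +kernel
theorem a6_st2 : ∀ g : S6, g 5 = 5 → sign g = 1 → ∃ i j k : Fin 6, i ≠ j ∧ i ≠ k ∧ j ≠ k ∧ c3 i j k 5 = 5 ∧
    ∃ l m n : Fin 6, l ≠ m ∧ l ≠ n ∧ m ≠ n ∧ c3 l m n 5 = 5 ∧ g = c3 i j k * c3 l m n := by decide +kernel
theorem a6_two : ∀ i j, i ≠ j → ∃ g : S6, g 5 = i ∧ g 0 = j ∧ sign g = 1 := by decide +kernel
theorem a6_odd : swap 1 2 * swap 2 4 * swap 4 3 * x6 * (swap 1 2 * swap 2 4 * swap 4 3)⁻¹ = x6 * x6 ∧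
    sign (swap 1 2 * swap 2 4 * swap 4 3 : S6) = -1 ∧ swap 0 3 * swap 1 4 * swap 2 5 * t6 * (swap 0 3 * swap 1 4 * swap 2 5)⁻¹ = t6
    ∧ sign (swap 0 3 * swap 1 4 * swap 2 5 : S6) = -1 ∧
    swap 1 2 * swap 2 4 * swap 4 3 * (x6 * x6) * (swap 1 2 * swap 2 4 * swap 4 3)⁻¹ = x6⁻¹ := by decide +kernel

/-- a one-factorisation of the complete graph on six points -/
def tot (i j l : Fin 6) : Fin 6 :=
  ![![1, 0, 3, 2, 5, 4], ![2, 5, 0, 4, 3, 1], ![3, 4, 5, 0, 1, 2], ![4, 2, 1, 5, 0, 3], ![5, 3, 4, 1, 2, 0],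
    ![0, 1, 2, 3, 4, 5]] ((![![5, 0, 1, 2, 3, 4], ![0, 5, 3, 4, 2, 1], ![1, 3, 5, 0, 4, 2], ![2, 4, 0, 5, 1, 3],
    ![3, 2, 4, 1, 5, 0], ![4, 1, 2, 3, 0, 5]] : Fin 6 → Fin 6 → Fin 6) i j) l

/-- its stabiliser -/
def Lt : Subgroup S6 where
  carrier := {g | ∀ i j l, tot (g i) (g j) (g l) = g (tot i j l)}
  one_mem' _ _ _ := rfl
  mul_mem' {a b} ha hb i j l := by simp only [mul_apply, ha _ _ _, hb _ _ _]
  inv_mem' {a} ha i j l := a.injective (by rw [← ha]; simp)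

theorem card_Lt : (Finset.univ.filter fun g : S6 => ∀ i j l, tot (g i) (g j) (g l) = g (tot i j l)).card = 120 := by
  decide +kernel

theorem exists_out : ∃ θ : S6 ≃* S6, (∀ g, sign (θ g) = sign g) ∧ (θ t6).cycleType = {3} := by
  classical
  have hi : Lt.index = 6 := by
    have := Lt.index_mul_card
    rw [Nat.card_perm, Nat.card_fin, show Nat.card Lt = 120 from by
      rw [← card_Lt, ← Fintype.card_subtype, ← Nat.card_eq_fintype_card]; rfl] at this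
    norm_num [Nat.factorial] at this; omega
  let e : (S6 ⧸ Lt) ≃ Fin 6 := Finite.equivFinOfCardEq hi
  let φ : S6 →* S6 := e.permCongrHom.toMonoidHom.comp (MulAction.toPermHom S6 (S6 ⧸ Lt))
  have fx : ∀ g, φ g (e (1 : S6)) = e (1 : S6) ↔ g ∈ Lt := fun g => by
    simp only [φ, MulEquiv.toMonoidHom_eq_coe, MonoidHom.coe_comp, MonoidHom.coe_coe, Function.comp_apply,
      permCongrHom_coe, permCongr_apply, symm_apply_apply, MulAction.toPermHom_apply, MulAction.toPerm_apply,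
      EmbeddingLike.apply_eq_iff_eq, MulAction.Quotient.smul_mk, smul_eq_mul, mul_one, QuotientGroup.eq, inv_mem_iff]
  have inj : Function.Injective φ := by
    rw [← MonoidHom.ker_eq_bot_iff]
    by_contra k
    have := alternatingGroup_le_of_normal (α := Fin 6) (by simp) (N := φ.ker) ((Subgroup.nontrivial_iff_ne_bot _).2 k)
    have : φ (c3 0 1 2) = 1 := this (mem_alternatingGroup.2 (by decide))
    exact absurd ((fx (c3 0 1 2)).1 (by rw [this, one_apply]) 0 1 2) (by decide)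
  let θ := MulEquiv.ofBijective φ (Finite.injective_iff_bijective.1 inj)
  have hA : (alternatingGroup (Fin 6)).comap θ.toMonoidHom = alternatingGroup (Fin 6) :=
    eq_alternatingGroup_of_index_eq_two (by
      rw [Subgroup.index_comap_of_surjective _ θ.surjective, alternatingGroup.index_eq_two])
  have hs : ∀ g, sign (θ g) = sign g := fun g => by
    have : sign (θ g) = 1 ↔ sign g = 1 := SetLike.ext_iff.1 hA g
    rcases Int.units_eq_one_or (sign g) with h | h <;> rcases Int.units_eq_one_or (sign (θ g)) with h' | h' <;>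
      simp_all
  refine ⟨θ, hs, ?_⟩
  have h3 : orderOf (θ t6) = 3 := by
    rw [MulEquiv.orderOf_eq]; exact orderOf_eq_prime (by decide) (by decide)
  have hl := lcm_cycleType (θ t6)
  have hf : θ t6 (e (1 : S6)) = e (1 : S6) := (fx t6).2 (show ∀ i j l, _ by decide)
  have hc : (θ t6).cycleType.sum < 6 := by
    rw [sum_cycleType]
    exact (Finset.card_lt_univ_of_notMem (by simpa using hf)).trans_eq (by simp)
  rw [h3] at hl
  rcases ct_cases (g := θ t6) (by simp) ((hs _).trans (by decide)) with h | h | h | h | h | h | h | h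
  · simp [h] at h3
  all_goals first | exact h | (exfalso; rw [h] at hl hc; revert hl hc; decide)

/-! ### `A₇` -/

abbrev S7 := Perm (Fin 7)
def x7 : S7 := c3 0 1 2 * c3 2 3 4 * c3 4 5 6
def h7 : S7 := c3 1 2 4 * c3 3 6 5
def v7 : S7 := c3 0 1 2 * c3 2 3 4
def s7 : S7 := swap 1 2 * swap 2 4 * swap 4 3 * swap 5 6
def i7 : S7 := swap 3 4 * swap 5 6
def j7 : S7 := swap 3 5 * swap 4 6

theorem a7_rel : x7 ^ 7 = 1 ∧ x7 ≠ 1 ∧ h7 * x7 * h7⁻¹ = x7 ^ 2 ∧ sign x7 = 1 ∧ sign h7 = 1 ∧ v7 ^ 5 = 1 ∧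
    s7 * v7 * s7⁻¹ = v7 ^ 2 ∧ sign s7 = 1 ∧ v7.cycleType = {5} ∧ (c3 0 1 2 * i7).cycleType = {2, 2, 3} ∧
    i7 * i7 = 1 ∧ j7 * j7 = 1 ∧ i7 * j7 * (i7 * j7) = 1 ∧ i7 ≠ 1 ∧ j7 ≠ 1 ∧ i7 * j7 ≠ 1 ∧ sign i7 = 1 ∧ sign j7 = 1 ∧
    c3 0 1 2 * j7 = j7 * c3 0 1 2 ∧ (c3 0 1 2 : S7) ^ 3 = 1 ∧ sign (c3 0 1 2 : S7) = 1 := by decide +kernel

end H21.Sp
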