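/-
Four-dimensional symplectic groups, part 2: `SL₂` and the centraliser of a non-central involution.
-/
import Cfsg.Agent.H21.Sp1

set_option autoImplicit false
set_option linter.unusedSectionVars false

namespace H21.Sp
open Matrix Cfsg Cfsg.Geo H27.Asch
open scoped MatrixGroups

abbrev M2 (F : Type*) := Matrix (Fin 2) (Fin 2) F

variable {F : Type*} [Field F]

/-- the underlying matrix -/
def mv (x : SL(2, F)) : M2 F := x.1

@[simp] theorem mv_mul (x y : SL(2, F)) : mv (x * y) = mv x * mv y := rfl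
@[simp] theorem mv_one : mv (1 : SL(2, F)) = 1 := rfl
@[simp] theorem mv_neg (x : SL(2, F)) : mv (-x) = -mv x := rfl
@[simp] theorem mv_pow (x : SL(2, F)) (n : ℕ) : mv (x ^ n) = mv x ^ n := Matrix.SpecialLinearGroup.coe_pow x n
theorem mv_inv (x : SL(2, F)) : mv x⁻¹ = (mv x).adjugate := rfl
theorem mv_det (x : SL(2, F)) : (mv x).det = 1 := x.2
theorem mv_inj {x y : SL(2, F)} : x = y ↔ mv x = mv y := Subtype.ext_iff

/-- the trace on `SL₂` -/
def t2 (x : SL(2, F)) : F := (mv x).trace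

section SL2
variable {x y z i j : SL(2, F)}

theorem t2_eq (x : SL(2, F)) : t2 x = mv x 0 0 + mv x 1 1 := trace_fin_two _
theorem det2 (x : SL(2, F)) : mv x 0 0 * mv x 1 1 - mv x 0 1 * mv x 1 0 = 1 := by rw [← det_fin_two, mv_det]
theorem t2_comm (x y : SL(2, F)) : t2 (x * y) = t2 (y * x) := trace_mul_comm _ _
theorem t2_conj (x y : SL(2, F)) : t2 (x * y * x⁻¹) = t2 y := by rw [t2_comm, inv_mul_cancel_left]
theorem t2_neg (x : SL(2, F)) : t2 (-x) = -t2 x := by simp [t2]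
theorem t2_one : t2 (1 : SL(2, F)) = 2 := by simp [t2]

theorem add_inv (x : SL(2, F)) : mv x + mv x⁻¹ = t2 x • (1 : M2 F) := by
  rw [mv_inv, t2_eq, adjugate_fin_two]
  ext a b; fin_cases a <;> fin_cases b <;> simp [add_comm]

theorem t2_inv (x : SL(2, F)) : t2 x⁻¹ = t2 x := by
  rw [t2, mv_inv, t2_eq, adjugate_fin_two]; simp [add_comm]

theorem ch2 (x : SL(2, F)) : mv x * mv x = t2 x • mv x - 1 := by
  have := congrArg (mv x * ·) (add_inv x)
  simp only [mul_add, ← mv_mul, mul_inv_cancel, mv_one, mul_smul_comm, mul_one] at this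
  exact eq_sub_of_add_eq this

theorem t2_sq (x : SL(2, F)) : t2 (x * x) = t2 x ^ 2 - 2 := by
  rw [t2, mv_mul, ch2]; simp [t2, sq]

theorem anti2 {a b : M2 F} (ha : a.trace = 0) (hb : b.trace = 0) : a * b + b * a = (a * b).trace • (1 : M2 F) := by
  rw [trace_fin_two, add_eq_zero_iff_neg_eq] at ha hb
  ext k l; fin_cases k <;> fin_cases l <;> simp [mul_apply, trace_fin_two, ← ha, ← hb] <;> ring

theorem sq_neg_iff : x * x = -1 ↔ t2 x = 0 := by
  rw [mv_inj, mv_mul, ch2]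
  refine ⟨fun h => by_contra fun k => ?_, fun h => by simp [h]⟩
  have : mv x = 0 := (smul_eq_zero.1 (by simpa using h)).resolve_left k
  simpa [this] using mv_det x

theorem cube_of_t2 (h : t2 x = -1) : x ^ 3 = 1 := by
  rw [pow_three, mv_inj]
  simp only [mv_mul, ch2, h, mul_sub, mul_smul_comm]; simp

theorem inv_of_sq (h : x * x = -1) : x⁻¹ = -x := inv_eq_of_mul_eq_one_right (by simp [h])

theorem uni2 (p : ℕ) [hp : Fact p.Prime] [CharP F p] (h : x ^ p = 1) : t2 x = 2 := by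
  have e : (mv x - 1) ^ p = 0 := by
    rw [sub_pow_char_of_commute _ (Commute.one_right _), one_pow, ← mv_pow, h]; simp
  have := (Matrix.isNilpotent_trace_of_isNilpotent ⟨p, e⟩).eq_zero
  simpa [t2, sub_eq_zero] using this

theorem pow_of_t2 (p : ℕ) [hp : Fact p.Prime] [CharP F p] (h : t2 x = 2) : x ^ p = 1 := by
  have e : (mv x - 1) ^ 2 = 0 := by
    rw [sq, mul_sub, sub_mul, ch2, h, two_smul]; noncomm_ring
  have := pow_eq_zero_of_le hp.1.two_le e
  rw [sub_pow_char_of_commute _ (Commute.one_right _), one_pow, ← mv_pow, sub_eq_zero] at this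
  exact mv_inj.2 this

variable [h2 : NeZero (2 : F)]

theorem ne_neg2 (x : SL(2, F)) : x ≠ -x := fun h => by
  have := congrArg (fun z => t2 (z * x⁻¹)) h
  simp only [mul_inv_cancel, neg_mul, t2_neg, t2_one] at this
  exact h2.1 (eq_zero_of_neg (F := F) this)

theorem Pp.not_comm2 (h : Pp x y) : x * y ≠ y * x := fun e => ne_neg2 (y * x) (e.symm.trans h)
theorem Pp.not_pm2 (h : Pp x y) : ¬ Sp.pm x y := fun e => (h.pm e.symm (.refl _)).not_comm2 rfl

theorem Pp.sq2 (h : Pp x y) : x * x = -1 :=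
  sq_neg_iff.2 (eq_zero_of_neg (F := F) (by rw [← t2_neg, ← h.symm.cj, t2_conj]))

theorem pm_one_of_sq (h : x * x = 1) : pm x 1 := by
  have e := ch2 x
  rw [← mv_mul, h, eq_sub_iff_add_eq, mv_one, ← two_smul F] at e
  have k := t2_sq x
  rw [h, t2_one] at k
  have : (t2 x - 2) * (t2 x + 2) = 0 := by linear_combination -k
  rcases mul_eq_zero.1 this with k | k
  · rw [sub_eq_zero.1 k] at e
    exact .inl (mv_inj.2 (smul_right_injective _ h2.1 e).symm)
  · rw [eq_neg_of_add_eq_zero_left k, neg_smul, ← smul_neg] at e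
    exact .inr (mv_inj.2 (neg_eq_iff_eq_neg.1 (smul_right_injective _ h2.1 e).symm))

theorem not_pm_one (h : x * x = -1) : ¬ pm x 1 := fun e => ne_neg2 (1 : SL(2, F)) (by rw [← h, e.sq, mul_one])

theorem lin_of_comm (hi : i * i = -1) (h : x * i = i * x) : ∃ α β : F, mv x = α • (1 : M2 F) + β • mv i := by
  have t0 : (mv x - (t2 x / 2) • (1 : M2 F)).trace = 0 := by simp [t2, h2.1]
  have e := congrArg (· * mv i) (anti2 t0 (sq_neg_iff.1 hi))
  have h' : mv i * mv x = mv x * mv i := mv_inj.1 h.symm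
  have hi' : mv i * mv i = -1 := mv_inj.1 hi
  generalize ((mv x - (t2 x / 2) • (1 : M2 F)) * mv i).trace = τ at e
  simp only [mul_sub, sub_mul, add_mul, h', mul_assoc, hi', smul_mul_assoc, mul_smul_comm, one_mul, mul_one,
    mul_neg] at e
  refine ⟨t2 x / 2, -τ / 2, smul_right_injective _ h2.1 ?_⟩
  simp only [smul_add]
  rw [smul_smul _ (-τ / 2), mul_div_cancel₀ _ h2.1]
  linear_combination (norm := module) -e

theorem comm_comm (hi : i * i = -1) (hx : x * i = i * x) (hy : y * i = i * y) : x * y = y * x := by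
  obtain ⟨α, β, e⟩ := lin_of_comm hi hx
  have h' : mv i * mv y = mv y * mv i := mv_inj.1 hy.symm
  exact mv_inj.2 (by simp [e, mul_add, add_mul, h'])

theorem Pp.inverts (h : Pp j i) (hx : x * i = i * x) : j * x = x⁻¹ * j := by
  obtain ⟨α, β, e⟩ := lin_of_comm h.symm.sq2 hx
  have h' : mv j * mv i = -(mv i * mv j) := mv_inj.1 h
  have k : t2 x = α * 2 := by simp [t2, e, show (mv i).trace = 0 from sq_neg_iff.1 h.symm.sq2]
  rw [mv_inj, mv_mul, mv_mul, eq_sub_of_add_eq' (add_inv x), k, e]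
  simp only [mul_add, sub_mul, add_mul, mul_smul_comm, smul_mul_assoc, h', mul_one, one_mul]
  module

theorem Pp.inverts' (h : Pp j i) (hx : x * i = i * x) : x * j = j * x⁻¹ := by
  rw [h.inverts (x := x⁻¹) (Commute.inv_left hx), inv_inv]

theorem pm_of_comm2 (hi : i * i = -1) (hj : j * j = -1) (h : j * i = i * j) : pm j i := by
  have := (pm_one_of_sq (x := j * i) (by
    rw [mul_assoc, ← mul_assoc i, ← h, mul_assoc, hi, mul_neg, mul_one, mul_neg, hj, neg_neg])).mul (.refl i)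
  rw [mul_assoc, hi, one_mul, mul_neg, mul_one] at this
  simpa using this.neg_left

theorem q8_of_np (h : Pp i j) (hi : x ∈ Np i) (hj : x ∈ Np j) : pm x 1 ∨ pm x i ∨ pm x j ∨ pm x (i * j) := by
  have k : ∀ y : SL(2, F), y * i = i * y → y * j = j * y → pm y 1 := fun y a b => pm_one_of_sq (by
    have := h.symm.inverts a
    rw [← b, mul_left_inj] at this
    nth_rw 2 [this]; simp)
  have s := h.sq2
  have s' := h.symm.sq2
  rcases Np.cases hi with a | a <;> rcases Np.cases hj with b | b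
  · exact .inl (k x a b)
  · exact .inr (.inl (pm_of_comm2 s b.sq2 a))
  · exact .inr (.inr (.inl (pm_of_comm2 s' a.sq2 b)))
  · exact .inr (.inr (.inr (pm_of_comm2 (Pp.comm_mul rfl h).symm.sq2 a.sq2 (a.mul_mul b))))

theorem ex_four {n : ℕ} (h : x ^ 2 ^ n = 1) (h1 : ¬ pm x 1) : ∃ k : ℕ, x ^ k * x ^ k = -1 := by
  induction n generalizing x with
  | zero => exact absurd (.inl (by simpa using h)) h1
  | succ n ih =>
    by_cases e : pm (x ^ 2) 1
    · rcases e with e | e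
      · exact absurd (pm_one_of_sq (sq x ▸ e)) h1
      · exact ⟨1, by simpa [sq] using e⟩
    · obtain ⟨k, hk⟩ := ih (by rw [← pow_mul, ← pow_succ', h]) e
      exact ⟨2 * k, by rwa [pow_mul]⟩

theorem ex_eight {n : ℕ} (hi : i * i = -1) (c : x * i = i * x) (h : x ^ 2 ^ n = 1) (h1 : ¬ pm x 1) (h3 : ¬ pm x i) :
    ∃ k : ℕ, pm (x ^ k * x ^ k) i := by
  have e : ¬ pm (x ^ 2) 1 := by
    rintro (e | e)
    · exact h1 (pm_one_of_sq (sq x ▸ e))
    · exact h3 (pm_of_comm2 hi (sq x ▸ e) c)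
  obtain ⟨k, hk⟩ := ex_four (n := n) (x := x ^ 2) (by rw [← pow_mul, mul_comm, pow_mul, h, one_pow]) e
  refine ⟨k, pm_of_comm2 hi (by rwa [← pow_two (x ^ k), ← pow_mul, mul_comm, pow_mul]) ?_⟩
  exact ((Commute.pow_left c k).mul_left (Commute.pow_left c k))

/-- a commutative subgroup has at most two square classes -/
theorem sqr [Finite F] {D : Subgroup SL(2, F)} (hc : ∀ x ∈ D, ∀ y ∈ D, x * y = y * x) (hx : x ∈ D) (hy : y ∈ D) :
    (∃ d ∈ D, x = d * d) ∨ (∃ d ∈ D, y = d * d) ∨ ∃ d ∈ D, x * y = d * d := by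
  classical
  letI : CommGroup D := { (inferInstance : Group D) with mul_comm := fun a b => Subtype.ext (hc _ a.2 _ b.2) }
  let f := powMonoidHom (α := D) 2
  have k1 : f.range.index = Nat.card f.ker := by
    have := f.range.index_mul_card
    rw [← f.ker.card_mul_index, Subgroup.index_ker] at this
    exact Nat.eq_of_mul_eq_mul_right Nat.card_pos this
  have k2 : Nat.card f.ker ≤ 2 := by
    have := Nat.card_le_card_of_injective (fun a : f.ker => decide (a.1.1 = 1)) (fun a b e => by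
      have ha := pm_one_of_sq (x := a.1.1) (by rw [← sq]; exact congrArg Subtype.val a.2)
      have hb := pm_one_of_sq (x := b.1.1) (by rw [← sq]; exact congrArg Subtype.val b.2)
      refine Subtype.ext (Subtype.ext ?_)
      simp only [decide_eq_decide] at e
      rcases ha with ha | ha <;> rcases hb with hb | hb <;> simp_all)
    simpa using this
  have m : ∀ a : D, a ∈ f.range → ∃ d ∈ D, a.1 = d * d := by
    rintro _ ⟨d, rfl⟩; exact ⟨d, d.2, by simp [f, sq]⟩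
  have k0 : f.range.index ≠ 0 := Subgroup.index_ne_zero_of_finite
  by_cases k3 : f.range.index = 1
  · exact .inl (m ⟨x, hx⟩ (Subgroup.index_eq_one.1 k3 ▸ trivial))
  by_cases a : (⟨x, hx⟩ : D) ∈ f.range
  · exact .inl (m _ a)
  by_cases b : (⟨y, hy⟩ : D) ∈ f.range
  · exact .inr (.inl (m _ b))
  exact .inr (.inr (m (⟨x, hx⟩ * ⟨y, hy⟩) ((Subgroup.mul_mem_iff_of_index_two (by omega)).2 (iff_of_false a b))))

end SL2

/-! ### transvections -/

/-- symplectic transvections -/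
def tv (u : I4 → F) (c : F) : G4 F := (spΦ 2 F).tv (spΦ_alt u) c

theorem tv_mv (u : I4 → F) (c : F) (x : I4 → F) : (tv u c).val *ᵥ x = x + (c * fm x u) • u := Frm.tv_mulVec ..
theorem tv_mem (u : I4 → F) (c : F) : tv u c ∈ S4 F := sp_tv u c

theorem gl_ext {g h : G4 F} (e : ∀ x, g.val *ᵥ x = h.val *ᵥ x) : g = h := Units.ext (ext_mulVec e)

theorem tv_conj {g : G4 F} (hg : g ∈ S4 F) (u : I4 → F) (c : F) : g * tv u c * g⁻¹ = tv (g.val *ᵥ u) c :=
  gl_ext fun x => by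
    rw [Units.val_mul, Units.val_mul, ← mulVec_mulVec, ← mulVec_mulVec, tv_mv, tv_mv, mulVec_add, mulVec_smul,
      mulVec_inv_mulVec, ← fm_iso hg, mulVec_inv_mulVec]

/-- no transvections -/
def NT (P : Subgroup (G4 F)) : Prop := ∀ u c, tv u c ∈ P → tv u c = 1

/-! ### the model `SL₂ ≀ 2` -/

/-- block diagonal embedding -/
def dl (x y : M2 F) : M4 F :=
  fromBlocks !![x 0 0, 0; 0, y 0 0] !![x 0 1, 0; 0, y 0 1] !![x 1 0, 0; 0, y 1 0] !![x 1 1, 0; 0, y 1 1]

theorem dl_mul (x y x' y' : M2 F) : dl x y * dl x' y' = dl (x * x') (y * y') := by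
  simp [dl, fromBlocks_multiply, mul_apply]

theorem dl_one : dl (1 : M2 F) 1 = 1 := by
  rw [← fromBlocks_one]; simp [dl, ← one_fin_two]; ext i j; fin_cases i <;> fin_cases j <;> rfl

theorem dl_add (x y x' y' : M2 F) : dl x y + dl x' y' = dl (x + x') (y + y') := by simp [dl, fromBlocks_add]

theorem dl_smul (c : F) (x y : M2 F) : c • dl x y = dl (c • x) (c • y) := by simp [dl, fromBlocks_smul]

theorem dl_inj {x y x' y' : M2 F} (h : dl x y = dl x' y') : x = x' ∧ y = y' := by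
  have e := fun i j => congrFun (congrFun h i) j
  constructor <;> ext i j <;> fin_cases i <;> fin_cases j
  exacts [e (.inl 0) (.inl 0), e (.inl 0) (.inr 0), e (.inr 0) (.inl 0), e (.inr 0) (.inr 0),
    e (.inl 1) (.inl 1), e (.inl 1) (.inr 1), e (.inr 1) (.inl 1), e (.inr 1) (.inr 1)]

theorem dl_tr (x y : M2 F) : (dl x y).trace = x.trace + y.trace := by
  simp [dl, trace, Fintype.sum_sum_type]; ring

theorem ad_dl (x y : M2 F) : ad (dl x y) = dl x.adjugate y.adjugate := by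
  rw [dl, ad_blocks]
  ext (i | i) (j | j) <;> fin_cases i <;> fin_cases j <;> simp [dl, adjugate_fin_two]

/-- the standard embedding of `SL₂ × SL₂` -/
def d0 (x y : SL(2, F)) : G4 F :=
  ⟨dl (mv x) (mv y), dl (mv x⁻¹) (mv y⁻¹), by simp only [dl_mul, ← mv_mul]; simp [dl_one],
    by simp only [dl_mul, ← mv_mul]; simp [dl_one]⟩

/-- the standard swap -/
def b0 : G4 F := ⟨fromBlocks !![0, 1; 1, 0] 0 0 !![0, 1; 1, 0], fromBlocks !![0, 1; 1, 0] 0 0 !![0, 1; 1, 0],
  by simp [fromBlocks_multiply, ← one_fin_two], by simp [fromBlocks_multiply, ← one_fin_two]⟩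

/-- coordinates adapted to two orthogonal roots -/
structure PM (a b : G4 F) where
  /-- change of basis -/
  B : G4 F
  hB : B ∈ S4 F
  ha : a = B * d0 (-1) 1 * B⁻¹
  hb : b = B * b0 * B⁻¹

theorem exists_gl {m : M4 F} (h : ∀ u v, fm (m *ᵥ u) (m *ᵥ v) = fm u v) : ∃ g ∈ S4 F, g.val = m := by
  have : ad m * m = 1 := ext_mulVec fun v => (spΦ 2 F).ext_right fun u => by
    rw [one_mulVec, ← mulVec_mulVec]; exact (fm_ad ..).symm.trans (h u v)
  exact ⟨⟨m, ad m, mul_eq_one_comm.1 this, this⟩, mem_S4.2 rfl, rfl⟩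

/-- the matrix with given columns -/
def cols (u v w z : I4 → F) : M4 F := of fun i j => Sum.elim ![u, v] ![w, z] j i

theorem cols_mv (u v w z x : I4 → F) :
    cols u v w z *ᵥ x = x (.inl 0) • u + x (.inl 1) • v + x (.inr 0) • w + x (.inr 1) • z := by
  ext i; simp [cols, mulVec, dotProduct, Fintype.sum_sum_type]; ring

theorem exists_basis {u v w z : I4 → F} (h1 : fm w u = 1) (h3 : fm z v = 1) (h4 : fm u v = 0) (h5 : fm u z = 0)
    (h6 : fm w v = 0) (h7 : fm w z = 0) : ∃ g ∈ S4 F, g.val = cols u v w z :=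
  exists_gl fun x y => by
    simp only [cols_mv, fm_add_left, fm_add_right, fm_smul_left, fm_smul_right, fm_self, fm_swap v u, fm_swap u w,
      fm_swap v z, fm_swap z u, fm_swap v w, fm_swap z w, h1, h3, h4, h5, h6, h7, fm_eq x y]
    ring

variable [h2 : NeZero (2 : F)] {a b g r : G4 F}

theorem exists_PM (ha : Rt a) (hb : Rt b) (h : Pp a b) : Nonempty (PM a b) := by
  have aa : ∀ v, a.val *ᵥ (a.val *ᵥ v) = v := fun v => by rw [mulVec_mulVec, ha.sq', one_mulVec]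
  have bb : ∀ v, b.val *ᵥ (b.val *ᵥ v) = v := fun v => by rw [mulVec_mulVec, hb.sq', one_mulVec]
  obtain ⟨v, hv⟩ : ∃ v, v - a.val *ᵥ v ≠ 0 := by
    by_contra! k
    exact ha.ne (.inl (gl_ext fun x => by rw [← sub_eq_zero.1 (k x), Units.val_one, one_mulVec]))
  obtain ⟨y, hy⟩ : ∃ y, fm y (v - a.val *ᵥ v) ≠ 0 := by_contra fun k => hv (fm_nondeg (by simpa using k))
  have n : ∀ v, a.val *ᵥ (v - a.val *ᵥ v) = -(v - a.val *ᵥ v) := fun v => by rw [mulVec_sub, aa, neg_sub]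
  generalize hu : v - a.val *ᵥ v = u at hv hy
  have hu1 : a.val *ᵥ u = -u := hu ▸ n v
  obtain ⟨w, hw1, hw⟩ : ∃ w, a.val *ᵥ w = -w ∧ fm w u = 1 := by
    refine ⟨(2 * fm y u)⁻¹ • (y - a.val *ᵥ y), by rw [mulVec_smul, n, smul_neg], ?_⟩
    rw [fm_smul_left, fm_sub_left, fm_ad, ha.v5.1, hu1, fm_neg_right, sub_neg_eq_add, ← two_mul,
      inv_mul_cancel₀ (mul_ne_zero h2.1 hy)]
  have ab : ∀ x, a.val *ᵥ x = -x → a.val *ᵥ (b.val *ᵥ x) = b.val *ᵥ x := fun x hx => by
    rw [mulVec_mulVec, ← Units.val_mul, h, Units.val_neg, neg_mulVec, Units.val_mul, ← mulVec_mulVec, hx,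
      mulVec_neg, neg_neg]
  have o : ∀ x z, a.val *ᵥ x = -x → a.val *ᵥ z = -z → fm x (b.val *ᵥ z) = 0 := fun x z hx hz =>
    eq_zero_of_neg (F := F) (by rw [← fm_neg_left, ← hx, ← fm_iso ha.sp, ab z hz])
  obtain ⟨B, hB, e⟩ := exists_basis hw (by rw [fm_iso hb.sp, hw]) (o u u hu1 hu1) (o u w hu1 hw1) (o w u hw1 hu1)
    (o w w hw1 hw1)
  refine ⟨⟨B, hB, eq_mul_inv_of_mul_eq (gl_ext fun x => ?_), eq_mul_inv_of_mul_eq (gl_ext fun x => ?_)⟩⟩ <;>
    simp only [Units.val_mul, ← mulVec_mulVec, e, cols_mv, mulVec_add, mulVec_smul, hu1, hw1, ab, bb]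
  · simp [d0, dl, fromBlocks_mulVec, mulVec, dotProduct]
  · simp [b0, fromBlocks_mulVec, mulVec, dotProduct]; abel

namespace PM
variable (π : PM a b) {x y x' y' m : SL(2, F)}
omit h2

/-- the embedding of `SL₂ × SL₂` -/
def d (x y : SL(2, F)) : G4 F := π.B * d0 x y * π.B⁻¹

theorem d_val (x y : SL(2, F)) : (π.d x y).val = cA π.B (dl (mv x) (mv y)) := rfl
theorem d_mul (x y x' y' : SL(2, F)) : π.d x y * π.d x' y' = π.d (x * x') (y * y') :=
  Units.ext (by simp only [Units.val_mul, d_val, ← map_mul, dl_mul]; rfl)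
theorem d_one : π.d 1 1 = 1 := Units.ext (by simp [d_val, dl_one])
theorem d_inv (x y : SL(2, F)) : (π.d x y)⁻¹ = π.d x⁻¹ y⁻¹ :=
  inv_eq_of_mul_eq_one_right (by simp [d_mul, d_one])
theorem d_pow (x y : SL(2, F)) (n : ℕ) : π.d x y ^ n = π.d (x ^ n) (y ^ n) := by
  induction n with
  | zero => simp [d_one]
  | succ n ih => simp [pow_succ, ih, d_mul]
theorem d_inj : π.d x y = π.d x' y' ↔ x = x' ∧ y = y' := by
  refine ⟨fun h => ?_, fun h => by rw [h.1, h.2]⟩
  have := dl_inj ((cA π.B).injective (congrArg Units.val h))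
  exact ⟨mv_inj.2 this.1, mv_inj.2 this.2⟩
theorem d_neg (x y : SL(2, F)) : π.d (-x) (-y) = -π.d x y :=
  Units.ext (by simp only [d_val, Units.val_neg, ← map_neg, mv_neg, ← neg_one_smul F (mv x),
    ← neg_one_smul F (mv y), ← dl_smul]; simp)
theorem d_neg_one : π.d (-1) (-1) = -1 := by rw [d_neg, d_one]
theorem d_eq_neg : π.d x y = -π.d x' y' ↔ x = -x' ∧ y = -y' := by rw [← d_neg, d_inj]
theorem d_pm : pm (π.d x y) (π.d x' y') ↔ (x = x' ∧ y = y') ∨ (x = -x' ∧ y = -y') := by rw [pm, d_inj, d_eq_neg]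
theorem d_a : π.d (-1) 1 = a := π.ha.symm
theorem a_mul (x y : SL(2, F)) : a * π.d x y = π.d (-x) y := by nth_rw 1 [← π.d_a]; simp [d_mul]
theorem mul_a (x y : SL(2, F)) : π.d x y * a = π.d (-x) y := by nth_rw 2 [← π.d_a]; simp [d_mul]
theorem b_mul (x y : SL(2, F)) : b * π.d x y = π.d y x * b := by
  have : b0 * d0 x y = d0 y x * b0 := Units.ext (by simp [b0, d0, dl, fromBlocks_multiply])
  simp only [d, π.hb, mul_assoc, inv_mul_cancel_left]
  rw [← mul_assoc b0, this, mul_assoc]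
theorem d_sp (x y : SL(2, F)) : π.d x y ∈ S4 F :=
  mul_mem (mul_mem π.hB (mem_S4.2 (ad_dl ..))) (inv_mem π.hB)
theorem d_tr (x y : SL(2, F)) : (π.d x y).val.trace = t2 x + t2 y := by rw [d_val, trace_cA, dl_tr]; rfl
include π in
theorem bb : b * b = 1 := by
  have : (b0 : G4 F) * b0 = 1 := Units.ext b0.val_inv
  simp only [π.hb, mul_assoc, inv_mul_cancel_left]
  rw [← mul_assoc b0, this, one_mul, mul_inv_cancel]
include π in
theorem b_inv : b⁻¹ = b := inv_eq_of_mul_eq_one_right π.bb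
include π in
theorem b_sp : b ∈ S4 F := by
  rw [π.hb]
  refine mul_mem (mul_mem π.hB (mem_S4.2 ?_)) (inv_mem π.hB)
  change ad (fromBlocks _ _ _ _) = fromBlocks _ _ _ _
  rw [ad_blocks]; congr 1 <;> ext i j <;> fin_cases i <;> fin_cases j <;> simp
theorem b_conj (x y : SL(2, F)) : b * π.d x y * b⁻¹ = π.d y x := by rw [b_mul, mul_inv_cancel_right]

theorem d_tv (h : t2 x = 2) : ∃ u c, π.d x 1 = tv u c := by
  suffices ∃ u c, d0 x 1 = tv u c by
    obtain ⟨u, c, e⟩ := this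
    exact ⟨_, c, by rw [d, e, tv_conj π.hB]⟩
  have e := det2 x
  rw [t2_eq] at h
  obtain ⟨u, v, c, h1, h3, h4⟩ : ∃ u v c : F, mv x 0 1 = c * u * u ∧ mv x 0 0 = 1 - c * u * v ∧ mv x 1 0 = -c * v * v := by
    by_cases k : mv x 0 1 = 0
    · refine ⟨0, 1, -mv x 1 0, by simp [k], ?_, by simp⟩
      have : (mv x 0 0 - 1) ^ 2 = 0 := by rw [k] at e; linear_combination -e + mv x 0 0 * h
      simpa [sub_eq_zero] using this
    · refine ⟨mv x 0 1, 1 - mv x 0 0, (mv x 0 1)⁻¹, by field_simp, by field_simp; ring, ?_⟩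
      field_simp; linear_combination -e + mv x 0 0 * h
  have h5 : mv x 1 1 = 1 + c * u * v := by linear_combination h - h3
  refine ⟨Sum.elim ![u, 0] ![v, 0], c, gl_ext fun z => ?_⟩
  rw [tv_mv, fm_eq]
  ext (i | i) <;> fin_cases i <;> simp [d0, dl, fromBlocks_mulVec, mulVec, dotProduct, h1, h3, h4, h5] <;> ring

theorem d_pol (h : mv x * mv x + mv x + 1 = 0) :
    (2 : F) • ((π.d x 1).val * (π.d x 1).val + (π.d x 1).val + 1) = (3 : F) • (a.val + 1) := by
  rw [show a.val = (π.d (-1) 1).val by rw [d_a], ← map_one (cA π.B), ← dl_one]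
  simp only [d_val, ← map_mul, ← map_add, ← map_smul, dl_mul, dl_add, dl_smul, h]
  congr 2
  · simp
  · simp only [mv_one, mul_one]; module

/-- the roots orthogonal to `a` -/
def rb (x : SL(2, F)) : G4 F := π.d x x⁻¹ * b

theorem rb_one : π.rb 1 = b := by simp [rb, d_one]
theorem rb_neg (x : SL(2, F)) : π.rb (-x) = -π.rb x := by simp [rb, d_neg]
theorem rb_inj : π.rb x = π.rb y ↔ x = y := by simp [rb, d_inj]
theorem rb_pm : pm (π.rb x) (π.rb y) ↔ pm x y := by rw [pm, pm, ← rb_neg, rb_inj, rb_inj]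
theorem rb_mul (x y : SL(2, F)) : π.rb x * π.rb y = π.d (x * y⁻¹) (x⁻¹ * y) := by
  rw [rb, rb, mul_assoc, ← mul_assoc b, b_mul, mul_assoc, π.bb, mul_one, d_mul]
theorem d_rb (x y m : SL(2, F)) : π.d x y * π.rb m * (π.d x y)⁻¹ = π.rb (x * m * y⁻¹) := by
  simp only [rb, d_inv, mul_assoc, b_mul]
  simp [← mul_assoc, d_mul]
theorem rb_d (m x y : SL(2, F)) : π.rb m * π.d x y * (π.rb m)⁻¹ = π.d (m * y * m⁻¹) (m⁻¹ * x * m) := by
  simp only [rb, _root_.mul_inv_rev, d_inv, π.b_inv, mul_assoc, inv_inv]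
  rw [← mul_assoc b, b_mul, mul_assoc, ← mul_assoc b, π.bb, one_mul, d_mul, d_mul]
theorem rb_sq (x : SL(2, F)) : π.rb x * π.rb x = 1 := by simp [rb_mul, d_one]
theorem rb_inv (x : SL(2, F)) : (π.rb x)⁻¹ = π.rb x := inv_eq_of_mul_eq_one_right (π.rb_sq x)
theorem rb_rb (x y : SL(2, F)) : π.rb x * π.rb y * (π.rb x)⁻¹ = π.rb (x * y⁻¹ * x) := by
  rw [rb_inv, rb_mul, rb, ← mul_assoc, d_mul]; simp [rb, mul_assoc]
theorem a_rb (x : SL(2, F)) : Pp a (π.rb x) := by
  have : b * a = π.d 1 (-1) * b := by rw [← b_mul, d_a]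
  rw [Pp, rb, ← mul_assoc, a_mul, mul_assoc, this, ← mul_assoc, d_mul, ← neg_mul, ← d_neg]; simp

include h2
theorem rt_rb (x : SL(2, F)) : Rt (π.rb x) :=
  ⟨mul_mem (π.d_sp _ _) π.b_sp, π.rb_sq x, fun e => ((π.a_rb x).pm (.refl _) e.symm).not_comm (by simp)⟩
include π in
theorem rt_b : Rt b := π.rb_one ▸ π.rt_rb 1
include π in
theorem pp : Pp a b := π.rb_one ▸ π.a_rb 1
include π in
theorem rt_a : Rt a := ⟨π.d_a ▸ π.d_sp _ _, by nth_rw 2 [← π.d_a]; rw [a_mul]; simp [d_one],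
  fun e => (π.pp.pm e.symm (.refl _)).not_comm (by simp)⟩

theorem rb_pp : Pp (π.rb x) (π.rb y) ↔ t2 (x * y⁻¹) = 0 := by
  have e : ∀ z : SL(2, F), z = -z⁻¹ ↔ t2 z = 0 := fun z => by
    rw [← sq_neg_iff, ← mul_left_inj z, neg_mul, inv_mul_cancel]
  rw [Pp, rb_mul, rb_mul, d_eq_neg, show y * x⁻¹ = (x * y⁻¹)⁻¹ by simp, show y⁻¹ * x = (x⁻¹ * y)⁻¹ by simp, e, e,
    ← t2_inv (x⁻¹ * y), t2_comm]
  simp

theorem sur (hg : g ∈ S4 F) (h : g * a = a * g) : ∃ x y, g = π.d x y := by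
  obtain ⟨k, rfl⟩ : ∃ k, g = π.B * k * π.B⁻¹ := ⟨π.B⁻¹ * g * π.B, by simp [mul_assoc]⟩
  have hk : k ∈ S4 F := by simpa [mul_assoc] using mul_mem (mul_mem (inv_mem π.hB) hg) π.hB
  have c : k.val * dl (-1) 1 = dl (-1) 1 * k.val := by
    have : k * d0 (-1) 1 = d0 (-1) 1 * k := by
      have := π.ha; generalize π.B = B at this h; subst this; simpa [mul_assoc] using congrArg (· * B) h
    exact congrArg Units.val this
  have dg : dl (-1 : M2 F) 1 = diagonal (Sum.elim ![-1, 1] ![-1, 1]) := by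
    ext (i | i) (j | j) <;> fin_cases i <;> fin_cases j <;> simp [dl]
  have c' : ∀ i j, Sum.elim ![-1, 1] ![-1, 1] j = -Sum.elim ![(-1 : F), 1] ![-1, 1] i → k.val i j = 0 := fun i j e => by
    have := congrFun (congrFun c i) j
    rw [dg, mul_diagonal, diagonal_mul, e, mul_comm, neg_mul, eq_comm] at this
    refine (mul_eq_zero.1 (eq_zero_of_neg (F := F) this)).resolve_left ?_
    rcases i with i | i <;> fin_cases i <;> simp
  obtain ⟨x, y, e⟩ : ∃ x y, k.val = dl x y := by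
    refine ⟨!![k.val (.inl 0) (.inl 0), k.val (.inl 0) (.inr 0); k.val (.inr 0) (.inl 0), k.val (.inr 0) (.inr 0)],
      !![k.val (.inl 1) (.inl 1), k.val (.inl 1) (.inr 1); k.val (.inr 1) (.inl 1), k.val (.inr 1) (.inr 1)], ?_⟩
    ext (i | i) (j | j) <;> fin_cases i <;> fin_cases j <;> simp [dl] <;> exact c' _ _ (by simp)
  have k1 := mem_S4.1 hk
  have k2 := k.mul_inv
  rw [← k1, e, ad_dl, dl_mul, mul_adjugate, mul_adjugate, ← dl_one] at k2
  have := dl_inj k2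
  have o : ∀ {t : F}, t • (1 : M2 F) = 1 → t = 1 := fun h => by simpa using congrFun (congrFun h 0) 0
  exact ⟨⟨x, o this.1⟩, ⟨y, o this.2⟩, congrArg (π.B * · * π.B⁻¹) (Units.ext e)⟩

theorem sur' (hg : g ∈ S4 F) (h : Pp g a) : ∃ x y, g = π.d x y * b := by
  obtain ⟨x, y, e⟩ := π.sur (mul_mem hg π.b_sp) (h.symm.mul_mul π.pp).symm
  exact ⟨x, y, by rw [← e, mul_assoc, π.bb, mul_one]⟩

theorem sur_rb (hr : Rt r) (h : Pp r a) : ∃ x, r = π.rb x := by
  obtain ⟨x, y, rfl⟩ := π.sur' hr.sp h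
  have := hr.sq
  rw [mul_assoc, ← mul_assoc b, b_mul, mul_assoc, π.bb, mul_one, d_mul, ← d_one, d_inj] at this
  exact ⟨x, by rw [rb, inv_eq_of_mul_eq_one_right this.1]⟩

theorem sur_d (hg : g ∈ S4 F) (h : g * a = a * g) (h' : g * b = b * g) : ∃ x, g = π.d x x := by
  obtain ⟨x, y, rfl⟩ := π.sur hg h
  rw [b_mul, mul_left_inj, d_inj] at h'
  exact ⟨x, by rw [h'.1]⟩

end PM

end H21.Sp
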