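/-
Finite checks in `S₃`, `S₄`, `S₅`.
-/
import Mathlib

set_option autoImplicit false
set_option maxRecDepth 100000
set_option synthInstance.maxSize 2000
set_option synthInstance.maxHeartbeats 200000

namespace H21.Sp
open Equiv

abbrev S5 := Perm (Fin 5)
/-- double transpositions -/
abbrev DT (σ : S5) : Prop := σ * σ = 1 ∧ σ ≠ 1 ∧ Perm.sign σ = 1
def c12 : S5 := swap 1 2 * swap 3 4
def c13 : S5 := swap 1 3 * swap 2 4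
def VV : List S5 := [1, c12, c13, c12 * c13]
/-- the Klein four-group of `S₄` -/
abbrev K4 (σ : Perm (Fin 4)) : Prop := Perm.sign σ = 1 ∧ σ * σ = 1

theorem inv_cases : ∀ σ : S5, σ * σ = 1 → σ ≠ 1 → DT σ ∨ ∃ τ, τ⁻¹ * σ * τ = swap 3 4 := by decide +kernel
theorem dt_conj : ∀ σ : S5, DT σ → ∃ τ, τ⁻¹ * σ * τ = c12 := by decide +kernel
theorem dt_zero : ∀ σ : S5, DT σ → σ 0 = 0 → σ = c12 ∨ σ = c13 ∨ σ = c12 * c13 := by decide +kernel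
theorem dt_VV : DT c12 ∧ DT c13 ∧ DT (c12 * c13) := by decide +kernel
theorem gen5 : ∀ ρ : S5, DT ρ → ρ 1 = 1 → ∀ σ : S5, Perm.sign σ = 1 → ∃ a ∈ VV, ∃ b ∈ VV, ∃ c ∈ VV, ∃ d ∈ VV,
    σ = a * ρ * b * ρ * c * ρ * d ∨ σ = a * ρ * b * ρ * c * ρ * d * ρ := by decide +kernel
theorem two3 : ∀ σ : S5, σ ^ 3 = 1 → σ 3 = 3 → σ 0 ≠ 0 → ∀ ρ : S5, ρ ^ 3 = 1 → ρ 3 ≠ 3 →
    DT (σ * ρ) ∨ DT (σ * ρ⁻¹) ∨ DT (ρ * σ * ρ * σ⁻¹) ∨ DT (ρ * σ * ρ⁻¹ * σ⁻¹) := by decide +kernel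
theorem a5x : ∀ i : S5, DT i → ∀ j, DT j → i * j ≠ 1 → i * j = j * i →
    ∃ x, x * x = 1 ∧ (x * (i * j)) ^ 3 = 1 ∧ x * (i * j) ≠ 1 ∧ Perm.sign x = 1 ∧ (x * i) ^ 3 ≠ 1 ∧ x ≠ 1 ∧
    (∃ c, x * j = c * (x * i * (x * i)) * c⁻¹ ∧ Perm.sign c = 1) ∧ ∀ y, y * y = 1 → (y * (i * j)) ^ 3 = 1 →
      y * (i * j) ≠ 1 → Perm.sign y = 1 → ∃ c, y * i = c * (x * i) * c⁻¹ ∧ Perm.sign c = 1 := by decide +kernel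
theorem tp5 : ∀ ρ : S5, DT ρ → ∀ s, ρ s = s → ∀ t, t ≠ s → ∀ x, x ≠ s → t ≠ x → ρ t ≠ x → ∀ y, x ≠ y → y ≠ s → t ≠ y →
    ρ t ≠ y → ρ x = y := by decide +kernel
theorem fix5 : ∀ σ : S5, σ * σ = 1 → ∃ u, σ u = u := by decide +kernel
theorem dt_fix : ∀ σ : S5, DT σ → ∀ x, σ x = x → ∀ y, y ≠ x → σ y ≠ y := by decide +kernel
theorem third : ∀ x y z : Fin 5, ∃ s, s ≠ x ∧ s ≠ y ∧ s ≠ z := by decide +kernel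
theorem supp5 : ∀ s t u : Fin 5, s ≠ t → s ≠ u → t ≠ u → ∃ x y, x ≠ y ∧ ∀ z, z ≠ x → z ≠ y → z = s ∨ z = t ∨ z = u := by
  decide +kernel
theorem tr3 : ∀ x y z : Fin 5, x ≠ y → x ≠ z → y ≠ z → ∃ σ : S5, Perm.sign σ = 1 ∧ σ 0 = x ∧ σ 1 = y ∧ σ 2 = z := by
  decide +kernel
theorem tr34 : ∀ x y : Fin 5, x ≠ y → ∃ σ : S5, Perm.sign σ = 1 ∧ σ 3 = x ∧ σ 4 = y := by decide +kernel
theorem fix4 : ∀ σ : S5, ∀ x y z u : Fin 5, x ≠ y → x ≠ z → x ≠ u → y ≠ z → y ≠ u → z ≠ u → σ x = x → σ y = y →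
    σ z = z → σ u = u → σ = 1 := by decide +kernel
theorem tri3 : ∀ σ ρ : Perm (Fin 3), σ 1 = 0 → ρ 2 = 0 →
    ∃ x ∈ [σ, ρ, σ * ρ], x ^ 3 = 1 ∧ x 0 ≠ 0 ∧ (x * x) ^ 3 = 1 ∧ (x * x) 0 ≠ 0 := by decide +kernel
theorem s4_b : ∀ t : Perm (Fin 4), t * t = 1 → t ≠ 1 → ∃ g : Perm (Fin 4), Perm.sign g = 1 ∧ g * t * g⁻¹ ≠ t ∧
    g * t * g⁻¹ * t = t * (g * t * g⁻¹) := by decide +kernel
theorem a5_b : ∀ t : S5, t * t = 1 → t ≠ 1 → ∃ g : S5, Perm.sign g = 1 ∧ g * t * g⁻¹ ≠ t ∧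
    g * t * g⁻¹ * t = t * (g * t * g⁻¹) := by decide +kernel
theorem k4a : ∀ x : Perm (Fin 4), x * x = 1 → x ≠ 1 → ∀ y, x * y ≠ 1 → x * y = y * x → ∀ t, t * x * t⁻¹ = y →
    t * y * t⁻¹ = x * y → (∀ σ, K4 σ ↔ σ = 1 ∨ σ = x ∨ σ = y ∨ σ = x * y) ∧ Perm.sign t = 1 ∧ ¬ K4 t := by decide +kernel
theorem k4b : ∀ x : Perm (Fin 4), Perm.sign x ≠ 1 → ∃ q, K4 q ∧ q * x * (q * x) = 1 ∧ Perm.sign (q * x) ≠ 1 := by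
  decide +kernel
theorem k4c : ∀ x : Perm (Fin 4), Perm.sign x = 1 → ¬ K4 x → ∀ t, Perm.sign t = 1 → ¬ K4 t →
    K4 (x * t) ∧ ¬ K4 (x⁻¹ * t) ∨ K4 (x⁻¹ * t) ∧ ¬ K4 (x * t) := by decide +kernel
theorem k4d : ∀ y : Perm (Fin 4), Perm.sign y = 1 → ¬ K4 y → y ^ 3 = 1 ∧ ¬ K4 (y * y) ∧
    (∀ σ, Perm.sign σ = 1 → K4 σ ∨ K4 (σ * y) ∨ K4 (σ * y * y)) ∧ ∀ x, Perm.sign x = 1 →
      x * y * x⁻¹ = 1 ∨ x * y * x⁻¹ = y ∨ x * y * x⁻¹ = y * y → x = 1 ∨ x = y ∨ x = y * y := by decide +kernel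

end H21.Sp
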