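/-
A finite check in `S₅`.
-/
import Cfsg.Agent.H21.Sp6

set_option autoImplicit false
set_option maxRecDepth 100000
set_option synthInstance.maxSize 2000

namespace H21.Sp
open Equiv Equiv.Perm

theorem s5_key : ∀ σ : S5, σ * σ = 1 → ∀ τ a, a = τ * σ * τ⁻¹ → σ * a = a * σ → ∀ b, b = τ * a * τ⁻¹ → σ * b = b * σ →
    ∀ c, c = τ * b * τ⁻¹ → ∀ d, d = τ * c * τ⁻¹ → σ = τ * d * τ⁻¹ → σ * a * (b * c) = d → σ = 1 := by
  simp only [forall_eq]; decide +kernel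

theorem s5_tr : ∀ s t : Fin 5, ∃ k : Fin 5, (finRotate 5 ^ k.1) s = t := by decide

end H21.Sp
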