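/-
Four-dimensional symplectic groups, part 3: consequences of Dickson's theorem for subgroups of `SL₂(q)`
containing a quaternion group.
-/
import Cfsg.Agent.H21.Sp2
import Cfsg.Agent.H27.Quat2
import Cfsg.Agent.H11.LowDim

set_option autoImplicit false
set_option linter.unusedSectionVars false

namespace H21.Sp
open Matrix Cfsg H27 Equiv
open scoped MatrixGroups

variable {F : Type*} [Field F]

theorem cent_ul [NeZero (2 : F)] {t : PG F} (h1 : t * pgm (upT 1) = pgm (upT 1) * t)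
    (h3 : t * pgm (loT 1) = pgm (loT 1) * t) : t = 1 := by
  obtain ⟨g, rfl⟩ := ProjGenLinGroup.mk_surjective t
  have d := gl_det_ne g
  have z : ∀ {t : F}, t = -t → t = 0 := eq_zero_of_neg (F := F)
  rw [pg_mk_eq_one_iff]
  rcases comm_sign h1 with a | a <;> rcases comm_sign h3 with b | b <;>
    have a0 := a 0 0 <;> have a1 := a 0 1 <;> have a2 := a 1 0 <;> have a3 := a 1 1 <;>
    have b0 := b 0 0 <;> have b1 := b 0 1 <;> have b2 := b 1 0 <;> have b3 := b 1 1 <;>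
    simp only [upT, loT, gl_mul_apply, gl2_00, gl2_01, gl2_10, gl2_11, one_mul, mul_one, mul_zero, zero_mul, add_zero,
      zero_add] at a0 a1 a2 a3 b0 b1 b2 b3
  · exact ⟨by linear_combination -b0, by linear_combination a0, by linear_combination -a1⟩
  · have := z b1
    exact absurd (by rw [this, z (t := g 0 0) (by linear_combination b0 - this)]; ring) d
  all_goals
    have := z a2
    exact absurd (by rw [this, z (t := g 0 0) (by linear_combination a0 - this)]; ring) d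

theorem dkP [Fintype F] [h2 : NeZero (2 : F)] (p : ℕ) [hp : Fact p.Prime] [CharP F p] {H : Subgroup (PG F)}
    {x y : PG F} (hx : x ∈ H) (hy : y ∈ H) (K : KP x y) :
    (∃ z, (z = x ∨ z = y ∨ z = x * y) ∧ ∀ g ∈ H, g * z = z * g) ∨
    (∃ Φ : Perm (Fin 4) →* PG F, Function.Injective Φ ∧ (alternatingGroup (Fin 4)).map Φ ≤ H ∧ H ≤ Φ.range) ∨
    Nonempty (H ≃* alternatingGroup (Fin 5)) ∨
    ∀ L ≤ H, (∀ g ∈ H, ∀ m ∈ L, g * m * g⁻¹ ∈ L) → (∀ m ∈ L, m ^ p = 1 → m = 1) → ∀ t ∈ L, t = 1 := by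
  have inv : ∀ {g : PG F}, g ^ 2 = 1 → g⁻¹ = g := fun h => inv_eq_of_mul_eq_one_right (by rwa [← sq])
  have s4' : ∀ Φ : Perm (Fin 4) →* PG F, Function.Injective Φ → H ≤ Φ.range → Nat.card H = 12 ∨ Nat.card H = 24 →
      ∃ Φ : Perm (Fin 4) →* PG F, Function.Injective Φ ∧ (alternatingGroup (Fin 4)).map Φ ≤ H ∧ H ≤ Φ.range :=
    fun Φ hΦ l h => ⟨Φ, hΦ, by
      rcases h with h | h
      · exact (eq_map_alt_of_card hΦ l h).ge
      · rw [Subgroup.eq_of_le_of_card_ge l (by rw [h, card_range_of_injective hΦ, card_S4])]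
        exact Subgroup.map_le_range _ _, l⟩
  rcases dickson_hom p H.subtype H.subtype_injective with ⟨h, -⟩ | ⟨-, z, hz⟩ | ⟨c, -, hi, h⟩ |
    ⟨-, e | e | e⟩ | ⟨-, e⟩ | ⟨c, F₀, h3, hc, h1, h4⟩
  · exact .inl ⟨x, .inl rfl, fun g hg => congrArg Subtype.val (h.commGroup.mul_comm ⟨g, hg⟩ ⟨x, hx⟩)⟩
  · exact absurd (K.not_fixed h2.1 (hz ⟨x, hx⟩) (hz ⟨y, hy⟩)) not_false
  · have k : ∀ z : H, z ∈ Subgroup.zpowers c → z ^ 2 = 1 → ∀ g ∈ H, g * z = z * g := fun z hz e g hg => by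
      by_cases m : (⟨g, hg⟩ : H) ∈ Subgroup.zpowers c
      · exact congrArg Subtype.val (mul_comm' (⟨_, m⟩ : Subgroup.zpowers c) ⟨z, hz⟩ |> congrArg Subtype.val)
      · have a := h _ m
        have b := h (⟨g, hg⟩ * z) fun e => m (by simpa using mul_mem e (inv_mem hz))
        rw [← sq] at a b
        have a' := inv (congrArg Subtype.val a)
        have b' := inv (congrArg Subtype.val b)
        have e' := inv (congrArg Subtype.val e)
        simp only [Subgroup.coe_mul, _root_.mul_inv_rev] at a' b' e'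
        rw [← b', a', e']
    refine .inl ?_
    by_cases m : (⟨x, hx⟩ : H) ∈ Subgroup.zpowers c
    · exact ⟨x, .inl rfl, k _ m (Subtype.ext K.x2)⟩
    by_cases m' : (⟨y, hy⟩ : H) ∈ Subgroup.zpowers c
    · exact ⟨y, .inr (.inl rfl), k _ m' (Subtype.ext K.y2)⟩
    exact ⟨_, .inr (.inr rfl), k (⟨x, hx⟩ * ⟨y, hy⟩) ((Subgroup.mul_mem_iff_of_index_two hi).2 (iff_of_false m m'))
      (Subtype.ext K.xy2)⟩
  · obtain ⟨S, l, e'⟩ := A4_le_S4 h2.1 e
    obtain ⟨Φ, hΦ, rfl⟩ := exists_hom_of_equiv e'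
    exact .inr (.inl (s4' Φ hΦ l (.inl (by rw [Nat.card_congr e.some.toEquiv, card_A4]))))
  · obtain ⟨Φ, hΦ, r⟩ := exists_hom_of_equiv e
    exact .inr (.inl (s4' Φ hΦ r.ge (.inr (by rw [Nat.card_congr e.some.toEquiv, card_S4]))))
  · exact .inr (.inr (.inl e))
  · exact .inr (.inr (.inl e))
  rw [Subgroup.range_subtype] at h1
  letI := Fintype.ofFinite F₀
  have l1 : cj c (pslOf F₀) ≤ H := by rintro _ ⟨g, hg, rfl⟩; exact h1 g hg
  have l2 : H ≤ cj c (pglOf F₀) := fun g hg => mem_cj.2 (h4 ⟨g, hg⟩)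
  have t0 : (2 : F₀) ≠ 0 := fun e => h2.1 (congrArg Subtype.val e)
  by_cases h5 : Nat.card F₀ = 3
  · obtain ⟨ψ, hψ, -⟩ := exists_S4 t0
    have hs : ψ.range = ⊤ := Subgroup.eq_top_of_card_eq _ (by
      rw [card_range_of_injective hψ, card_S4, card_PG, ← Nat.card_eq_fintype_card, h5]; rfl)
    refine .inr (.inl (s4' (((MulAut.conj c).toMonoidHom.comp (ProjGenLinGroup.map F₀.subtype)).comp ψ)
      (((MulAut.conj c).injective.comp (pgmap_injective _)).comp hψ) (l2.trans ?_) ?_))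
    · rintro _ ⟨_, ⟨g, rfl⟩, rfl⟩
      obtain ⟨g, rfl⟩ := hs.ge (Subgroup.mem_top g)
      exact ⟨g, rfl⟩
    · have c1 := card_pslOf F₀
      have c2 := card_pglOf F₀
      rw [h5] at c1 c2
      have d1 := Subgroup.card_dvd_of_le l1
      have d2 := Subgroup.card_dvd_of_le l2
      rw [card_cj] at d1 d2
      rw [show Nat.card (pslOf F₀) = 12 by norm_num at c1; omega] at d1
      obtain ⟨k, hk⟩ := d1
      rw [c2, hk] at d2
      have := Nat.le_of_dvd (by norm_num) d2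
      have : k ≠ 0 := by rintro rfl; simp at d2
      omega
  have mu : ∀ s : F₀, pgm (upT (s : F)) ∈ pslOf F₀ := fun s => mem_pslOf_iff.2 ⟨_, rfl, fun i j => by
    fin_cases i <;> fin_cases j <;> simp [upT], by simp [upT]⟩
  have ml : ∀ s : F₀, pgm (loT (s : F)) ∈ pslOf F₀ := fun s => mem_pslOf_iff.2 ⟨_, rfl, fun i j => by
    fin_cases i <;> fin_cases j <;> simp [loT], by simp [loT]⟩
  have pu : ∀ s : F, (pgm (upT s) : PG F) ^ p = 1 := fun s => ((unip_inf_iff p _).2 ⟨s, rfl⟩).2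
  refine .inr (.inr (.inr fun L hL hn hu t ht => ?_))
  · skip
    haveI := H11.psl2_simple (F := F₀) (by rw [← Nat.card_eq_fintype_card]; omega)
    haveI := ((pslOfEquiv F₀).trans (cjEquiv c _)).symm.isSimpleGroup
    have : (L.subgroupOf (cj c (pslOf F₀))).Normal := ⟨fun m hm g => hn _ (l1 g.2) _ hm⟩
    rcases this.eq_bot_or_eq_top with k | k
    · have e : ∀ g ∈ pslOf F₀, c⁻¹ * t * c * g = g * (c⁻¹ * t * c) := fun g hg => by
        have m1 := mul_mem ht (hn _ (h1 g hg) _ (inv_mem ht))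
        have m2 : t * (c * g * c⁻¹ * t⁻¹ * (c * g * c⁻¹)⁻¹) ∈ cj c (pslOf F₀) := by
          have n : c⁻¹ * t * c * g * (c⁻¹ * t * c)⁻¹ ∈ pslOf F₀ := by
            obtain ⟨s, hs⟩ := h4 ⟨t, hL ht⟩
            rw [pslOf_eq_map] at hg ⊢
            obtain ⟨g, hg, rfl⟩ := hg
            exact ⟨_, instPSNormal.conj_mem g hg s, by rw [map_mul, map_mul, map_inv, hs]; rfl⟩
          rw [mem_cj]
          simpa [mul_assoc] using mul_mem n (inv_mem hg)
        have := congrArg Subtype.val ((Subgroup.eq_bot_iff_forall _).1 k ⟨_, m2⟩ m1)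
        simp only [OneMemClass.coe_one, ← mul_assoc, _root_.mul_inv_rev, inv_inv, mul_inv_eq_one] at this
        simpa [mul_assoc] using congrArg (fun z => c⁻¹ * z * g * c⁻¹ * t * c) this
      have := cent_ul (e _ (mu 1)) (e _ (ml 1))
      simpa [mul_assoc] using congrArg (fun z => c * z * c⁻¹) this
    · have := hu _ (k.ge (Subgroup.mem_top ⟨_, pgm (upT 1), mu 1, rfl⟩)) (by
        simp [conj_pow, pu])
      simp only [MulEquiv.coe_toMonoidHom, MulAut.conj_apply, conj_eq_one_iff, Subgroup.coe_subtype] at this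
      exact absurd (mk_upT_inj (s := (1 : F)) (t := 0) (this.trans (by rw [upT_zero]; rfl))) one_ne_zero

theorem lift_hom {A B C : Type*} [Group A] [Group B] [Group C] (κ : A →* C) {Φ : B →* C} (h : Function.Injective Φ)
    (l : ∀ x, κ x ∈ Φ.range) : ∃ ψ : A →* B, ∀ x, Φ (ψ x) = κ x :=
  ⟨(MonoidHom.ofInjective h).symm.toMonoidHom.comp (κ.codRestrict _ l), fun x =>
    congrArg Subtype.val ((MonoidHom.ofInjective h).apply_symm_apply ⟨κ x, l x⟩)⟩

theorem toPGL_eq [NeZero (2 : F)] {x y : SL(2, F)} :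
    SpecialLinearGroup.toPGL (n := Fin 2) x = SpecialLinearGroup.toPGL y ↔ pm x y := by
  constructor
  · intro h
    obtain ⟨c, -, hc⟩ := (pg_mk_eq_mk_iff _ _).1 h.symm
    have e : mv x = c • mv y := Matrix.ext hc
    have d := congrArg det e
    rw [det_smul, mv_det, mv_det, mul_one, Fintype.card_fin] at d
    rcases sq_eq_one_iff.1 d.symm with rfl | rfl
    · exact .inl (mv_inj.2 (by rw [e, one_smul]))
    · exact .inr (mv_inj.2 (by rw [e, mv_neg, neg_smul, one_smul]))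
  · rintro (rfl | rfl)
    · rfl
    · exact ((pg_mk_eq_mk_iff _ _).2 ⟨-1, by simp, fun i j => by simp⟩).symm

/-- Dickson's theorem for subgroups of `SL₂(q)` containing a quaternion group -/
theorem dk [Fintype F] [h2 : NeZero (2 : F)] (p : ℕ) [hp : Fact p.Prime] [CharP F p] {N : Subgroup SL(2, F)}
    {i j : SL(2, F)} (hi : i ∈ N) (hj : j ∈ N) (h : Pp i j) :
    (∃ z, (z = i ∨ z = j ∨ z = i * j) ∧ ∀ g ∈ N, g ∈ Np z) ∨
    (∃ ψ : N →* Perm (Fin 4), (∀ x y, ψ x = ψ y ↔ pm x.1 y.1) ∧ ∀ σ, Perm.sign σ = 1 → ∃ x, ψ x = σ) ∨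
    (∃ ψ : N →* alternatingGroup (Fin 5), (∀ x y, ψ x = ψ y ↔ pm x.1 y.1) ∧ Function.Surjective ψ) ∨
    ∀ M ≤ N, (∀ g ∈ N, ∀ m ∈ M, g * m * g⁻¹ ∈ M) → (∀ m ∈ M, m ^ p = 1 → m = 1) → ∀ t ∈ M, pm t 1 := by
  let κ := SpecialLinearGroup.toPGL (n := Fin 2) (R := F)
  have K : KP (κ i) (κ j) := QP.kp h2.1 ⟨sq_neg_iff.1 h.sq2 |> (t2_eq i).symm.trans, det2 i,
    sq_neg_iff.1 h.symm.sq2 |> (t2_eq j).symm.trans, det2 j,
    sq_neg_iff.1 (Pp.comm_mul rfl h).symm.sq2 |> (t2_eq (i * j)).symm.trans⟩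
  rcases dkP p (H := N.map κ) ⟨i, hi, rfl⟩ ⟨j, hj, rfl⟩ K with ⟨z, hz, e⟩ | ⟨Φ, hΦ, l1, l2⟩ | e | e
  · obtain ⟨w, hw, rfl⟩ : ∃ w, (w = i ∨ w = j ∨ w = i * j) ∧ κ w = z := by
      rcases hz with rfl | rfl | rfl
      exacts [⟨_, .inl rfl, rfl⟩, ⟨_, .inr (.inl rfl), rfl⟩, ⟨_, .inr (.inr rfl), map_mul ..⟩]
    exact .inl ⟨w, hw, fun g hg => mem_Np.2 (toPGL_eq.1 (by simpa only [map_mul] using e _ ⟨g, hg, rfl⟩))⟩
  · obtain ⟨ψ, hψ⟩ := lift_hom (κ.comp N.subtype) hΦ fun x => l2 ⟨x, x.2, rfl⟩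
    refine .inr (.inl ⟨ψ, fun x y => by rw [← hΦ.eq_iff, hψ, hψ]; exact toPGL_eq, fun σ hσ => ?_⟩)
    obtain ⟨x, hx, e⟩ := l1 ⟨σ, hσ, rfl⟩
    exact ⟨⟨x, hx⟩, hΦ ((hψ _).trans e)⟩
  · obtain ⟨Φ, hΦ, r⟩ := exists_hom_of_equiv e
    obtain ⟨ψ, hψ⟩ := lift_hom (κ.comp N.subtype) hΦ fun x => r.ge ⟨x, x.2, rfl⟩
    refine .inr (.inr (.inl ⟨ψ, fun x y => by rw [← hΦ.eq_iff, hψ, hψ]; exact toPGL_eq, fun σ => ?_⟩))
    obtain ⟨x, hx, e⟩ := r.le ⟨σ, rfl⟩
    exact ⟨⟨x, hx⟩, hΦ ((hψ _).trans e)⟩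
  refine .inr (.inr (.inr fun M l n u t ht => toPGL_eq.1 ((e (M.map κ) (Subgroup.map_mono l) ?_ ?_ _ ⟨t, ht, rfl⟩).trans
    (map_one κ).symm)))
  · rintro _ ⟨g, hg, rfl⟩ _ ⟨m, hm, rfl⟩
    exact ⟨_, n g hg m hm, by simp⟩
  · rintro _ ⟨m, hm, rfl⟩ e
    have := (toPGL_eq.1 ((map_pow κ m p).trans (e.trans (map_one κ).symm))).sq
    exact (toPGL_eq.2 (pm_one_of_sq (u _ (mul_mem hm hm) (by rw [← sq, ← pow_mul, mul_comm, pow_mul, sq, this, one_mul])))).trans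
      (map_one κ)

end H21.Sp
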