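import Cfsg.Agent.H21.TIT2

/-! Faithful irreducible modules of groups with a cyclic TI Sylow subgroup. -/

namespace H21
open Subgroup Finset MulAction Module

variable {G : Type*} [Group G] [Finite G] {p : ℕ} {x : G}
local notation "𝐍" x:max => normalizer (SetLike.coe (zpowers x))

theorem trq_sub_mem' {A : Type*} [AddCommGroup A] {P : Subgroup G} {F : G → A}
    (hP : ∀ u ∈ P, u ≠ 1 → ∀ g, g⁻¹ * u * g ∈ P → g ∈ normalizer (P : Set G))
    (hF : ∀ g, ∀ u ∈ P, F (g * u) = F g) [Fintype P] (S : AddSubgroup A) (a : A)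
    (h1 : ∀ n ∈ normalizer (P : Set G), F n - a ∈ S) (h2 : ∀ g, ∑ u : P, F (u * g) ∈ S) :
    trq P F - P.relIndex (normalizer (P : Set G)) • a ∈ S := by
  classical
  let _ := Fintype.ofFinite (G ⧸ P)
  have hc : #{c : G ⧸ P | c ∈ fixedPoints P (G ⧸ P)} = P.relIndex (normalizer (P : Set G)) := by
    rw [← Fintype.card_subtype, ← Nat.card_eq_fintype_card]
    exact Nat.card_congr (Sylow.fixedPointsMulLeftCosetsEquivQuotient P)
  unfold trq
  rw [← sum_filter_add_sum_filter_not univ (fun c : G ⧸ P => c ∈ fixedPoints P (G ⧸ P)),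
    add_sub_right_comm, ← hc, ← sum_const, ← sum_sub_distrib]
  refine S.add_mem (S.sum_mem fun c hc => h1 _ ?_) ?_
  · rw [← Sylow.mem_fixedPoints_mul_left_cosets_iff_mem_normalizer, QuotientGroup.out_eq']
    exact (mem_filter.1 hc).2
  refine sum_mem_of_free (P := P) S _ _ ?_ ?_ ?_
  · intro u c hc
    rw [mem_filter] at hc ⊢
    refine ⟨mem_univ _, fun h => hc.2 ?_⟩
    have := h u⁻¹
    rw [inv_smul_smul] at this
    rwa [← this] at h
  · intro u c hc e
    by_contra h
    refine (mem_filter.1 hc).2 ?_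
    rw [← QuotientGroup.out_eq' c] at e ⊢
    exact Sylow.mem_fixedPoints_mul_left_cosets_iff_mem_normalizer.2
      (hP u u.2 (fun e => h (Subtype.ext e)) _ ((smul_mk_eq_iff _ _ _).1 e))
  · intro c _
    convert h2 c.out using 2 with u
    exact (congrArg (fun z : G ⧸ P => F z.out) (Quotient.coe_smul_out P (u : G) c).symm).trans
      (apply_out hF _)

theorem cyclic_ti_dim [hp : Fact p.Prime] {n : ℕ} (hn : 2 ≤ n) (hx : orderOf x = p ^ n)
    (hi : ¬ p ∣ (zpowers x).index)
    (hP : ∀ u ∈ zpowers x, u ≠ 1 → ∀ g, g⁻¹ * u * g ∈ zpowers x → g ∈ 𝐍 x)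
    {K V : Type*} [Field K] [CharP K p] [AddCommGroup V] [Module K V] [FiniteDimensional K V]
    (ρ : Representation K G V) (hf : Function.Injective ρ) (hirr : ρ.IsIrreducible) :
    p ^ n - (p - 1) ≤ finrank K V := by
  by_contra hlt
  have hp0 := hp.out.pos
  set y := ρ x - 1 with hy
  have hy0 : y ^ (p - 1) ≠ 0 := fun e => by
    have h0 : y ^ p = 0 := pow_eq_zero_of_le (Nat.sub_le _ _) e
    have _ : Nontrivial (End K V) := nontrivial_of_ne (ρ x) (ρ 1) fun e => by
      rw [hf e, orderOf_one] at hx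
      exact (Nat.one_lt_pow (by omega) hp.out.one_lt).ne hx
    have := charP_of_injective_algebraMap (algebraMap K (End K V)).injective p
    rw [hy, sub_pow_char_of_commute p (Commute.one_right _), one_pow, sub_eq_zero, ← map_pow,
      ← map_one ρ] at h0
    have := orderOf_dvd_of_pow_eq_one (hf h0)
    rw [hx] at this
    exact absurd (Nat.le_of_dvd hp0 this) (not_le.2 (by
      simpa using Nat.pow_lt_pow_right hp.out.one_lt (show 1 < n by omega)))
  have _ : Nontrivial (End K V) := nontrivial_of_ne _ _ hy0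
  have := charP_of_injective_algebraMap (algebraMap K (End K V)).injective p
  have hnil : IsNilpotent y := ⟨p ^ n, by
    rw [hy, sub_pow_char_pow_of_commute p n (Commute.one_right _), ← map_pow, ← hx,
      pow_orderOf_eq_one]; simp⟩
  have hyd : y ^ finrank K V = 0 := by
    simpa [hnil.charpoly_eq_X_pow_finrank] using y.aeval_self_charpoly
  let F : G → End K V := fun g => ρ g * y ^ (p - 1) * ρ g⁻¹
  have hc : ∀ u ∈ zpowers x, Commute (ρ u) y := fun u hu => by
    obtain ⟨k, rfl⟩ := mem_powers_iff_mem_zpowers.2 hu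
    simpa only [map_pow] using ((Commute.refl (ρ x)).sub_right (Commute.one_right _)).pow_left k
  have hF : ∀ g, ∀ u ∈ zpowers x, F (g * u) = F g := fun g u hu => by
    simp only [F, mul_inv_rev, map_mul, mul_assoc]
    rw [← mul_assoc (ρ u), ((hc u hu).pow_right _).eq, mul_assoc, ← mul_assoc (ρ u), ← map_mul,
      mul_inv_cancel, map_one, one_mul]
  have ΦG : ∀ g, ρ g * trq (zpowers x) F = trq (zpowers x) F * ρ g := fun g => by
    refine (map_trq (AddMonoidHom.mulLeft (ρ g)) _ _).trans (Eq.trans ?_ (congrArg (· * ρ g)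
      (trq_mul hF g)))
    refine Eq.trans ?_ (map_trq (AddMonoidHom.mulRight (ρ g)) _ _).symm
    congr 1
    funext c
    simp only [F, AddMonoidHom.coe_mulLeft, AddMonoidHom.coe_mulRight, mul_inv_rev, map_mul,
      mul_assoc]
    rw [← map_mul ρ g⁻¹, inv_mul_cancel, map_one, mul_one]
  have key := trq_sub_mem' hP hF (AddMonoidHom.mulLeft (y ^ p)).range (y ^ (p - 1))
    (fun m hm => ?_) fun g => ?_
  · obtain ⟨z, hz⟩ := key
    set q : K := (((zpowers x).relIndex (𝐍 x) : ℕ) : K)
    have hq : q ≠ 0 := fun e => hi (((CharP.cast_eq_zero_iff K p _).1 e).trans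
      (Dvd.intro _ (relIndex_mul_index le_normalizer)))
    have e : trq (zpowers x) F = y ^ (p - 1) * (q • 1 + y * z) := by
      rw [mul_add, ← mul_assoc, ← pow_succ, Nat.sub_add_cancel hp0, mul_smul_comm, mul_one,
        Nat.cast_smul_eq_nsmul, ← sub_eq_iff_eq_add', ← hz]; rfl
    let W : Subrepresentation ρ := ⟨LinearMap.range (trq (zpowers x) F), by
      rintro g _ ⟨v, rfl⟩
      exact ⟨ρ g v, by rw [← End.mul_apply, ← ΦG, End.mul_apply]⟩⟩
    rcases eq_bot_or_eq_top W with h | h
    · have h0 : trq (zpowers x) F = 0 := LinearMap.range_eq_bot.1 (congrArg (·.toSubmodule) h)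
      have h1 : y ^ (p - 1) = y * y ^ (p - 1) * (-q⁻¹ • z) := by
        rw [h0, mul_add, mul_smul_comm, mul_one, eq_comm, add_eq_zero_iff_eq_neg] at e
        rw [mul_smul_comm, ← pow_succ', pow_succ, mul_assoc, neg_smul, ← smul_neg, ← e, smul_smul,
          inv_mul_cancel₀ hq, one_smul]
      have h2 : ∀ k, y ^ (p - 1) = y ^ k * y ^ (p - 1) * (-q⁻¹ • z) ^ k := fun k => by
        induction k with
        | zero => simp
        | succ k ih => rw [pow_succ, pow_succ' (_ • z), mul_assoc (y ^ k), mul_assoc, ← mul_assoc (y * _),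
            ← h1, ← mul_assoc, ← ih]
      exact hy0 (by rw [h2 (finrank K V), hyd, zero_mul, zero_mul])
    · have h0 : Function.Surjective ⇑(trq (zpowers x) F) :=
        LinearMap.range_eq_top.1 (congrArg (·.toSubmodule) h)
      rw [e, End.coe_mul] at h0
      exact (hnil.pow_of_pos (by have := hp.out.two_le; omega)).not_isUnit
        ((LinearMap.isUnit_iff_range_eq_top _).2 (LinearMap.range_eq_top.2 h0.of_comp))
  · obtain ⟨b, hb⟩ := LogMod.exists_pow hm
    have hb0 : ¬ p ∣ b := fun e => by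
      have h1 : orderOf (x ^ b) = p ^ n := by rw [← hb, ← hx]; exact (MulAut.conj m).orderOf_eq x
      rw [orderOf_pow' _ (fun e => by
        rw [e, pow_zero, orderOf_one] at h1
        exact (Nat.one_lt_pow (by omega) hp.out.one_lt).ne h1), hx, Nat.div_eq_self] at h1
      have := Nat.dvd_gcd (dvd_pow_self p (by omega : n ≠ 0)) e
      rw [h1.resolve_left (pow_ne_zero _ hp0.ne'), Nat.dvd_one] at this
      exact hp.out.ne_one this
    have e : SemiconjBy (ρ m) y (ρ x ^ b - 1) := by
      rw [SemiconjBy, ← map_pow, ← hb, hy, sub_mul, mul_sub, ← map_mul, ← map_mul]; simp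
    obtain ⟨r, hr⟩ : (Polynomial.X : Polynomial K) ∣ (1 + Polynomial.X) ^ b - 1 := by
      have := sub_dvd_pow_sub_pow (1 + Polynomial.X : Polynomial K) 1 b
      rwa [add_sub_cancel_left, one_pow] at this
    have hr0 : r.coeff 0 = b := by
      rw [← Polynomial.coeff_X_mul, ← hr]; simp [Polynomial.coeff_one_add_X_pow, Polynomial.coeff_one]
    obtain ⟨s, hs⟩ : (Polynomial.X : Polynomial K) ∣ r ^ (p - 1) - 1 := by
      rw [Polynomial.X_dvd_iff, Polynomial.coeff_sub, Polynomial.coeff_zero_eq_eval_zero,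
        Polynomial.eval_pow, ← Polynomial.coeff_zero_eq_eval_zero, hr0, Polynomial.coeff_one_zero,
        ← map_natCast (ZMod.castHom (dvd_refl p) K), ← map_pow, ZMod.pow_card_sub_one_eq_one
        (by rwa [Ne, ZMod.natCast_eq_zero_iff]), map_one, sub_self]
    refine ⟨Polynomial.aeval y s, ?_⟩
    have e1 := congrArg (Polynomial.aeval y) hr
    have e2 := congrArg (Polynomial.aeval y) (show (Polynomial.X * r) ^ (p - 1) - Polynomial.X ^ (p - 1)
      = Polynomial.X ^ (p - 1 + 1) * s by rw [mul_pow, pow_succ, mul_assoc, ← hs]; ring)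
    rw [Nat.sub_add_cancel hp0, map_sub, map_pow, ← e1] at e2
    simp only [F]
    rw [(e.pow_right _).eq, mul_assoc, ← map_mul, mul_inv_cancel, map_one, mul_one]
    simpa [hy] using e2.symm
  · have : Nontrivial (End K (End K V)) := inferInstance
    have h1 := (pow_sub_one_eq_sum (k := K) (p := p) (a := n) (n := p ^ n - 1)
      (Nat.sub_add_cancel (pow_pos hp0 n)) (adj K ρ x - 1)).1
    rw [Nat.sub_add_cancel (pow_pos hp0 n), sub_add_cancel] at h1
    have e : adj K ρ x - 1 = LinearMap.mulRight K (ρ x⁻¹) *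
        (LinearMap.mulLeft K y - LinearMap.mulRight K y) := by
      ext1 v
      simp [adj_apply, hy, sub_mul, mul_sub, mul_assoc, ← map_mul]
    have c2 := LinearMap.commute_mulLeft_right (R := K) y y
    obtain ⟨c, hc'⟩ := c2.pow_dvd_sub_pow_of_pow_eq_zero_right (m := p) (p := p ^ n - 1)
      (n := finrank K V) (by have := pow_pos hp0 n; omega) (by simp [hyd])
    rw [e, Commute.mul_pow, hc'] at h1
    · refine ⟨c (F g) * ρ x⁻¹ ^ (p ^ n - 1), ?_⟩
      have := LinearMap.congr_fun h1 (F g)
      simp only [LinearMap.pow_mulRight, LinearMap.pow_mulLeft, End.mul_apply,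
        LinearMap.mulRight_apply, LinearMap.mulLeft_apply, mul_assoc] at this
      rw [AddMonoidHom.coe_mulLeft, this, LinearMap.sum_apply, ← hx, ← Fin.sum_univ_eq_sum_range
        (fun i => (adj K ρ x ^ i) (F g))]
      refine Fintype.sum_equiv (finEquivZPowers (isOfFinOrder_of_finite x)) _ _ fun i => ?_
      simp [finEquivZPowers_apply, ← map_pow, adj_apply, F, mul_assoc]
    · refine Commute.sub_right (LinearMap.commute_mulLeft_right _ _).symm ?_
      ext1 v; simp [mul_assoc, (hc _ (inv_mem (mem_zpowers x))).eq]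

end H21
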